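/-
No simple groups of orders 288, 576, 612, 756, 1008, 1040, 1080.
-/
import Cfsg.Agent.Dih.SieveTbl

set_option autoImplicit false
set_option linter.unusedSectionVars false

namespace CA.Dih

open Subgroup Cfsg CA.FG CA.BG MulAction
open scoped commutatorElement

universe u v

variable {G : Type u} [Group G] [Finite G] {p : ℕ}

/-- the `A`-class of `w` -/
def cls (A : Subgroup G) (w : G) : Set G := {y | ∃ a ∈ A, a * w * a⁻¹ = y}

theorem ncard_cls (A : Subgroup G) (w : G) : (cls A w).ncard = (𝒞[w]).relIndex A := by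
  let i : MulAction G G := MulAction.compHom G (MulAut.conj (G := G))
  have h := @ncard_orbit G _ _ G i _ A w
  have e1 : @stabilizer G G _ i w = 𝒞[w] := by
    ext x
    exact mul_inv_eq_iff_eq_mul.trans mem_centralizer_singleton_iff.symm
  rw [e1] at h
  rw [← h]
  congr 1
  ext y
  exact ⟨fun ⟨a, ha, e⟩ => ⟨⟨a, ha⟩, e⟩, fun ⟨a, e⟩ => ⟨a, a.2, e⟩⟩

theorem sq_eq_one_of_orderOf {t : G} (h : orderOf t = 2) : t * t = 1 := by rw [← pow_two, ← h, pow_orderOf_eq_one]

theorem ne_one_of_orderOf {t : G} (hp : p.Prime) (h : orderOf t = p) : t ≠ 1 :=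
  fun e => hp.one_lt.ne' (by rw [← h, e, orderOf_one])

theorem orderOf_two {t : G} (h : t * t = 1) (h1 : t ≠ 1) : orderOf t = 2 :=
  orderOf_eq_prime (by rw [pow_two, h]) h1

/-- an involution of a simple group is conjugate into every subgroup of index not divisible by `4` -/
theorem exists_mem_conj_of_index (hG : ⁅(⊤ : Subgroup G), (⊤ : Subgroup G)⁆ = ⊤) {H : Subgroup G}
    (h : ¬ 4 ∣ H.index) {t : G} (ht : t * t = 1) : ∃ g, g⁻¹ * t * g ∈ H := by
  have h1 := four_dvd_ncard_compl (Ω := G ⧸ H) hG ht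
  have h2 := moved_add_fixed H t
  obtain ⟨x, hx⟩ := (Set.ncard_pos (s := fixedBy (G ⧸ H) t) (Set.toFinite _)).1
    (Nat.pos_of_ne_zero fun e => h (by rwa [← h2, e]))
  obtain ⟨g, rfl⟩ := QuotientGroup.mk_surjective x
  exact ⟨g, smul_coset_iff.1 hx⟩

theorem card_cent1_conj (t g : G) : Nat.card 𝒞[g⁻¹ * t * g] = Nat.card 𝒞[t] := by
  rw [← card_conjg _ g, conjg_cent1]; congr; group

/-- two Sylow subgroups of order `p ^ 2` meeting nontrivially -/
theorem cent_facts (hp : p.Prime) {P : Subgroup G} (hP : IsSylowOf p P ⊤) (ha : Nat.card P = p ^ 2) {y g : G}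
    (hy : y ∈ P) (hy' : y ∈ P :^ g) (hg : g ∉ 𝒩(P)) : P ≤ 𝒞[y] ∧ 1 < (𝒩(P)).relIndex 𝒞[y] ∧
      p ∣ (𝒩(P)).relIndex 𝒞[y] - 1 ∧ p ^ 2 * (𝒩(P)).relIndex 𝒞[y] ∣ Nat.card 𝒞[y] := by
  have cP := abelian_of_card_le_sq hp hP.pGrp ha.le
  have h1 : P ≤ 𝒞[y] := (abelian_iff_le_cent.1 cP).trans (cent_le_cent_singleton hy)
  have h2 : P :^ g ≤ 𝒞[y] := (abelian_iff_le_cent.1 (abelian_conjg.2 cP)).trans (cent_le_cent_singleton hy')
  refine ⟨h1, one_lt_relIndex fun h => hg ?_, relIndex_norm_mod hp (hP.of_le h1 le_top), ?_⟩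
  · exact mem_norm_of_conjg_le (hP.le_of_le_norm (hP.piGrp.conjg g) le_top (h2.trans h))
  · rw [← card_mul_relIndex h1, ha]
    exact Nat.mul_dvd_mul_left _ (relIndex_dvd_of_le_left _ le_normalizer)

theorem exists_cent_facts (hp : p.Prime) {P : Subgroup G} (hP : IsSylowOf p P ⊤) (ha : Nat.card P = p ^ 2)
    (h : ¬ p ^ 2 ∣ (𝒩(P)).index - 1) : ∃ (y : G) (d : ℕ), orderOf y = p ∧ 1 < d ∧ p ∣ d - 1 ∧ p ^ 2 * d ∣ Nat.card 𝒞[y] := by
  obtain ⟨g, hg, h1⟩ := exists_conj_index hp hP h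
  have h2 := (inter_facts hp hP hg h1).1
  rw [ha, pow_two] at h2
  obtain ⟨y, hy, oy⟩ := exists_mem_orderOf_eq hp (Nat.eq_of_mul_eq_mul_right hp.pos h2).symm.dvd
  exact ⟨y, _, oy, (cent_facts hp hP ha hy.2 hy.1 hg).2⟩

theorem mem_of_dvd {d n : ℕ} (h : d ∣ n) (hn : 0 < n) {L : List ℕ} (P : ℕ → Prop)
    (hL : ∀ d < n + 1, d ∣ n → P d → d ∈ L) (hd : P d) : d ∈ L :=
  hL d (Nat.lt_succ_of_le (Nat.le_of_dvd hn h)) h hd

section
variable [IsSimpleGroup G] (hG : ¬ IsMulCommutative G)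
include hG

theorem index_mem {H : Subgroup G} (hH : H ≠ ⊤) {n k : ℕ} (hn : Nat.card G = n) (hk : k ∣ Nat.card H) {L : List ℕ}
    (hL : ∀ d < n / k + 1, k * d ∣ n → 2 * n ∣ d.factorial → d ∈ L) : H.index ∈ L := by
  have h1 : k * H.index ∣ n := by rw [← hn, ← card_mul_index H]; exact Nat.mul_dvd_mul_right hk _
  have h2 : 0 < k := Nat.pos_of_dvd_of_pos hk Nat.card_pos
  refine hL _ (Nat.lt_succ_of_le ((Nat.le_div_iff_mul_le h2).2 ?_)) h1 (hn ▸ two_mul_card_dvd_factorial hG hH)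
  rw [mul_comm]
  exact Nat.le_of_dvd (hn ▸ Nat.card_pos) h1

theorem not_card_two_three {a : ℕ} (hn : Nat.card G = 2 ^ a * 9) (ha : a = 5 ∨ a = 6) : False := by
  obtain ⟨S, hS, oS⟩ := exists_sylow_card Nat.prime_two (a := a) (G := G) (hn ▸ dvd_mul_right _ _)
    (by rw [hn]; rcases ha with rfl | rfl <;> decide)
  obtain ⟨P, hP, oP⟩ := exists_sylow_card Nat.prime_three (a := 2) (G := G) (hn ▸ dvd_mul_left _ _)
    (by rw [hn]; rcases ha with rfl | rfl <;> decide)
  have h1 := sylCond_mem hG Nat.prime_two hS (by omega) oS hn (L := [9])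
    (by rcases ha with rfl | rfl <;> decide +kernel)
  have h2 := sylCond_mem hG Nat.prime_three hP (by omega) oP hn (L := [16])
    (by rcases ha with rfl | rfl <;> decide +kernel)
  rw [List.mem_singleton] at h1 h2
  obtain ⟨y, d, oy, d1, -, hd⟩ := exists_cent_facts Nat.prime_three hP oP (by rw [h2]; decide)
  have h3 : d ∣ 2 ^ a := by
    have := hd.trans (card_subgroup_dvd_card _)
    rw [hn, mul_comm] at this
    exact Nat.dvd_of_mul_dvd_mul_right (by norm_num) this
  obtain ⟨k, -, rfl⟩ := (Nat.dvd_prime_pow Nat.prime_two).1 h3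
  obtain ⟨t, ht, ot⟩ := exists_mem_orderOf_eq Nat.prime_two
    (((dvd_pow_self 2 (by rintro rfl; simp at d1)).mul_left _).trans hd)
  have h4 := card_mul_index 𝒩(S)
  rw [h1, hn] at h4
  have h5 := (mul_le_index_of_comm hG (H := 𝒩(S)) (fun e => by simp [e] at h1) Nat.prime_three Nat.prime_two
    (by omega) oy ot (mem_centralizer_singleton_iff.1 ht).symm (by
      rw [fixedBy_empty (by rw [oy]; rcases ha with rfl | rfl <;> omega)]; exact Set.subsingleton_empty)).2 rfl
  omega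

theorem not_card_612 (hn : Nat.card G = 612) : False := by
  have p17 : Nat.Prime 17 := by norm_num
  obtain ⟨Q, hQ, oQ⟩ := exists_sylow_card p17 (a := 1) (G := G) (by rw [hn]; decide) (by rw [hn]; decide)
  obtain ⟨P, hP, oP⟩ := exists_sylow_card Nat.prime_three (a := 2) (G := G) (by rw [hn]; decide)
    (by rw [hn]; decide)
  have h1 := sylCond_mem hG p17 hQ (by omega) oQ hn (L := [18]) (by decide +kernel)
  have h2 := sylCond_mem hG Nat.prime_three hP (by omega) oP hn (L := [34]) (by decide +kernel)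
  rw [List.mem_singleton] at h1 h2
  obtain ⟨y, d, oy, d1, d3, hd⟩ := exists_cent_facts Nat.prime_three hP oP (by rw [h2]; decide)
  have h3 : d ∣ 68 := Nat.dvd_of_mul_dvd_mul_left (k := 9) (by norm_num) ((hd.trans (card_subgroup_dvd_card _)).trans hn.dvd)
  have h3' : 2 ∣ d := by
    have := mem_of_dvd h3 (by norm_num) (L := [4, 34]) (fun d => 1 < d ∧ 3 ∣ d - 1) (by decide) ⟨d1, d3⟩
    simp only [List.mem_cons, List.not_mem_nil, or_false] at this
    omega
  obtain ⟨t, ht, ot⟩ := exists_mem_orderOf_eq Nat.prime_two ((h3'.mul_left _).trans hd)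
  obtain ⟨g, hg⟩ := exists_mem_conj_of_index (der_top_eq hG) (H := 𝒩(Q)) (by rw [h1]; decide)
    (sq_eq_one_of_orderOf ot)
  have h4 := card_mul_index 𝒩(Q)
  rw [h1, hn] at h4
  have oy' : orderOf (g⁻¹ * y * g) = 3 := by simpa [oy] using orderOf_conj y g⁻¹
  have ot' : orderOf (g⁻¹ * t * g) = 2 := by simpa [ot] using orderOf_conj t g⁻¹
  have h5 := dvd_moved_of_comm (Ω := G ⧸ 𝒩(Q)) (y := g⁻¹ * y * g) (t := g⁻¹ * t * g) (oy' ▸ Nat.prime_three)
    (by calc _ = g⁻¹ * (y * t) * g := by group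
          _ = _ := by rw [← mem_centralizer_singleton_iff.1 ht]; group)
    (by rw [fixedBy_empty (by rw [oy']; omega)]; exact Set.subsingleton_empty)
  have h6 := moved_add_fixed 𝒩(Q) (g⁻¹ * t * g)
  have h7 := four_dvd_ncard_compl (Ω := G ⧸ 𝒩(Q)) (der_top_eq hG) (sq_eq_one_of_orderOf ot')
  have hQ' : (Nat.card Q).Prime := by rw [oQ]; norm_num
  have h8 := fixed_le_two le_normalizer (reg_of_TI hQ fun y hy y1 g => mem_norm_of_card_prime hQ' hy y1)
    (by rw [h1, oQ]; rfl) hg ((inf_eq_bot_or_le_of_card_prime hQ' _).resolve_right fun h7 => by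
      obtain ⟨z, hz, oz⟩ := exists_mem_orderOf_eq p17 (H := Q) (by rw [oQ]; decide)
      have := (mul_le_index_of_comm hG (H := 𝒩(Q)) (fun e => by simp [e] at h1) p17 Nat.prime_two (by omega) oz ot'
        (mem_centralizer_singleton_iff.1 (h7 hz))
        (fixedBy_sylow hQ hz fun g => mem_norm_of_card_prime hQ' hz (ne_one_of_orderOf p17 oz))).1
      omega)
  have h9 := fixed_pos hg
  rw [oy'] at h5
  omega

theorem not_card_756 (hn : Nat.card G = 756) : False := by
  have key : ∀ P H : Subgroup G, Nat.card P = 27 → P ≤ H → H ≠ ⊤ → Nat.card H = 27 := fun P H oP hH hH' => by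
    have hP : IsSylowOf 3 P ⊤ := by
      obtain ⟨Q, hQ, oQ⟩ := exists_sylow_card Nat.prime_three (a := 3) (G := G) (by rw [hn]; decide)
        (by rw [hn]; decide)
      exact hQ.of_card_eq le_top (oP.trans oQ.symm)
    have h1 := sylCond_mem hG Nat.prime_three hP (a := 3) (by omega) oP hn (L := [28]) (by decide +kernel)
    have h2 := index_mem hG hH' hn (oP ▸ card_dvd_of_le hH) (L := [14, 28]) (by decide +kernel)
    have h3 := card_mul_index H
    have h4 := card_mul_index 𝒩(P)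
    have h5 := card_mul_relIndex hH
    simp only [List.mem_cons, List.not_mem_nil, or_false] at h1 h2
    rw [h1, hn] at h4
    rw [oP] at h5
    rcases h2 with e | e <;> rw [e, hn] at h3
    · have := Subgroup.card_le_of_le (norm_of_relIndex_le_two hH (by omega))
      omega
    · omega
  have key2 : ∀ Q : Subgroup G, IsPGrp 3 Q → 9 ∣ Nat.card Q → IsPGrp 3 𝒩(Q) := fun Q pQ h9 => by
    obtain ⟨P, hP, sP⟩ := sylow_superset Nat.prime_three pQ le_top
    have oP := IsSylowOf_card Nat.prime_three hP (a := 3) (by rw [hn]; decide) (by rw [hn]; decide)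
    have h1 := card_mul_relIndex sP
    have h0 := relIndex_pos Q P
    refine pGrp_of_card_eq_pow Nat.prime_three (k := 3) (key P _ oP ?_
      (norm_ne_top (ne_bot_of_prime_dvd_card Nat.prime_three (by omega)) (ne_top_of_pGrp hG pQ)))
    obtain ⟨k, hk⟩ := h9
    rw [hk, oP, mul_assoc] at h1
    have h2 : Q.relIndex P ∣ 3 := ⟨k, by rw [mul_comm]; omega⟩
    rcases (Nat.dvd_prime Nat.prime_three).1 h2 with e | e
    · exact norm_of_le (relIndex_eq_one.1 e)
    · exact (normal_of_index_eq_of_pGrp Nat.prime_three hP.pGrp sP e).2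
  refine not_frobHyp hG Nat.prime_three (by rw [hn]; decide) fun U _ pU U0 q hq hq3 x _ hx qx => ?_
  by_cases h9 : 9 ∣ Nat.card U
  · rw [IsPiElt.eq_one qx (((key2 U pU h9).piElt hx).mono (by simpa using hq3))]
    exact one_mem _
  have oU : Nat.card U = 3 := by
    obtain ⟨k, hk⟩ := (pGrp_iff_card Nat.prime_three).1 pU
    have := one_lt_card U0
    rw [hk] at h9 this ⊢
    rcases k with _ | _ | k
    · simp at this
    · rfl
    · exact absurd ⟨3 ^ k, by ring⟩ h9
  obtain ⟨P, hP, sP⟩ := sylow_superset Nat.prime_three pU le_top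
  have oP := IsSylowOf_card Nat.prime_three hP (a := 3) (by rw [hn]; decide) (by rw [hn]; decide)
  have h1 := nilpotent_proper_norm hP.pGrp.nil (lt_of_le_of_card_lt sP (by omega))
  have p1 : IsPGrp 3 (P ⊓ 𝒩(U) : Subgroup G) := hP.piGrp.inf_left _
  obtain ⟨Q, hQ, sQ⟩ := sylow_superset Nat.prime_three p1 (pGrp_cent_of_card_prime Nat.prime_three p1 oU inf_le_right)
  have h2 : 9 ∣ Nat.card Q := by
    have h3 := card_lt_of_lt (h1.trans_le sQ)
    obtain ⟨k, hk⟩ := (pGrp_iff_card Nat.prime_three).1 hQ.pGrp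
    rw [hk, oU] at h3
    rw [hk]
    rcases k with _ | _ | k
    · simp at h3
    · simp at h3
    · exact ⟨3 ^ k, by ring⟩
  obtain ⟨c, hc, n, hn', rfl⟩ := frattini_arg_mem Nat.prime_three hQ (norm_cent le_rfl hx)
  refine mul_mem hc (zpowers_le.1 (pGrp_cent_of_card_prime Nat.prime_three
    ((key2 Q hQ.pGrp h2).of_le (zpowers_le.2 hn')) oU (zpowers_le.2 ?_)))
  exact (mul_mem_cancel_left (cent_le_norm U hc)).1 hx

theorem not_card_1080 (hn : Nat.card G = 1080) : False := by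
  obtain ⟨Q, hQ, oQ⟩ := exists_sylow_card Nat.prime_five (a := 1) (G := G) (by rw [hn]; decide) (by rw [hn]; decide)
  obtain ⟨P, hP, oP⟩ := exists_sylow_card Nat.prime_three (a := 3) (G := G) (by rw [hn]; decide)
    (by rw [hn]; decide)
  have h1 := sylCond_mem hG Nat.prime_five hQ (by omega) oQ hn (L := [36]) (by decide +kernel)
  have h2 := sylCond_mem hG Nat.prime_three hP (by omega) oP hn (L := [10, 40]) (by decide +kernel)
  simp only [List.mem_cons, List.not_mem_nil, or_false] at h1 h2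
  have h3 := card_mul_index 𝒩(Q)
  have h4 := card_mul_relIndex (cent_le_norm Q)
  have h5 := relIndex_cent_dvd_pred Nat.prime_five oQ (le_refl 𝒩(Q))
  rw [h1, hn] at h3
  obtain ⟨t, ht, ot⟩ := exists_mem_orderOf_eq Nat.prime_three (H := 𝒞(Q))
    ((Nat.prime_three.dvd_mul.1 (by rw [h4]; omega)).resolve_right fun h => absurd (h.trans h5) (by decide))
  obtain ⟨y, hy, oy⟩ := exists_mem_orderOf_eq Nat.prime_five (H := Q) (by rw [oQ]; decide)
  have key : ∀ H : Subgroup G, H.index ≠ 10 := fun H e => by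
    have h6 := card_mul_index H
    rw [e, hn] at h6
    have := (mul_le_index_of_comm hG (H := H) (fun e' => by simp [e'] at e) Nat.prime_five Nat.prime_three
      (by omega) oy ot (ht y hy) (by
        rw [fixedBy_empty (by rw [oy]; omega)]; exact Set.subsingleton_empty)).1
    omega
  obtain ⟨g, hg, h6⟩ := exists_conj_index Nat.prime_three hP (by rw [h2.resolve_left (key _)]; decide)
  obtain ⟨h7, h8, h9, h10⟩ := inter_facts Nat.prime_three hP hg h6
  have h11 := index_mem hG (norm_ne_top (ne_bot_of_prime_dvd_card Nat.prime_three (H := P :^ g ⊓ P) (by omega))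
    (ne_top_of_pGrp hG (hP.piGrp.inf_right _))) hn (oP ▸ card_dvd_of_le h8) (L := [10, 20, 40]) (by decide +kernel)
  simp only [List.mem_cons, List.not_mem_nil, or_false] at h11
  have h12 := card_eq_mul3 h8
  refine h10 (h9.trans (norm_of_relIndex_le_two h8 ?_))
  rcases h11.resolve_left (key _) with e | e <;> rw [e, hn, oP] at h12 <;> omega

theorem not_card_1040 (hn : Nat.card G = 1040) : False := by
  have h := not_frobHyp hG Nat.prime_two (by rw [hn]; decide)
  unfold FrobHyp at h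
  push Not at h
  obtain ⟨U, -, pU, U0, q, hq, hq2, x, -, hx, qx, hc⟩ := h
  have h1 := dvd_card_sub_cent hq hx qx
  have h3 := card_inf_cent_lt hc
  have h4 := prime_dvd_card_of_not_cent qx hc
  have h5 : Nat.card U ∣ Nat.card G := card_subgroup_dvd_card _
  obtain ⟨a, ha⟩ := (pGrp_iff_card Nat.prime_two).1 pU
  obtain ⟨b, hb⟩ := (pGrp_iff_card Nat.prime_two).1 (pU.inf_left 𝒞[x])
  rw [ha, hb] at h1 h3
  rw [ha, hn] at h5
  rw [hn] at h4
  have hab : b < a := (Nat.pow_lt_pow_iff_right (by norm_num)).1 h3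
  have ha4 : a ≤ 4 := by
    by_contra h
    exact absurd ((pow_dvd_pow 2 (show 5 ≤ a by omega)).trans h5) (by decide)
  have h6 : q = 5 ∨ q = 13 := by
    rcases hq.dvd_mul.1 (show q ∣ 2 ^ 4 * (5 * 13) from h4) with h | h
    · exact absurd ((Nat.prime_dvd_prime_iff_eq hq Nat.prime_two).1 (hq.dvd_of_dvd_pow h)) hq2
    · exact (hq.dvd_mul.1 h).imp (Nat.prime_dvd_prime_iff_eq hq Nat.prime_five).1
        (Nat.prime_dvd_prime_iff_eq hq (by norm_num)).1
  obtain ⟨rfl, rfl, rfl⟩ : q = 5 ∧ a = 4 ∧ b = 0 := by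
    rcases h6 with rfl | rfl <;> interval_cases a <;> interval_cases b <;> omega
  have cU : IsMulCommutative U := by
    have h7 := dvd_card_sub_cent hq (zpowers_le.1 ((charIn_center U).norm (zpowers_le.2 hx))) qx
    have h8 : Nat.card (𝒵(U) ⊓ 𝒞[x] : Subgroup G) ∣ 1 :=
      (card_dvd_of_le (inf_le_inf_right _ inf_le_left)).trans hb.dvd
    have h9 : Nat.card (𝒵(U) : Subgroup G) ∣ 16 := (card_dvd_of_le inf_le_left).trans ha.dvd
    have h10 := one_lt_card (center_nil_ne_bot (IsPGrp.nil pU) U0)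
    rw [Nat.dvd_one.1 h8] at h7
    have := mem_of_dvd h9 (by norm_num) (L := [16]) (fun d => 1 < d ∧ 5 ∣ d - 1) (by decide) ⟨h10, h7⟩
    rw [List.mem_singleton] at this
    exact abelian_iff_le_cent.2 ((eq_of_le_of_card_ge inf_le_left (by omega)).ge.trans inf_le_right)
  have hU : IsSylowOf 2 U ⊤ := sylow_mk le_top pU (by
    have := card_mul_index U
    rw [ha] at this
    rw [relIndex_top_right]; omega)
  obtain ⟨P, hP, oP⟩ := exists_sylow_card Nat.prime_five (a := 1) (G := G) (by rw [hn]; decide) (by rw [hn]; decide)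
  have e1 := sylCond_mem hG Nat.prime_five hP (by omega) oP hn (L := [26]) (by decide +kernel)
  rw [List.mem_singleton] at e1
  have e3 := card_mul_index 𝒩(P)
  have e4 := card_mul_relIndex (cent_le_norm P)
  have e5 := relIndex_cent_dvd_pred Nat.prime_five oP (le_refl 𝒩(P))
  rw [e1, hn] at e3
  obtain ⟨t, ht, ot⟩ := exists_mem_orderOf_eq Nat.prime_two (H := 𝒞(P)) (by
    by_contra h
    have h' : (2 ^ 3).Coprime (Nat.card 𝒞(P)) := ((Nat.Prime.coprime_iff_not_dvd Nat.prime_two).2 h).pow_left 3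
    exact absurd ((h'.dvd_of_dvd_mul_left (by rw [e4]; omega)).trans e5) (by decide))
  obtain ⟨g, -, hg⟩ := sylow_subJ Nat.prime_two hU (pGrp_of_card_eq Nat.prime_two (by rw [Nat.card_zpowers, ot])
    (H := zpowers t)) le_top
  have e6 : U :^ g ≤ 𝒞[t] :=
    (abelian_iff_le_cent.1 (abelian_conjg.2 cU)).trans (cent_le_cent_singleton (hg (mem_zpowers t)))
  have e7 := card_dvd_of_le e6
  have e8 : P ≤ 𝒞[t] := mem_cent_iff_le_cent_singleton.1 ht
  have e9 := card_dvd_of_le e8
  rw [card_conjg, ha] at e7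
  rw [oP] at e9
  have e10 := index_mem hG (cent1_ne_top hG (ne_one_of_orderOf Nat.prime_two ot)) hn (k := 80) (by omega)
    (L := [13]) (by decide +kernel)
  rw [List.mem_singleton] at e10
  have e11 := card_mul_index 𝒞[t]
  have e12 := card_inf_mul_relIndex 𝒩(P) 𝒞[t]
  have e13 := relIndex_norm_mod Nat.prime_five (hP.of_le e8 le_top)
  have e14 : 2 ∣ Nat.card (𝒩(P) ⊓ 𝒞[t] : Subgroup G) :=
    ot ▸ orderOf_dvd_card_of_mem ⟨cent_le_norm P ht, mem_cent_singleton_self t⟩
  have e15 : Nat.card (𝒩(P) ⊓ 𝒞[t] : Subgroup G) ∣ 40 := (card_dvd_of_le inf_le_left).trans (dvd_of_eq (by omega))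
  have e16 := card_dvd_of_le (le_inf le_normalizer e8)
  rw [oP] at e16
  rw [e10] at e11
  have := mem_of_dvd e15 (by norm_num) (L := [10, 20, 40]) (fun d => 10 ∣ d) (by decide) (by omega)
  simp only [List.mem_cons, List.not_mem_nil, or_false] at this
  rcases this with e | e | e <;> rw [e] at e12 <;> omega

theorem not_card_1008 (hn : Nat.card G = 1008) : False := by
  have p7 : Nat.Prime 7 := by norm_num
  obtain ⟨P, hP, oP⟩ := exists_sylow_card p7 (a := 1) (G := G) (by rw [hn]; decide) (by rw [hn]; decide)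
  have e1 := sylCond_mem hG p7 hP (by omega) oP hn (L := [36]) (by decide +kernel)
  rw [List.mem_singleton] at e1
  have e3 := card_mul_index 𝒩(P)
  have e4 := card_mul_relIndex (cent_le_norm P)
  have e5 := relIndex_cent_dvd_pred p7 oP (le_refl 𝒩(P))
  have e6 := one_lt_relIndex (not_norm_le_cent hG p7 hP (ne_bot_of_prime_dvd_card p7 oP.symm.dvd))
  rw [e1, hn] at e3
  have e7 : Nat.card 𝒞(P) = 14 := by
    have := mem_of_dvd e5 (by norm_num) (L := [2]) (fun d => 1 < d ∧ d ∣ 28) (by decide)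
      ⟨e6, ⟨Nat.card 𝒞(P), by rw [mul_comm]; omega⟩⟩
    rw [List.mem_singleton] at this
    rw [this] at e4
    omega
  have hC : P ≤ 𝒞(P) := abelian_iff_le_cent.1 (abelian_of_cyclic (isCyclic_of_card_prime (oP ▸ p7)))
  have e8 := card_mul_relIndex hC
  rw [oP] at e8
  obtain ⟨t, ht, ot⟩ := exists_mem_orderOf_eq Nat.prime_two (H := 𝒞(P)) (by omega)
  have t2 := sq_eq_one_of_orderOf ot
  have e9 : ∀ s ∈ P, s * s = 1 → s = 1 := fun s hs h => by_contra fun h1 =>
    absurd (orderOf_two h h1 ▸ orderOf_dvd_card_of_mem hs) (by rw [oP]; decide)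
  have e10 : 𝒩(P) ≤ 𝒞[t] := fun n hn => by
    have h1 := conj_mem_of_le_norm (norm_cent le_rfl) hn ht
    have h2 : n * t * n⁻¹ * (n * t * n⁻¹) = 1 := by
      calc _ = n * (t * t) * n⁻¹ := by group
        _ = 1 := by rw [t2]; group
    have h3 := mul_mem_of_relIndex_two (by omega) ht h1
      (fun h => ne_one_of_orderOf Nat.prime_two ot (e9 _ h t2))
      (fun h => ne_one_of_orderOf Nat.prime_two ((orderOf_conj t n).trans ot) (e9 _ h h2))
    have h4 := ht _ h3
    have h5 := e9 _ h3 (by rw [← mul_assoc, h4, ← mul_assoc t, t2, one_mul, h2])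
    rw [mem_centralizer_singleton_iff, ← mul_inv_eq_iff_eq_mul]
    exact mul_left_cancel (h5.trans t2.symm)
  have e11 : Nat.card 𝒞[t] = 28 := by
    have h1 := card_mul_relIndex e10
    have h2 := relIndex_norm_mod p7 (hP.of_le (le_normalizer.trans e10) le_top)
    have h3 := relIndex_mul_index e10
    have h4 := one_lt_index_of_ne_top (cent1_ne_top hG (ne_one_of_orderOf Nat.prime_two ot))
    rw [e1] at h3
    have := mem_of_dvd (Dvd.intro _ h3) (by norm_num) (L := [1, 36]) (fun d => 7 ∣ d - 1) (by decide) h2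
    simp only [List.mem_cons, List.not_mem_nil, or_false] at this
    rcases this with e | e <;> rw [e] at h1 h3 <;> omega
  obtain ⟨S, hS, oS⟩ := exists_sylow_card Nat.prime_two (a := 4) (G := G) (by rw [hn]; decide) (by rw [hn]; decide)
  obtain ⟨Z, sZ, nZ, oZ⟩ := normal_pgroup Nat.prime_two hS.pGrp (normalIn_refl S) (k := 1) (by rw [oS]; decide)
  obtain ⟨W, sW, sW', nW, -, iW⟩ := exists_normal_between_succ hS.pGrp hS.pGrp le_normalizer nZ.2 nZ.2
    (lt_of_le_of_card_lt sZ (by omega))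
  have oW : 4 = Nat.card W := by omega
  obtain ⟨w, hw, hw'⟩ := SetLike.exists_of_lt (lt_of_le_of_card_lt sW (by omega))
  have f1 : S ≤ 𝒞(Z) := pGrp_cent_of_card_prime Nat.prime_two hS.pGrp oZ nZ.2
  have f2 : W = Z ⊔ zpowers w := by
    have h1 := card_lt_of_lt (left_lt_sup.2 (fun h => hw' (zpowers_le.1 h)) : Z < Z ⊔ zpowers w)
    have h2 := card_dvd_of_le (sup_le sW (zpowers_le.2 hw))
    rw [← oW] at h2
    have := mem_of_dvd h2 (by norm_num) (L := [4]) (fun d => 2 < d) (by decide) (by omega)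
    rw [List.mem_singleton] at this
    exact (eq_of_le_of_card_ge (sup_le sW (zpowers_le.2 hw)) (by omega)).symm
  have f3 : (𝒞[w]).relIndex S ≤ 2 := by
    have h1 := Set.ncard_diff_add_ncard_of_subset (SetLike.coe_subset_coe.2 sW)
    rw [← ncard_cls]
    refine (Set.ncard_le_ncard (t := (W : Set G) \ Z) ?_).trans ?_
    · rintro _ ⟨a, ha, rfl⟩
      refine ⟨conj_mem_of_le_norm nW ha hw, fun h => hw' ?_⟩
      simpa [mul_assoc] using conj_mem_of_le_norm' nZ.2 ha h
    · simp only [← Nat.card_coe_set_eq, SetLike.coe_sort_coe] at h1 ⊢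
      omega
  have f4 := card_inf_mul_relIndex 𝒞[w] S
  obtain ⟨M, sM, oM⟩ := exists_le_card_eq_pow Nat.prime_two (H := 𝒞[w] ⊓ S) (k := 3) (by
    have h0 := relIndex_pos 𝒞[w] S
    obtain e | e : (𝒞[w]).relIndex S = 1 ∨ (𝒞[w]).relIndex S = 2 := by omega
    all_goals rw [e] at f4; omega)
  have f5 : M ≤ 𝒞(W) := by
    rw [f2, cent_sup, cent_zpowers]
    exact le_inf (sM.trans (inf_le_right.trans f1)) (sM.trans inf_le_left)
  have f6 := card_mul_index M
  rw [oM] at f6
  obtain ⟨g, hg⟩ := exists_mem_conj_of_index (der_top_eq hG) (H := M) (by omega) t2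
  have f7 := card_cent1_conj t g
  by_cases h : g⁻¹ * t * g ∈ W
  · have := card_dvd_of_le (f5.trans (cent_le_cent_singleton h))
    rw [oM] at this
    omega
  · have h1 : W ⊔ zpowers (g⁻¹ * t * g) ≤ 𝒞[g⁻¹ * t * g] :=
      sup_le (mem_cent_iff_le_cent_singleton.1 (f5 hg)) (zpowers_le.2 (mem_cent_singleton_self _))
    have h2 := card_dvd_of_le h1
    have h3 := card_dvd_of_le (sup_le sW' (zpowers_le.2 (sM hg).2))
    have h4 := card_lt_of_lt (left_lt_sup.2 (fun h' => h (zpowers_le.1 h')) : W < W ⊔ zpowers (g⁻¹ * t * g))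
    rw [oS] at h3
    rw [f7, e11] at h2
    have := Nat.le_of_dvd (by norm_num) (Nat.dvd_gcd h2 h3)
    norm_num at this
    omega

end

end CA.Dih

theorem CA.Dih.realizeEqnsOrders : True := by
  have := @CA.Dih.cls.eq_1.{0}
  have := @CA.Dih.cls.eq_def.{0}
  have := @CA.Dih.cls.congr_simp.{0}
  trivial
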