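/-
Doubly transitive groups whose point stabiliser has a regular normal subgroup; orders 360 and 720.
-/
import Cfsg.Agent.Dih.Orders
import Cfsg.Agent.Fi.Dihedral
import Cfsg.Agent.Lin.Transport

set_option autoImplicit false
set_option linter.unusedSectionVars false

namespace CA.Dih

open Subgroup Cfsg CA.FG CA.BG MulAction
open scoped commutatorElement

universe u v

variable {G : Type u} [Group G] [Finite G] {p : ℕ}

/-- `B` has the normal subgroup `P` regular on the cosets of `B` other than `B` -/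
structure ZS (B P : Subgroup G) : Prop where
  le : P ≤ B
  norm : B ≤ 𝒩(P)
  reg : ∀ g ∉ B, B :^ g ⊓ P = ⊥
  index : B.index = Nat.card P + 1

variable {B P : Subgroup G}

theorem ZS.ne_top (h : ZS B P) : B ≠ ⊤ := fun e => by
  have := h.index
  rw [e, index_top] at this
  exact absurd (Nat.card_pos (α := P)) (by omega)

theorem ZS.card_inter (h : ZS B P) {g : G} (hg : g ∉ B) :
    Nat.card (B :^ g ⊓ B : Subgroup G) * Nat.card P = Nat.card B := by
  have h1 := card_inf_mul_relIndex (B :^ g) P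
  rw [h.reg g hg, card_bot, one_mul] at h1
  have h2 := relIndex_le_of_le_right h.le (relIndex_pos (B :^ g) B).ne'
  have h3 := ncard_orbit B (g : G ⧸ B)
  have h4 := ncard_compl_base B
  rw [stabilizer_coset] at h3
  have h5 : (B :^ g).relIndex B ≤ ({((1 : G) : G ⧸ B)} : Set (G ⧸ B))ᶜ.ncard := by
    rw [← h3]
    refine Set.ncard_le_ncard ?_
    rintro _ ⟨u, rfl⟩ hu
    have : (u : G) * g ∈ B := coset_eq_one.1 hu
    exact hg ((B.mul_mem_cancel_left u.2).1 this)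
  have := h.index
  rw [← card_inf_mul_relIndex (B :^ g) B, show (B :^ g).relIndex B = Nat.card P by omega]

theorem ZS.fixed_eq (h : ZS B P) {g s : G} (hg : g ∉ B) (hs : s ∈ B :^ g ⊓ B) (hc : P ⊓ 𝒞[s] = ⊥) :
    fixedBy (G ⧸ B) s = {((1 : G) : G ⧸ B), (g : G ⧸ B)} := by
  refine (Set.eq_of_subset_of_ncard_le ?_ ?_).symm
  · rintro _ (rfl | rfl)
    · exact mem_fixedBy_coset.2 (by rw [conjg_one]; exact hs.2)
    · exact mem_fixedBy_coset.2 hs.1
  · rw [Set.ncard_pair fun e => hg (coset_eq_one.1 e.symm)]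
    exact fixed_le_two h.le h.reg h.index (h.norm hs.2) hc

/-- a subgroup permuting two points -/
theorem relIndex_le_two_of_pair {g : G} {N : Subgroup G}
    (h : ∀ n ∈ N, ∀ a ∈ ({((1 : G) : G ⧸ B), (g : G ⧸ B)} : Set (G ⧸ B)), n • a ∈ ({((1 : G) : G ⧸ B), (g : G ⧸ B)} : Set (G ⧸ B))) :
    (B :^ g ⊓ B).relIndex N ≤ 2 := by
  have h1 : (B :^ g ⊓ B) ⊓ N = B ⊓ N := by
    refine le_antisymm (inf_le_inf_right _ inf_le_right) fun n hn => ⟨⟨?_, hn.1⟩, hn.2⟩
    have e1 : n • ((1 : G) : G ⧸ B) = (1 : G) := smul_coset_iff.2 (by simpa using hn.1)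
    rcases h n hn.2 g (Or.inr rfl) with e | e
    · have e2 : (g : G ⧸ B) = (1 : G) := smul_left_cancel n (e.trans e1.symm)
      exact mem_fixedBy_coset.1 (by rw [e2]; exact e1)
    · exact mem_fixedBy_coset.1 e
  have h3 := ncard_orbit N ((1 : G) : G ⧸ B)
  rw [stabilizer_coset, conjg_one] at h3
  rw [← inf_relIndex_right, h1, inf_relIndex_right, ← h3]
  refine (Set.ncard_le_ncard (t := {((1 : G) : G ⧸ B), (g : G ⧸ B)}) ?_).trans ((Set.ncard_insert_le _ _).trans (by simp))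
  rintro _ ⟨n, rfl⟩
  exact h n n.2 _ (Or.inl rfl)

theorem ZS.relIndex_cent_le (h : ZS B P) {g s : G} (hg : g ∉ B) (hs : s ∈ B :^ g ⊓ B) (hc : P ⊓ 𝒞[s] = ⊥) :
    (B :^ g ⊓ B).relIndex 𝒞[s] ≤ 2 :=
  relIndex_le_two_of_pair fun n hn a ha => by
    rw [← h.fixed_eq hg hs hc] at ha ⊢
    exact smul_mem_fixedBy_of_comm (mem_centralizer_singleton_iff.1 hn) ha

theorem inv_of_fpf {P : Subgroup G} (cP : IsMulCommutative P) {t : G} (ht : t ∈ 𝒩(P)) (h2 : t * t ∈ 𝒞(P))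
    (hc : P ⊓ 𝒞[t] = ⊥) {y : G} (hy : y ∈ P) : t * y * t⁻¹ = y⁻¹ := by
  have h1 := conj_mem_of_mem_norm ht hy
  refine eq_inv_of_mul_eq_one_right (mem_bot.1 (hc.le ⟨P.mul_mem hy h1, mem_centralizer_singleton_iff.2 ?_⟩))
  rw [abelian_iff_forall.1 cP _ hy _ h1]
  calc _ = t * (y * (t⁻¹ * y * t)) := by group
    _ = t * (y * (t⁻¹ * (t * t * y * (t * t)⁻¹) * t)) := by rw [← h2 y hy]; group
    _ = t * (y * (t * y * t⁻¹)) := by group
    _ = _ := by rw [abelian_iff_forall.1 cP _ hy _ h1]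

/-- the focal subgroup argument when the centraliser of the only square involution controls fusion -/
theorem sylow_le_of_focal (hG : ⁅(⊤ : Subgroup G), (⊤ : Subgroup G)⁆ = ⊤) {S X : Subgroup G} {t : G}
    (hS : IsSylowOf 2 S ⊤) (h1 : ∀ x ∈ S, x * x ≠ 1 → t ∈ zpowers (x * x)) (h2 : ⁅𝒞[t], 𝒞[t]⁆ ≤ X)
    (h3 : S ≤ 𝒞[t]) (t2 : t * t = 1) (t1 : t ≠ 1) (h4 : ∀ x ∈ S, x * x = 1 → x ∈ X) : S ≤ X := by
  have h5 := focal_subgroup_gen Nat.prime_two hS
  rw [hG, inf_top_eq] at h5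
  rw [h5, Subgroup.closure_le]
  rintro _ ⟨x, hx, u, -, h6, rfl⟩
  by_cases h7 : x * x = 1
  · refine X.mul_mem (X.inv_mem (h4 x hx h7)) (h4 _ h6 ?_)
    calc _ = u * (x * x) * u⁻¹ := by group
      _ = 1 := by rw [h7]; group
  · have h8 : u * x * u⁻¹ * (u * x * u⁻¹) = u * (x * x) * u⁻¹ := by group
    have h9 := h1 _ h6 (by rw [h8]; simpa using h7)
    rw [h8, ← conjg_zpowers] at h9
    have h10 := conj_mem_conjg u (h1 x hx h7)
    have h11 : zpowers (u * t * u⁻¹) = zpowers t :=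
      eq_of_cyclic_of_card_eq (cyclic_conjg.2 (cyclic_zpowers _)) (zpowers_le.2 h10) (zpowers_le.2 h9)
        (by rw [Nat.card_zpowers, Nat.card_zpowers, orderOf_conj])
    have h12 : u * t * u⁻¹ = t := by
      obtain ⟨k, hk⟩ := mem_powers_iff_mem_zpowers.2 (h11.le (mem_zpowers _))
      rcases Nat.even_or_odd' k with ⟨j, rfl | rfl⟩
      · simp only [pow_mul, pow_two, t2, one_pow] at hk
        exact absurd (by simpa using hk.symm) t1
      · simpa only [pow_succ, pow_mul, pow_zero, one_mul, t2, one_pow] using hk.symm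
    have : x⁻¹ * (u * x * u⁻¹) = ⁅x⁻¹, u⁆ := by rw [commutatorElement_def]; group
    rw [SetLike.mem_coe, this]
    exact h2 (commutator_mem_commutator (inv_mem (h3 hx))
      (mem_centralizer_singleton_iff.2 (mul_inv_eq_iff_eq_mul.1 h12)))

theorem exists_inv_mem_zpowers {x : G} (h : 2 ∣ orderOf x) : ∃ y ∈ zpowers x, y * y = 1 ∧ y ≠ 1 := by
  obtain ⟨y, hy, oy⟩ := exists_mem_zpowers_orderOf_eq Nat.prime_two h
  exact ⟨y, hy, sq_eq_one_of_orderOf oy, ne_one_of_orderOf Nat.prime_two oy⟩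

theorem exists_inv_of_piElt {x : G} (h : IsPiElt {2} x) (h1 : x ≠ 1) : ∃ y ∈ zpowers x, y * y = 1 ∧ y ≠ 1 :=
  exists_inv_mem_zpowers (Nat.card_zpowers x ▸ IsPGrp.dvd_card (piGrp_zpowers_iff.2 h) (by simpa using h1))

theorem mem_zpowers_sq {S D N : Subgroup G} {t : G} (pS : IsPGrp 2 S) (hS : S ≤ N) (hD : D.relIndex N ≤ 2)
    (hu : ∀ d ∈ D, d * d = 1 → d ≠ 1 → d = t) {x : G} (hx : x ∈ S) (h : x * x ≠ 1) : t ∈ zpowers (x * x) := by
  have h1 : x * x ∈ D := by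
    by_cases h2 : x ∈ D
    · exact D.mul_mem h2 h2
    · exact mul_mem_of_relIndex_two (le_antisymm hD (one_lt_relIndex fun e => h2 (e (hS hx)))) (hS hx) (hS hx) h2 h2
  obtain ⟨y, hy, y2, y1⟩ := exists_inv_of_piElt (pS.piElt (S.mul_mem hx hx)) h
  exact hu y (zpowers_le.2 h1 hy) y2 y1 ▸ hy

/-- there is an involution centralizing `t` outside `D` -/
theorem exists_inv_outside (hG : ⁅(⊤ : Subgroup G), (⊤ : Subgroup G)⁆ = ⊤) {S D : Subgroup G} {t : G}
    (hS : IsSylowOf 2 S ⊤) (h3 : S ≤ 𝒞[t]) (hD : D.relIndex 𝒞[t] ≤ 2) (hD' : D ≤ 𝒞[t]) (t2 : t * t = 1) (t1 : t ≠ 1)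
    (hu : ∀ d ∈ D, d * d = 1 → d ≠ 1 → d = t) (hn : ¬ S ≤ D) : ∃ u ∈ S, u ∉ D ∧ u * u = 1 := by
  by_contra hc
  push Not at hc
  refine hn (sylow_le_of_focal hG hS (fun x hx => mem_zpowers_sq hS.pGrp h3 hD hu hx)
    (comm_le_of_relIndex_le_two hD (norm_of_relIndex_le_two hD' hD) le_normalizer) h3 t2 t1
    fun x hx h => by_contra fun h' => hc x hx h' h)

theorem ZS.eq_one_of_cent [IsSimpleGroup G] (h : ZS B P) {g c : G} (hg : g ∉ B) (hc : c ∈ B :^ g ⊓ B)
    (hP : c ∈ 𝒞(P)) : c = 1 := by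
  refine perm_coset_inj h.ne_top ?_
  rw [map_one]
  refine Equiv.ext fun x => (?_ : c • x = x)
  by_cases hx : x = (1 : G)
  · rw [hx, smul_coset_iff]; simpa using hc.2
  · obtain ⟨u, hu, rfl⟩ := exists_smul_of_reg h.le h.reg h.index (a := g) (fun e => hg (coset_eq_one.1 e)) hx
    exact smul_mem_fixedBy_of_comm (hP u hu) (mem_fixedBy_coset.2 hc.1)

theorem ZS.exists_decomp (h : ZS B P) {g b : G} (hg : g ∉ B) (hb : b ∈ B) :
    ∃ u ∈ P, u⁻¹ * b ∈ B :^ g ⊓ B := by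
  obtain ⟨u, hu, e⟩ := exists_smul_of_reg h.le h.reg h.index (a := g) (b := b • (g : G ⧸ B))
    (fun e => hg (coset_eq_one.1 e)) fun e => hg ((B.mul_mem_cancel_left hb).1 (coset_eq_one.1 e))
  refine ⟨u, hu, mem_fixedBy_coset.1 ?_, B.mul_mem (B.inv_mem (h.le hu)) hb⟩
  rw [mem_fixedBy, mul_smul, ← e, inv_smul_smul]

theorem ZS.mem_of_cent [IsSimpleGroup G] (h : ZS B P) (cP : IsMulCommutative P) {c : G} (hc : c ∈ B)
    (hP : c ∈ 𝒞(P)) : c ∈ P := by
  obtain ⟨g, -, hg⟩ := SetLike.exists_of_lt h.ne_top.lt_top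
  obtain ⟨u, hu, e⟩ := h.exists_decomp hg hc
  rw [← inv_mul_eq_one.1 (h.eq_one_of_cent hg e (mul_mem (inv_mem (abelian_iff_le_cent.1 cP hu)) hP))]
  exact hu

theorem mul_mem_cent_of_inv {s t : G} (hs : ∀ y ∈ P, s * y * s⁻¹ = y⁻¹) (ht : ∀ y ∈ P, t * y * t⁻¹ = y⁻¹) :
    s * t ∈ 𝒞(P) := fun y hy => by
  calc y * (s * t) = y⁻¹⁻¹ * (s * t) := by rw [inv_inv]
    _ = _ := by rw [← hs _ (P.inv_mem hy), ← ht y hy]; group

theorem ZS.inv_facts [IsSimpleGroup G] (hG : ¬ IsMulCommutative G) (h : ZS B P) (cP : IsMulCommutative P)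
    (oP : Odd (Nat.card P)) (hc : ∀ s : G, s * s = 1 → s ≠ 1 → P ⊓ 𝒞[s] = ⊥) (h4 : ¬ 4 ∣ B.index) {g t : G}
    (hg : g ∉ B) (ht : t ∈ B :^ g ⊓ B) (t2 : t * t = 1) (t1 : t ≠ 1) :
    (∀ d ∈ B :^ g ⊓ B, d * d = 1 → d ≠ 1 → d = t) ∧ B :^ g ⊓ B ≤ 𝒞[t] ∧ (B :^ g ⊓ B).relIndex 𝒞[t] ≤ 2 ∧
    (∀ s : G, s * s = 1 → s ≠ 1 → IsConj s t) ∧
    ∃ S, IsSylowOf 2 S ⊤ ∧ S ≤ 𝒞[t] ∧ ∃ u ∈ S, u ∉ B :^ g ⊓ B ∧ u * u = 1 := by
  have inv : ∀ s ∈ B, s * s = 1 → s ≠ 1 → ∀ y ∈ P, s * y * s⁻¹ = y⁻¹ := fun s hs s2 s1 y hy =>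
    inv_of_fpf cP (h.norm hs) (s2 ▸ one_mem _) (hc s s2 s1) hy
  have h1 : ∀ d ∈ B :^ g ⊓ B, d * d = 1 → d ≠ 1 → d = t := fun d hd d2 d1 =>
    mul_right_cancel ((h.eq_one_of_cent hg (mul_mem hd ht)
      (mul_mem_cent_of_inv (inv d hd.2 d2 d1) (inv t ht.2 t2 t1))).trans t2.symm)
  have sq : ∀ a s : G, s * s = 1 → a * s * a⁻¹ * (a * s * a⁻¹) = 1 := fun a s s2 => by
    calc _ = a * (s * s) * a⁻¹ := by group
      _ = 1 := by rw [s2]; group
  have h2 : B :^ g ⊓ B ≤ 𝒞[t] := fun d hd => mem_centralizer_singleton_iff.2 (mul_inv_eq_iff_eq_mul.1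
    (h1 _ (mul_mem (mul_mem hd ht) (inv_mem hd)) (sq d t t2) (by simpa using t1)))
  have h3 := h.relIndex_cent_le hg ht (hc t t2 t1)
  have h5 : ∀ s : G, s * s = 1 → s ≠ 1 → IsConj s t := fun s s2 s1 => by
    obtain ⟨a, ha⟩ := exists_mem_conj_of_index (der_top_eq hG) h4 s2
    have e2 : a⁻¹ * s * a * (a⁻¹ * s * a) = 1 := by simpa using sq a⁻¹ s s2
    have e3 := h.mem_of_cent cP (mul_mem ha ht.2) (mul_mem_cent_of_inv
      (inv _ ha e2 (by simpa [mul_assoc, inv_mul_eq_one] using s1)) (inv t ht.2 t2 t1))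
    exact (isConj_iff.2 ⟨a⁻¹, by rw [inv_inv]⟩).trans
      (CA.Fi.dih_isConj_of_odd e2 t2 oP (pow_card_eq_one_of_mem e3))
  obtain ⟨S₀, hS₀⟩ := sylow_exists Nat.prime_two (⊤ : Subgroup G)
  obtain ⟨z, hz, oz⟩ := IsPGrp.exists_orderOf_eq (hS₀.piGrp.inf_left 𝒞(S₀)) (center_nil_ne_bot hS₀.pGrp.nil
    (hS₀.ne_bot' Nat.prime_two (orderOf_two t2 t1 ▸ orderOf_dvd_card_of_mem (mem_top t))))
  obtain ⟨a, ha⟩ := isConj_iff.1 (h5 z (sq_eq_one_of_orderOf oz) (ne_one_of_orderOf Nat.prime_two oz))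
  have hS := hS₀.conjg_of_mem (mem_top a)
  have h6 : S₀ :^ a ≤ 𝒞[t] := by
    rw [← ha, ← conjg_cent1]
    exact conjg_mono a (mem_cent_iff_le_cent_singleton.1 hz.2)
  refine ⟨h1, h2, h3, h5, _, hS, h6, exists_inv_outside (der_top_eq hG) hS h6 h3 h2 t2 t1 h1 fun e => ?_⟩
  refine IsSylowOf.not_dvd_index hS Nat.prime_two ?_
  rw [relIndex_top_right]
  refine (?_ : 2 ∣ B.index).trans (index_dvd_of_le (e.trans inf_le_right))
  rw [h.index]
  exact oP.add_one.two_dvd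

theorem exists_four (hP : IsSylowOf 3 P ⊤) (oP : Nat.card P = 3 ^ 2) (h8 : 8 ∣ Nat.card G) {C : Subgroup G}
    (hC : P ≤ C) (oC : Nat.card C = 36) (hi : (𝒩(P)).relIndex C = 4) :
    ∃ T : Subgroup G, Nat.card T = 4 ∧ T ≤ C ∧ C ≤ 𝒩(T) ∧ 72 ∣ Nat.card 𝒩(T) ∧ ¬ P ≤ 𝒞(T) := by
  have h1 := card_inf_mul_relIndex 𝒩(P) C
  rw [hi, oC] at h1
  have h2 : P = 𝒩(P) ⊓ C := eq_of_le_of_card_ge (le_inf le_normalizer hC) (by omega)
  have h3 := Burnside_normal_complement Nat.prime_three (hP.of_le hC le_top) (by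
    rw [inf_comm, ← h2]; exact abelian_iff_le_cent.1 (abelian_of_card_le_sq Nat.prime_three hP.pGrp oP.le))
  have h4 := h3.card_mul
  rw [oP, oC] at h4
  set T := pPrimeCoreOf 3 C
  have oT : Nat.card T = 2 ^ 2 := by omega
  obtain ⟨S, hS, sS⟩ := sylow_superset Nat.prime_two (pGrp_of_card_eq_pow Nat.prime_two oT) le_top
  have h5 : 8 ∣ Nat.card S := by
    obtain ⟨L, -, oL⟩ := exists_le_card_eq_pow (H := (⊤ : Subgroup G)) Nat.prime_two (k := 3) (by rwa [card_top])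
    exact oL.symm.dvd.trans (hS.card_dvd (pGrp_of_card_eq_pow Nat.prime_two oL) le_top)
  have h6 := card_lt_of_lt (nilpotent_proper_norm hS.pGrp.nil
    (lt_of_le_of_card_lt sS (lt_of_lt_of_le (by omega) (Nat.le_of_dvd Nat.card_pos h5))))
  obtain ⟨k, hk⟩ := (pGrp_iff_card Nat.prime_two).1 (hS.piGrp.inf_left 𝒩(T))
  have h7 : 2 ^ 3 ∣ Nat.card 𝒩(T) := by
    rw [hk, oT, Nat.pow_lt_pow_iff_right (by norm_num)] at h6
    exact ((pow_dvd_pow 2 h6).trans hk.symm.dvd).trans (card_dvd_of_le inf_le_right)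
  have h9 := card_dvd_of_le h3.normal.2
  rw [oC] at h9
  refine ⟨T, oT, h3.left_le, h3.normal.2, by omega, fun h => ?_⟩
  have := card_dvd_of_le ((le_inf (norm_of_cent' h) h3.left_le).trans h2.ge)
  rw [oT, oP] at this
  exact absurd this (by decide)

section
variable [IsSimpleGroup G] (hG : ¬ IsMulCommutative G)
include hG

theorem not_five_dvd (hn : Nat.card G = 360 ∨ Nat.card G = 720) {y : G} (oy : orderOf y = 3) :
    ¬ 5 ∣ Nat.card 𝒩(zpowers y) := fun h => by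
  obtain ⟨z, hz, oz⟩ := exists_mem_orderOf_eq Nat.prime_five h
  have oZ : Nat.card (zpowers z) = 5 ^ 1 := by rw [Nat.card_zpowers, oz]; rfl
  have hZ : IsSylowOf 5 (zpowers z) ⊤ := sylow_mk le_top (pGrp_of_card_eq_pow Nat.prime_five oZ) (by
    have := card_mul_index (zpowers z)
    rw [oZ] at this
    rw [relIndex_top_right]; omega)
  have h1 : (𝒩(zpowers z)).index ∈ [36] := by
    rcases hn with hn | hn
    · exact sylCond_mem hG Nat.prime_five hZ (by omega) oZ hn (by decide +kernel)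
    · exact sylCond_mem hG Nat.prime_five hZ (by omega) oZ hn (by decide +kernel)
  rw [List.mem_singleton] at h1
  have h2 := card_mul_index 𝒩(zpowers z)
  rw [h1] at h2
  have h3 : zpowers z ≤ 𝒞(zpowers y) := by_contra fun hc =>
    absurd (prime_dvd_pred_of_not_cent Nat.prime_three hZ.pGrp (by rw [Nat.card_zpowers, oy]) (zpowers_le.2 hz) hc)
      (by decide)
  have := card_dvd_of_le (norm_of_cent' h3)
  rw [Nat.card_zpowers, oy] at this
  omega

theorem TI_three (hn : Nat.card G = 360 ∨ Nat.card G = 720) (hP : IsSylowOf 3 P ⊤) :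
    ∀ y ∈ P, y ≠ 1 → ∀ g, y ∈ P :^ g → g ∈ 𝒩(P) := by
  have oP := IsSylowOf_card Nat.prime_three hP (a := 2) (by omega) (by omega)
  have cP := abelian_of_card_le_sq Nat.prime_three hP.pGrp oP.le
  intro y0 hy0 y01 g hg0
  by_contra hg
  obtain ⟨y, hy, oy⟩ := IsPGrp.exists_orderOf_eq (hP.piGrp.inf_left (P :^ g)) (ne_bot_of_mem ⟨hy0, hg0⟩ y01)
  obtain ⟨h1, h2, h3, h4⟩ := cent_facts Nat.prime_three hP oP hy.1 hy.2 hg
  have y1 := ne_one_of_orderOf Nat.prime_three oy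
  have oQ : Nat.card (zpowers y) = 3 := by rw [Nat.card_zpowers, oy]
  have hCN : 𝒞[y] ≤ 𝒩(zpowers y) := norm_zpowers_of_cent le_rfl
  have h5 := not_five_dvd hG hn oy
  have hN := norm_ne_top (P := zpowers y) (by simpa using y1)
    (ne_top_of_pGrp hG (pGrp_of_card_eq Nat.prime_three oQ))
  have idx : ∀ H : Subgroup G, H ≠ ⊤ → 72 ∣ Nat.card H → Nat.card G = 720 ∧ H.index = 10 := fun H hH h => by
    rcases hn with hn | hn
    · exact absurd (index_mem hG hH hn h (L := []) (by decide +kernel)) List.not_mem_nil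
    · exact ⟨hn, List.mem_singleton.1 (index_mem hG hH hn h (by decide +kernel))⟩
  have h6 : Nat.card 𝒞[y] ∣ 720 := (card_subgroup_dvd_card _).trans (by rcases hn with e | e <;> rw [e]; decide)
  have h7 : ¬ 5 ∣ Nat.card 𝒞[y] := fun h => h5 (h.trans (card_dvd_of_le hCN))
  have h8 : (𝒩(P)).relIndex 𝒞[y] ∈ [4, 16] :=
    mem_of_dvd (Nat.dvd_of_mul_dvd_mul_left (k := 9) (n := 80) (by norm_num) (h4.trans h6)) (by norm_num)
      (fun d => 1 < d ∧ 3 ∣ d - 1 ∧ ¬ 5 ∣ d) (by decide) ⟨h2, h3, fun h => h7 ((h.mul_left _).trans h4)⟩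
  simp only [List.mem_cons, List.not_mem_nil, or_false] at h8
  have h9 : ¬ 144 ∣ Nat.card 𝒞[y] := fun h => by
    obtain ⟨e1, e2⟩ := idx _ (cent1_ne_top hG y1) (by omega)
    have := card_mul_index 𝒞[y]
    rw [e2] at this
    omega
  have h10 : (𝒩(P)).relIndex 𝒞[y] = 4 := h8.resolve_right fun e => h9 (by rwa [e] at h4)
  rw [h10] at h4
  have h11 : 72 ∣ Nat.card 𝒩(zpowers y) := by
    have := mem_of_dvd h6 (by norm_num) (L := [36, 72]) (fun d => 36 ∣ d ∧ ¬ 5 ∣ d ∧ ¬ 144 ∣ d)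
      (by decide +kernel) ⟨h4, h7, h9⟩
    simp only [List.mem_cons, List.not_mem_nil, or_false] at this
    rcases this with e | e
    swap
    · exact e.symm.dvd.trans (card_dvd_of_le hCN)
    obtain ⟨T, oT, f1, f2, f3, f4⟩ := exists_four hP oP (by omega) h1 e h10
    have pT : IsPGrp 2 T := pGrp_of_card_eq_pow Nat.prime_two (k := 2) oT
    obtain ⟨e1, e2⟩ := idx _ (norm_ne_top (ne_bot_of_prime_dvd_card Nat.prime_two (by omega))
      (ne_top_of_pGrp hG pT)) f3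
    have f5 := card_mul_index 𝒩(T)
    rw [e2] at f5
    have f6 : zpowers y ≤ 𝒞(T) := le_cent_symm (by rwa [cent_zpowers])
    have f7 : ¬ 9 ∣ Nat.card 𝒞(T) := fun h => by
      have := (hP.of_le (h1.trans f2) le_top).inf_normal ⟨cent_le_norm T, norm_cent le_rfl⟩
      obtain ⟨L, sL, oL⟩ := exists_le_card_eq_pow Nat.prime_three (k := 2) h
      have f8 := Nat.le_of_dvd Nat.card_pos (this.card_dvd (pGrp_of_card_eq_pow Nat.prime_three oL) sL)
      exact f4 ((eq_of_le_of_card_ge inf_le_left (by omega)).ge.trans inf_le_right)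
    have f8 := card_mul_relIndex f6
    rw [oQ] at f8
    have hQ : IsSylowOf 3 (zpowers y) 𝒞(T) := sylow_mk f6 (pGrp_of_card_eq Nat.prime_three oQ) (by omega)
    have f9 := relIndex_norm_mod Nat.prime_three hQ
    have f10 := card_inf_mul_relIndex 𝒩(zpowers y) 𝒞(T)
    have f11 := card_dvd_of_le (le_inf (f1.trans hCN)
      (abelian_iff_le_cent.1 (abelian_of_card_le_sq Nat.prime_two pT oT.le)))
    have f12 := card_dvd_of_le (le_inf le_normalizer f6)
    have f13 : Nat.card 𝒞(T) ∣ 72 := (card_dvd_of_le (cent_le_norm T)).trans (dvd_of_eq (by omega))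
    rw [oT] at f11
    rw [oQ] at f12
    obtain ⟨k, hk⟩ : 12 ∣ Nat.card (𝒩(zpowers y) ⊓ 𝒞(T) : Subgroup G) := by omega
    rw [← f10, hk, mul_assoc] at f13
    have f14 := mem_of_dvd ((Dvd.intro_left _ rfl).trans
      (Nat.dvd_of_mul_dvd_mul_left (k := 12) (n := 6) (by norm_num) f13)) (by norm_num) (L := [1])
      (fun d => 3 ∣ d - 1) (by decide) f9
    exact f3.trans (card_dvd_of_le ((norm_cent le_rfl).trans
      (hQ.norm_le_norm (relIndex_eq_one.1 (List.mem_singleton.1 f14)))))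
  obtain ⟨e1, e2⟩ := idx _ hN h11
  set Q := zpowers y with hQ
  have g1 : 4 ∣ (fixedBy (G ⧸ 𝒩(Q)) y \ {((1 : G) : G ⧸ 𝒩(Q))}).ncard := by
    refine dvd_ncard_of_orbits (A := 𝒞[y]) (S := fixedBy (G ⧸ 𝒩(Q)) y \ {((1 : G) : G ⧸ 𝒩(Q))})
      (fun a ha x hx => ⟨smul_mem_fixedBy_of_comm (mem_centralizer_singleton_iff.1 ha) hx.1, fun hc => hx.2 ?_⟩)
      fun x hx => ?_
    · rw [Set.mem_singleton_iff, smul_eq_iff_eq_inv_smul] at hc
      rw [hc, Set.mem_singleton_iff, smul_coset_iff]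
      simpa using hCN ha
    obtain ⟨b, rfl⟩ := QuotientGroup.mk_surjective x
    have hb : b ∉ 𝒩(Q) := fun h => hx.2 (coset_eq_one.2 h)
    have g2 : y ∈ 𝒩(Q :^ b) := conjg_norm Q b ▸ mem_fixedBy_coset.1 hx.1
    have oQ' : Nat.card (Q :^ b) = 3 := (card_conjg Q b).trans oQ
    have pQ : IsPGrp 3 Q := pGrp_of_card_eq Nat.prime_three oQ
    have g3 : Q ≤ 𝒞(Q :^ b) := pGrp_cent_of_card_prime Nat.prime_three pQ oQ' (zpowers_le.2 g2)
    have g4 : Q ⊓ Q :^ b = ⊥ := (inf_eq_bot_or_le_of_card_prime (oQ ▸ Nat.prime_three) _).resolve_right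
      fun h => hb (conjg_eq_self_iff.1 (eq_of_le_of_card_ge h (by omega)).symm)
    have g5 := card_sup_of_inf_eq_bot (Or.inl (norm_of_cent g3)) g4
    have g6 : Q ⊔ Q :^ b ≤ 𝒞[y] := sup_le (zpowers_le.2 (mem_cent_singleton_self y))
      (cent_zpowers y ▸ le_cent_symm g3)
    obtain ⟨c, hc, g7⟩ := sylow_trans Nat.prime_three (hP.of_le h1 le_top)
      ((hP.of_le h1 le_top).of_card_eq g6 (by rw [g5, oQ, oQ', oP]; rfl))
    have g8 : (𝒩(Q ⊔ Q :^ b)).relIndex 𝒞[y] = 4 := by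
      rw [g7, ← conjg_norm, ← h10, ← relIndex_conjg 𝒩(P) 𝒞[y] c, conjg_of_mem hc]
    rw [stabilizer_coset, conjg_norm, ← inf_relIndex_right, ← g8]
    exact relIndex_dvd_of_le_left _ (norm_sup (inf_le_right.trans hCN) inf_le_left)
  have g2 := oy ▸ dvd_ncard_compl (Ω := G ⧸ 𝒩(Q)) (oy ▸ Nat.prime_three)
  have g3 := moved_add_fixed 𝒩(Q) y
  have g4 := ncard_diff_add (fixedBy (G ⧸ 𝒩(Q)) y) {((1 : G) : G ⧸ 𝒩(Q))}
  rw [Set.inter_eq_right.2 (Set.singleton_subset_iff.2 (mem_fixedBy_coset.2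
    (by rw [conjg_one]; exact le_normalizer (mem_zpowers y)))), Set.ncard_singleton] at g4
  obtain ⟨t, ht, ot⟩ := exists_mem_orderOf_eq Nat.prime_two (H := 𝒞[y]) (by omega)
  have := (mul_le_index_of_comm hG hN Nat.prime_three Nat.prime_two (by omega) oy ot
    (mem_centralizer_singleton_iff.1 ht).symm
    (fun a ha b hb => (Set.ncard_le_one (Set.toFinite _)).1 (by omega) a ha b hb)).2 rfl
  omega

theorem ZS_three (hn : Nat.card G = 360 ∨ Nat.card G = 720) (hP : IsSylowOf 3 P ⊤) :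
    ZS 𝒩(P) P ∧ Nat.card P = 9 ∧ ∀ s : G, s * s = 1 → s ≠ 1 → P ⊓ 𝒞[s] = ⊥ := by
  have oP := IsSylowOf_card Nat.prime_three hP (a := 2) (by omega) (by omega)
  have hTI := TI_three hG hn hP
  have h1 : (𝒩(P)).index ∈ [10, 40] := by
    rcases hn with hn | hn
    · exact sylCond_mem hG Nat.prime_three hP (by omega) oP hn (by decide +kernel)
    · exact sylCond_mem hG Nat.prime_three hP (by omega) oP hn (by decide +kernel)
  have h2 := dvd_index_norm_sub hP (d := 9) fun g hg => by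
    have := card_inf_mul_relIndex (P :^ g) P
    rw [← inf_norm_conj hP, reg_of_TI hP hTI g hg, card_bot, one_mul, oP] at this
    rw [this]; rfl
  simp only [List.mem_cons, List.not_mem_nil, or_false] at h1
  have h3 : (𝒩(P)).index = 10 := by omega
  refine ⟨⟨le_normalizer, le_rfl, reg_of_TI hP hTI, by omega⟩, oP, fun s s2 s1 => by_contra fun hc => ?_⟩
  obtain ⟨y, hy, oy⟩ := IsPGrp.exists_orderOf_eq (hP.piGrp.inf_left 𝒞[s]) hc
  have := (mul_le_index_of_comm hG (H := 𝒩(P)) (fun e => by simp [e] at h3) Nat.prime_three Nat.prime_two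
    (by omega) oy (orderOf_two s2 s1) (mem_centralizer_singleton_iff.1 hy.2)
    (fixedBy_sylow hP hy.1 (hTI y hy.1 (ne_one_of_orderOf Nat.prime_three oy)))).2 rfl
  omega

theorem not_card_720 (hn : Nat.card G = 720) : False := by
  obtain ⟨P, hP⟩ := sylow_exists Nat.prime_three (⊤ : Subgroup G)
  obtain ⟨h, oP, hc⟩ := ZS_three hG (Or.inr hn) hP
  obtain ⟨g, -, hg⟩ := SetLike.exists_of_lt h.ne_top.lt_top
  have h1 := h.card_inter hg
  have h2 := card_mul_index 𝒩(P)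
  have h3 := h.index
  rw [oP] at h1 h3
  rw [h3] at h2
  set D := 𝒩(P) :^ g ⊓ 𝒩(P)
  have oD : Nat.card D = 2 ^ 3 := by omega
  obtain ⟨t, ht, ot⟩ := exists_mem_orderOf_eq Nat.prime_two (H := D) (by omega)
  have t2 := sq_eq_one_of_orderOf ot
  have t1 := ne_one_of_orderOf Nat.prime_two ot
  obtain ⟨f1, f2, f3, f4, S, hS, f5, u, hu, hu', u2⟩ := h.inv_facts hG
    (abelian_of_card_le_sq Nat.prime_three hP.pGrp oP.le) (by rw [oP]; decide) hc (by omega) hg ht t2 t1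
  have f6 : ∀ d ∈ D, d * d = 1 ∨ d * d = t := fun d hd => by
    by_contra hd'
    push Not at hd'
    have e1 : d ^ 8 = 1 := by simpa [oD] using pow_card_eq_one_of_mem hd
    have e2 : d ^ 4 = t := f1 _ (pow_mem hd 4) (by rw [← pow_add, e1]) fun e =>
      hd'.2 (f1 _ (mul_mem hd hd) (by rw [← e, ← pow_two, ← pow_two, ← pow_mul]) hd'.1)
    have e3 := two_mul_dvd_ncard_compl (Ω := G ⧸ 𝒩(P)) (der_top_eq hG) (by decide) e1 (by norm_num)
      fun x k k0 k8 hx => by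
        have e4 : ∀ m, d ^ (k * m) • x = x := fun m => by
          rw [pow_mul]; exact (stabilizer G x).pow_mem hx m
        have e5 : x ∈ fixedBy (G ⧸ 𝒩(P)) t := by
          obtain ⟨m, -, j, -, e⟩ := (by decide : ∀ k < 8, 0 < k → ∃ m < 5, ∃ j < 4, k * m = 8 * j + 4) k k8 k0
          have := e4 m
          rwa [e, pow_add, pow_mul, e1, one_pow, one_mul, e2] at this
        rw [h.fixed_eq hg ht (hc t t2 t1)] at e5
        rcases e5 with rfl | rfl
        · exact mem_fixedBy_coset.2 (by rw [conjg_one]; exact hd.2)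
        · exact mem_fixedBy_coset.2 hd.1
    have e4 := moved_add_fixed 𝒩(P) d
    have e5 := moved_coset_pos h.ne_top (y := d) fun e => hd'.1 (by rw [e, mul_one])
    omega
  have oS := IsSylowOf_card Nat.prime_two hS (a := 4) (by omega) (by omega)
  have f7 : S = 𝒞[t] := eq_of_le_of_card_ge f5 (by
    rw [← card_mul_relIndex f2, oD, oS]; exact Nat.mul_le_mul_left _ f3)
  have ct : ∀ s ∈ S, s * t * s⁻¹ = t := fun s hs =>
    mul_inv_eq_iff_eq_mul.2 (mem_centralizer_singleton_iff.1 (f5 hs))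
  have cj : ∀ s ∈ S, s * (u * t) * s⁻¹ = s * u * s⁻¹ * t := fun s hs => by
    conv_rhs => rw [← ct s hs]
    group
  let X : Subgroup G :=
    { carrier := {s | s ∈ S ∧ (s * u * s⁻¹ = u ∨ s * u * s⁻¹ = u * t)}
      one_mem' := ⟨one_mem _, Or.inl (by group)⟩
      mul_mem' := fun {a b} ha hb => ⟨mul_mem ha.1 hb.1, by
        rw [show a * b * u * (a * b)⁻¹ = a * (b * u * b⁻¹) * a⁻¹ by group]
        rcases hb.2 with e | e <;> rw [e]
        · exact ha.2
        · rw [cj a ha.1]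
          rcases ha.2 with e | e <;> rw [e]
          · exact Or.inr rfl
          · exact Or.inl (by rw [mul_assoc, t2, mul_one])⟩
      inv_mem' := fun {a} ha => ⟨inv_mem ha.1, by
        rcases ha.2 with e | e
        · left
          conv_lhs => rw [← e]
          group
        · right
          rw [← mul_left_inj t, ← cj _ (inv_mem ha.1), mul_assoc u, t2, ← e]
          group⟩ }
  have f8 : X = S := eq_of_nil_of_le_der_sup hS.pGrp.nil (fun s hs => hs.1) (sylow_le_of_focal (der_top_eq hG) hS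
    (fun x hx => mem_zpowers_sq hS.pGrp f5 f3 f1 hx) (f7 ▸ le_sup_left) f5 t2 t1 fun x hx x2 => mem_sup_right ⟨hx, by
      by_cases hD : x ∈ D
      · by_cases x1 : x = 1
        · left; rw [x1]; group
        · left; rw [f1 x hD x2 x1, ← mem_centralizer_singleton_iff.1 (f5 hu)]; group
      · have e1 := mul_mem_of_relIndex_two (le_antisymm f3 (one_lt_relIndex fun e => hu' (e (f5 hu))))
          (f5 hu) (f5 hx) hu' hD
        have e2 : x * u * x⁻¹ = u * (u * x * (u * x)) := by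
          rw [inv_eq_of_mul_eq_one_right x2, ← mul_assoc, ← mul_assoc u u, u2]; group
        rw [e2]
        exact (f6 _ e1).imp (fun e => by rw [e, mul_one]) fun e => by rw [e]⟩)
  have f9 : (𝒞[u]).relIndex D ≤ 2 := by
    rw [← ncard_cls]
    refine (Set.ncard_le_ncard (t := {u, u * t}) ?_).trans ((Set.ncard_insert_le _ _).trans (by simp))
    rintro _ ⟨a, ha, rfl⟩
    exact (f8.ge (f7.ge (f2 ha))).2
  obtain ⟨d, hd, hd'⟩ := SetLike.not_le_iff_exists.1 (show ¬ 𝒞[u] ⊓ D ≤ zpowers t from fun e => by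
    have e1 := Subgroup.card_le_of_le e
    have e2 := card_inf_mul_relIndex 𝒞[u] D
    rw [Nat.card_zpowers, ot] at e1
    have := Nat.mul_le_mul e1 f9
    omega)
  have d2 : d * d = t := (f6 d hd.2).resolve_left fun e => hd' (by
    by_cases d1 : d = 1
    · rw [d1]; exact one_mem _
    · rw [f1 d hd.2 e d1]; exact mem_zpowers t)
  obtain ⟨a, ha⟩ := isConj_iff.1 (f4 u u2 fun e => hu' (e ▸ one_mem _))
  have g1 : a * d * a⁻¹ ∈ S := by
    rw [f7, ← ha, ← conjg_cent1]; exact conj_mem_conjg a hd.1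
  have g2 : a * d * a⁻¹ * (a * d * a⁻¹) = a * t * a⁻¹ := by rw [← d2]; group
  have g3 := mem_zpowers_sq hS.pGrp f5 f3 f1 g1 (by rw [g2]; simpa using t1)
  rw [g2, ← conjg_zpowers, mem_conjg, show a⁻¹ * t * a = u by rw [← ha]; group] at g3
  exact hu' (zpowers_le.2 ht g3)

theorem card_simple_le (h : Nat.card G ≤ 1092) : Nat.card G = 60 ∨ Nat.card G = 168 ∨ Nat.card G = 360 ∨
    Nat.card G = 504 ∨ Nat.card G = 660 ∨ Nat.card G = 1092 := by
  have h0 := card_mem_sieve hG h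
  have h1 := not_card_two_three hG (a := 5) (ha := Or.inl rfl)
  have h2 := not_card_two_three hG (a := 6) (ha := Or.inr rfl)
  have h3 := not_card_612 hG
  have h4 := not_card_720 hG
  have h5 := not_card_756 hG
  have h6 := not_card_1008 hG
  have h7 := not_card_1040 hG
  have h8 := not_card_1080 hG
  simp only [List.mem_cons, List.not_mem_nil, or_false] at h0
  simp only [imp_false] at h1 h2 h3 h4 h5 h6 h7 h8
  omega

theorem equiv_A5 (hn : Nat.card G = 60) : Nonempty (G ≃* alternatingGroup (Fin 5)) := by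
  classical
  obtain ⟨S, hS, oS⟩ := exists_sylow_card Nat.prime_two (a := 2) (G := G) (by omega) (by omega)
  have h1 := List.mem_singleton.1 (sylCond_mem hG Nat.prime_two hS (by omega) oS hn (L := [5]) (by decide +kernel))
  have e : G ⧸ 𝒩(S) ≃ Fin 5 := Finite.equivFinOfCardEq h1
  exact Cfsg.Agent.Lin.nonempty_equiv_alternating_of_injective (e.permCongrHom.toMonoidHom.comp (toPermHom G _))
    (e.permCongrHom.injective.comp (perm_coset_inj fun e => by simp [e] at h1)) (by rw [hn]; rfl)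

end

theorem not_comm_of_card [IsSimpleGroup G] (h : ¬ (Nat.card G).Prime) : ¬ IsMulCommutative G := fun hc => by
  let _ : CommGroup G := { mul_comm := hc.is_comm.comm }
  exact h IsSimpleGroup.prime_card

end CA.Dih
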