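/-
Recognition of `PSL(2, q)`, `q` odd, as a Zassenhaus group.
-/
import Cfsg.Agent.Dih.ZS
import Cfsg.Agent.BG.P03a

set_option autoImplicit false
set_option linter.unusedSectionVars false

namespace CA.Dih

open Subgroup Cfsg CA.FG CA.BG MulAction Matrix
open scoped commutatorElement MatrixGroups

universe u v

open scoped IsMulCommutative in
theorem field_of_irr {V : Type*} [AddCommGroup V] [Finite V] [Nontrivial V]
    (S : Set (AddMonoid.End V)) (comm : ∀ a ∈ S, ∀ b ∈ S, a * b = b * a)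
    (irr : ∀ X : AddSubgroup V, (∀ a ∈ S, ∀ v ∈ X, a v ∈ X) → X = ⊥ ∨ X = ⊤) :
    IsField (Subring.closure S) ∧
      ∀ s ≠ 0, Function.Bijective fun f : Subring.closure S => f.1 s := by
  have cm := Subring.isMulCommutative_closure comm
  have inj : ∀ (f : Subring.closure S) (v : V), f.1 v = 0 → f = 0 ∨ v = 0 := fun f v hv => by
    refine (irr (AddMonoidHom.ker f.1) fun a ha w hw => ?_).symm.imp
      (fun e => Subtype.ext (AddMonoidHom.ext fun w => e.ge (AddSubgroup.mem_top w)))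
      fun e => e.le hv
    have := congrArg (fun g : Subring.closure S => g.1 w) (cm.is_comm.comm f ⟨a, Subring.subset_closure ha⟩)
    exact this.trans ((congrArg a hw).trans (map_zero a))
  have : Finite (AddMonoid.End V) := DFunLike.finite _
  have : NoZeroDivisors (Subring.closure S) := ⟨fun {f g} e => by
    refine or_iff_not_imp_left.2 fun hf => Subtype.ext (AddMonoidHom.ext fun w => ?_)
    exact (inj f _ (congrArg (fun g : Subring.closure S => g.1 w) e)).resolve_left hf⟩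
  have : Nontrivial (Subring.closure S) := ⟨0, 1, fun e => by
    obtain ⟨v, hv⟩ := exists_ne (0 : V)
    exact hv (congrArg (fun g : Subring.closure S => g.1 v) e).symm⟩
  have := NoZeroDivisors.to_isDomain (Subring.closure S)
  refine ⟨Finite.isField_of_domain _, fun s hs => ⟨fun f g e => ?_, fun v => ?_⟩⟩
  · exact sub_eq_zero.1 ((inj (f - g) s (sub_eq_zero.2 e)).resolve_right hs)
  · let ev : Subring.closure S →+ V := AddMonoidHom.mk' (fun f => f.1 s) fun _ _ => rfl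
    refine ((irr ev.range ?_).resolve_left fun e => hs (e.le ⟨1, rfl⟩)).ge (AddSubgroup.mem_top v)
    rintro a ha _ ⟨f, rfl⟩
    exact ⟨⟨a, Subring.subset_closure ha⟩ * f, rfl⟩

/-- the functional equation of the involution -/
theorem inv_formula {F : Type*} [Field F] (S : F → Prop) (W : F → F) (S0 : ∀ x, S x → x ≠ 0) (S1 : S 1)
    (Sm : ∀ x y, S x → S y → S (x * y)) (Si : ∀ x, S x → S x⁻¹)
    (Sn : ∀ x y, x ≠ 0 → y ≠ 0 → ¬ S x → ¬ S y → S (x * y))
    (W0 : ∀ a ≠ 0, W a ≠ 0) (WW : ∀ a ≠ 0, W (W a) = a) (WS : ∀ s a, S s → a ≠ 0 → W (s * a) = s⁻¹ * W a)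
    (fe : ∀ b ≠ 0, ∃ δ c, S δ ∧ W c = - W b ∧ c + δ * W (-b) = 0 ∧
      ∀ y ≠ 0, b + y ≠ 0 → W (b + y) = W b + W (c + δ * W y))
    (irr : ¬ ∀ x y, S x → S y → x + y ≠ 0 → S (x + y)) : S (- W 1) ∧ ∀ x ≠ 0, W x = W 1 / x := by
  have k1 : ∀ s a, S s → a ≠ 0 → s * a * W (s * a) = a * W a := fun s a hs ha => by
    have := S0 s hs
    rw [WS s a hs ha]; field_simp
  have k2 : ∀ x, S x → W x = W 1 / x := fun x hx => by
    have := WS x 1 hx one_ne_zero
    rw [mul_one] at this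
    rw [this, div_eq_inv_mul]
  have Sl : ∀ x y, S x → S (x * y) → S y := fun x y hx h => by
    have := Sm _ _ (Si x hx) h
    rwa [inv_mul_cancel_left₀ (S0 x hx)] at this
  have a0 := W0 1 one_ne_zero
  by_cases h : ∀ x ≠ 0, W x = W 1 / x
  · refine ⟨?_, h⟩
    obtain ⟨δ, c, h1, h2, h3, -⟩ := fe 1 one_ne_zero
    rw [h _ (neg_ne_zero.2 one_ne_zero)] at h3
    have d0 := S0 δ h1
    have h4 : c = δ * W 1 := by linear_combination h3
    rw [h4, h _ (mul_ne_zero d0 a0)] at h2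
    rw [← h2, show W 1 / (δ * W 1) = δ⁻¹ by field_simp]
    exact Si δ h1
  exfalso
  push Not at h
  obtain ⟨ν, ν0, hν⟩ := h
  have k3 : ∀ x ≠ 0, x * W x = W 1 → S x := fun x x0 hx => by_contra fun hs => hν (by
    have h1 := Sn x ν x0 ν0 hs fun h => hν (k2 ν h)
    have h2 := Sl _ _ (Sn x x x0 x0 hs hs) (show S (x * x * (ν / x)) by
      rwa [show x * x * (ν / x) = x * ν by field_simp])
    have h3 := k1 _ x h2 x0
    rw [div_mul_cancel₀ _ x0, hx] at h3
    rw [← h3]; field_simp)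
  have k4 : ∀ x, S x → x * W x = W 1 := fun x hx => by
    have := S0 x hx
    rw [k2 x hx]; field_simp
  have k5 : ∀ x ≠ 0, S (W x) ↔ S x := fun x x0 =>
    ⟨fun h => k3 x x0 (by rw [← k4 _ h, WW x x0, mul_comm]),
      fun h => k3 _ (W0 x x0) (by rw [WW x x0, mul_comm, k4 x h])⟩
  have m1 : (-1 : F) ≠ 0 := neg_ne_zero.2 one_ne_zero
  have Sa := (k5 1 one_ne_zero).2 S1
  have Sneg : S (-1) := by_contra fun hn => by
    obtain ⟨δ, c, h1, h2, h3, -⟩ := fe 1 one_ne_zero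
    have h4 : S c := by
      rw [show c = δ * (-1 * W (-1)) by linear_combination h3]
      exact Sm _ _ h1 (Sn _ _ m1 (W0 _ m1) hn fun h => hn ((k5 _ m1).1 h))
    have h5 := (k5 c (S0 c h4)).2 h4
    rw [h2, show -W 1 = W 1 * -1 by ring] at h5
    exact hn (Sl _ _ Sa h5)
  refine irr fun b y hb hy h0 => k3 _ h0 ?_
  have b0 := S0 b hb
  have y0 := S0 y hy
  obtain ⟨δ, c, h1, h2, h3, h4⟩ := fe b b0
  have d0 := S0 δ h1
  have h5 : S (-b) := by simpa using Sm _ _ Sneg hb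
  rw [k2 _ h5] at h3
  have h6 : c = δ * W 1 / b := by
    rw [eq_neg_of_add_eq_zero_left h3]; field_simp
  have h7 : S c := by rw [h6, div_eq_mul_inv]; exact Sm _ _ (Sm _ _ h1 Sa) (Si _ hb)
  rw [k2 _ h7, k2 _ hb, h6] at h2
  have h8 : δ * W 1 = - b ^ 2 := by
    field_simp at h2
    linear_combination h2
  have h9 := h4 y y0 h0
  have h10 : c + δ * W y = (-1 * b * y⁻¹) * (b + y) := by
    rw [h6, k2 y hy, mul_div_assoc', h8]; field_simp; ring
  rw [h10, WS _ _ (Sm _ _ (Sm _ _ Sneg hb) (Si _ hy)) h0, k2 b hb] at h9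
  field_simp at h9
  linear_combination h9

variable {G : Type u} [Group G] [Finite G]

theorem irr_of_half {P D : Subgroup G} (semi : Semiregular P D) (oD : 2 * Nat.card D + 1 = Nat.card P)
    {Y : Subgroup G} (hY : Y ≤ P) (nY : D ≤ 𝒩(Y)) : Y = ⊥ ∨ Y = P := by
  obtain ⟨j, hj⟩ := P03.regular_norm_dvd_pred nY (P03.semiregularS semi hY le_rfl)
  obtain ⟨m, hm⟩ := card_dvd_of_le hY
  have h0 : 0 < Nat.card Y := Nat.card_pos
  have h1 : 0 < Nat.card D := Nat.card_pos
  have h2 := Subgroup.card_le_of_le hY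
  rcases j with _ | _ | j
  · exact Or.inl (card_eq_one.1 (by omega))
  · rw [show Nat.card Y = Nat.card D + 1 by omega] at hm
    rcases m with _ | _ | m
    · omega
    · omega
    · nlinarith
  · exact Or.inr (eq_of_le_of_card_ge hY (by
      have := Nat.mul_le_mul_left (Nat.card D) (show 2 ≤ j + 1 + 1 by omega)
      omega))

open scoped IsMulCommutative in
theorem exists_model {P D : Subgroup G} (cP : IsMulCommutative P) (nP : D ≤ 𝒩(P)) (cD : IsMulCommutative D)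
    (semi : Semiregular P D) (oD : 2 * Nat.card D + 1 = Nat.card P) :
    ∃ (F : Type u) (_ : Field F) (_ : Fintype F) (u : F → G) (δ : G → F), (∀ a, u a ∈ P) ∧ (∀ y ∈ P, ∃ a, u a = y) ∧
      Function.Injective u ∧ (∀ a b, u (a + b) = u a * u b) ∧ ∀ d ∈ D, ∀ a, d * u a * d⁻¹ = u (δ d * a) := by
  classical
  let ρ : D → AddMonoid.End (Additive P) := fun d =>
    MonoidHom.toAdditive (P.normalizerMonoidHom ⟨d, nP d.2⟩).toMonoidHom
  have hρ : ∀ (d : D) (v : Additive P), ((ρ d v).toMul : G) = d * v.toMul * (d : G)⁻¹ := fun _ _ => rfl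
  have h1 : 0 < Nat.card D := Nat.card_pos
  have : Nontrivial (Additive P) := (Finite.one_lt_card_iff_nontrivial (α := P)).1 (by omega)
  obtain ⟨hF, hb⟩ := field_of_irr (Set.range ρ) (by
      rintro _ ⟨a, rfl⟩ _ ⟨b, rfl⟩
      refine AddMonoidHom.ext fun v => Additive.toMul.injective (Subtype.ext ?_)
      change ((ρ a (ρ b v)).toMul : G) = (ρ b (ρ a v)).toMul
      simp only [hρ]
      calc _ = (a * b : G) * v.toMul * (a * b : G)⁻¹ := by group
        _ = _ := by rw [abelian_iff_forall.1 cD a a.2 b b.2]; group)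
    (fun X hX => by
      have hY := irr_of_half semi oD (Y := (AddSubgroup.toSubgroup' X).map P.subtype) (map_subtype_le _)
        (fun d hd => mem_norm_of_forall (by
          rintro _ ⟨y, hy, rfl⟩
          exact ⟨(ρ ⟨d, hd⟩ (Additive.ofMul y)).toMul, hX _ ⟨_, rfl⟩ _ hy, rfl⟩))
      refine hY.imp (fun e => eq_bot_iff.2 fun v hv => ?_) fun e => eq_top_iff.2 fun v _ => ?_
      · exact Additive.toMul.injective (Subtype.ext (mem_bot.1 (e.le ⟨v.toMul, hv, rfl⟩)))
      · obtain ⟨y, hy, e'⟩ := e.ge v.toMul.2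
        obtain rfl : y = v.toMul := Subtype.ext e'
        exact hy)
  obtain ⟨s, hs⟩ := exists_ne (0 : Additive P)
  have : Finite (Subring.closure (Set.range ρ)) := Finite.of_injective _ (hb s hs).1
  refine ⟨Subring.closure (Set.range ρ), hF.toField, Fintype.ofFinite _, fun f => ((f.1 s).toMul : G),
    fun d => if h : d ∈ D then ⟨ρ ⟨d, h⟩, Subring.subset_closure ⟨_, rfl⟩⟩ else 0, fun a => (a.1 s).toMul.2,
    fun y hy => ?_, fun a b e => (hb s hs).1 (Additive.toMul.injective (Subtype.ext e)), fun a b => rfl,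
    fun d hd a => ?_⟩
  · obtain ⟨f, hf⟩ := (hb s hs).2 (Additive.ofMul ⟨y, hy⟩)
    exact ⟨f, congrArg (fun v : Additive P => (v.toMul : G)) hf⟩
  · simp only [dif_pos hd]
    rfl

/-- **Zassenhaus**: recognition of `PSL(2, q)` -/
theorem ZS.equiv_psl_aux [IsSimpleGroup G] {B P : Subgroup G} (h : ZS B P) (cP : IsMulCommutative P) {w : G}
    (w2 : w * w = 1) (hw : w ∉ B) (semi : Semiregular P (B :^ w ⊓ B))
    (oD : 2 * Nat.card (B :^ w ⊓ B : Subgroup G) + 1 = Nat.card P)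
    (inv : ∀ d ∈ B :^ w ⊓ B, w * d * w⁻¹ = d⁻¹) :
    ∃ (F : Type u) (_ : Field F) (_ : Fintype F), Fintype.card F = Nat.card P ∧ Nonempty (G ≃* PSL(2, F)) := by
  classical
  set D := B :^ w ⊓ B with hD
  have cD : IsMulCommutative D := abelian_iff_forall.2 fun a ha b hb => inv_injective (by
    rw [← inv _ (mul_mem ha hb), _root_.mul_inv_rev, ← inv a ha, ← inv b hb]; group)
  obtain ⟨F, _, _, u, δ, u1, u2, u3, u4, u5⟩ := exists_model cP (inf_le_right.trans h.norm) cD semi oD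
  have u0 : u 0 = 1 := mul_left_cancel (by rw [← u4, add_zero, mul_one] : u 0 * u 0 = u 0 * 1)
  have un : ∀ a, u (-a) = (u a)⁻¹ := fun a => eq_inv_of_mul_eq_one_left (by rw [← u4, neg_add_cancel, u0])
  have oF : Fintype.card F = Nat.card P := by
    rw [← Nat.card_eq_fintype_card]
    exact Nat.card_congr (Equiv.ofBijective (fun a => (⟨u a, u1 a⟩ : P))
      ⟨fun a b e => u3 (congrArg Subtype.val e), fun y => (u2 y y.2).imp fun a => Subtype.ext⟩)
  have dm : ∀ d ∈ D, ∀ d' ∈ D, δ (d * d') = δ d * δ d' := fun d hd d' hd' => u3 (by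
    rw [← mul_one (δ (d * d')), ← u5 _ (mul_mem hd hd'), ← u5 d hd, ← mul_one (δ d'), ← u5 d' hd']; group)
  have d1 : δ 1 = 1 := u3 (by rw [← mul_one (δ 1), ← u5 1 (one_mem _)]; group)
  have di : ∀ d ∈ D, δ d * δ d⁻¹ = 1 := fun d hd => by rw [← dm d hd _ (inv_mem hd), mul_inv_cancel, d1]
  let f : D →* Fˣ := MonoidHom.toHomUnits
    { toFun := fun d => δ d, map_one' := d1, map_mul' := fun a b => dm a a.2 b b.2 }
  have fi : Function.Injective f := (injective_iff_map_eq_one f).2 fun d hd => Subtype.ext (by_contra fun d1 => by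
    have e1 : δ d = 1 := congrArg Units.val hd
    have e2 := u5 d d.2 1
    rw [e1, mul_one, mul_inv_eq_iff_eq_mul] at e2
    exact one_ne_zero (u3 ((mem_bot.1 ((semi d d.2 d1).le
      ⟨u1 1, mem_centralizer_singleton_iff.2 e2.symm⟩)).trans u0.symm)))
  have D0 : 0 < Nat.card D := Nat.card_pos
  have fx : f.range.index = 2 := by
    have e := card_mul_index f.range
    rw [← Nat.card_congr (MonoidHom.ofInjective fi).toEquiv, Nat.card_units, Nat.card_eq_fintype_card (α := F), oF, ← oD,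
      Nat.add_sub_cancel, mul_comm 2] at e
    exact Nat.eq_of_mul_eq_mul_left D0 e
  let S : F → Prop := fun x => ∃ d ∈ D, δ d = x
  have S0 : ∀ x, S x → x ≠ 0 := by
    rintro _ ⟨d, hd, rfl⟩
    exact left_ne_zero_of_mul_eq_one (di d hd)
  have Sf : ∀ x : Fˣ, x ∈ f.range ↔ S x :=
    fun x => ⟨fun ⟨d, e⟩ => ⟨d, d.2, congrArg Units.val e⟩, fun ⟨d, hd, e⟩ => ⟨⟨d, hd⟩, Units.ext e⟩⟩
  have Ssq : ∀ x, S x → ∃ s : F, s ≠ 0 ∧ x = s * s := fun x hx => by
    have h2 : ringChar F ≠ 2 := fun e => by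
      have := FiniteField.even_card_of_char_two e
      omega
    obtain ⟨s, hs⟩ := (FiniteField.isSquare_iff h2 (S0 x hx)).2 (by
      obtain ⟨d, hd, rfl⟩ := hx
      rw [show Fintype.card F / 2 = Nat.card D by omega]
      exact congrArg Units.val (show f ⟨d, hd⟩ ^ Nat.card D = 1 by rw [← map_pow, pow_card_eq_one', map_one]))
    exact ⟨s, fun e => S0 x hx (by rw [hs, e, mul_zero]), hs⟩
  let o : G ⧸ B := (1 : G)
  let pt : F → G ⧸ B := fun a => u a • (w : G ⧸ B)
  have ob : ∀ b ∈ B, b • o = o := fun b hb => smul_coset_iff.2 (by simpa using hb)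
  have ob' : ∀ b, b • o = o → b ∈ B := fun b hb => by simpa using smul_coset_iff.1 hb
  have p1 : ∀ b a, u b • pt a = pt (b + a) := fun b a => by simp only [pt, u4, mul_smul]
  have p2 : ∀ a, pt a ≠ o := fun a e =>
    hw ((B.mul_mem_cancel_left (h.le (u1 a))).1 (coset_eq_one.1 e))
  have p3 : ∀ a b, pt a = pt b → a = b := fun a b e => by
    have e1 : ((u b)⁻¹ * u a) • (w : G ⧸ B) = w := by rw [mul_smul, inv_smul_eq_iff]; exact e
    have e2 := mem_bot.1 ((h.reg w hw).le ⟨mem_fixedBy_coset.1 e1, P.mul_mem (P.inv_mem (u1 b)) (u1 a)⟩)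
    exact u3 (inv_mul_eq_one.1 e2).symm
  have p4 : ∀ x ≠ o, ∃ a, pt a = x := fun x hx => by
    obtain ⟨y, hy, e⟩ := exists_smul_of_reg h.le h.reg h.index (a := w) (fun e => hw (coset_eq_one.1 e)) hx
    obtain ⟨a, rfl⟩ := u2 y hy
    exact ⟨a, e⟩
  have p5 : ∀ d ∈ D, ∀ a, d • pt a = pt (δ d * a) := fun d hd a => by
    have e : d • (w : G ⧸ B) = w := mem_fixedBy_coset.2 hd.1
    simp only [pt]
    rw [← u5 d hd, mul_smul, mul_smul, inv_smul_eq_iff.2 e.symm]
  have ww : ∀ x : G ⧸ B, w • w • x = x := fun x => by rw [← mul_smul, w2, one_smul]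
  have p6 : w • o = pt 0 := by
    change w • ((1 : G) : G ⧸ B) = u 0 • (w : G ⧸ B)
    rw [u0, one_smul, MulAction.Quotient.smul_mk, smul_eq_mul, mul_one]
  have p7 : w • pt 0 = o := by rw [← p6, ww]
  have p8 : ∀ a, w • pt a = o → a = 0 := fun a e => p3 _ _ (by rw [← ww (pt a), e, p6])
  have : ∀ a : F, ∃ b, a ≠ 0 → pt b = w • pt a := fun a => by
    by_cases ha : a = 0
    · exact ⟨0, fun e => absurd ha e⟩
    · exact (p4 _ fun e => ha (p8 a e)).imp fun b hb _ => hb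
  choose W hW using this
  have W0 : ∀ a ≠ 0, W a ≠ 0 := fun a ha e => p2 a (by rw [← ww (pt a), ← hW a ha, e, p7])
  have dec : ∀ g, g • o = o → ∃ c, ∃ d ∈ D, g = u c * d := fun g hg => by
    obtain ⟨y, hy, e⟩ := h.exists_decomp hw (ob' g hg)
    obtain ⟨c, rfl⟩ := u2 y hy
    exact ⟨c, _, e, by group⟩
  obtain ⟨hα, hWx⟩ := inv_formula S W S0 ⟨1, one_mem _, d1⟩
    (by rintro _ _ ⟨d, hd, rfl⟩ ⟨d', hd', rfl⟩; exact ⟨_, mul_mem hd hd', dm d hd d' hd'⟩)
    (by rintro _ ⟨d, hd, rfl⟩; exact ⟨_, inv_mem hd, eq_inv_of_mul_eq_one_right (di d hd)⟩)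
    (fun x y x0 y0 hx hy => (Sf (Units.mk0 x x0 * Units.mk0 y y0)).1 ((mul_mem_iff_of_index_two fx).2
      (iff_of_false (fun e => hx ((Sf _).1 e)) fun e => hy ((Sf _).1 e))))
    W0 (fun a ha => p3 _ _ (by rw [hW _ (W0 a ha), hW a ha, ww]))
    (by
      rintro _ a ⟨d, hd, rfl⟩ ha
      refine p3 _ _ ?_
      rw [hW _ (mul_ne_zero (S0 _ ⟨d, hd, rfl⟩) ha), ← p5 d hd, ← eq_inv_of_mul_eq_one_right (di d hd),
        ← p5 _ (inv_mem hd), hW a ha, ← inv d hd, mul_smul (w * d), inv_smul_smul, mul_smul])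
    (fun b b0 => by
      obtain ⟨c, d, hd, e⟩ := dec (w * u (-W b) * (w * u b * w)) (by
        simp only [mul_smul]
        rw [p6, p1, add_zero, ← hW b b0, p1, neg_add_cancel, p7])
      have e1 : ∀ x : G ⧸ B, w • u b • w • x = u (W b) • w • u c • d • x := fun x => by
        rw [← mul_smul (u c), ← e]
        simp only [mul_smul]
        rw [ww, un, smul_inv_smul]
      have e2 := e1 (pt 0)
      rw [p7, ob _ (h.le (u1 b)), p6, p5 d hd, mul_zero, p1, add_zero] at e2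
      have c0 : c ≠ 0 := fun e => p2 0 (by rw [e2, e, p7, ob _ (h.le (u1 _))])
      rw [← hW c c0, p1] at e2
      have e3 := e1 (pt (W (-b)))
      rw [hW _ (neg_ne_zero.2 b0), ww, p1, add_neg_cancel, p7, ← hW _ (neg_ne_zero.2 b0), p5 d hd, p1, eq_comm,
        ← eq_inv_smul_iff, ob _ (inv_mem (h.le (u1 _)))] at e3
      refine ⟨δ d, c, ⟨d, hd, rfl⟩, eq_neg_of_add_eq_zero_right (p3 _ _ e2).symm, p8 _ e3, fun y y0 h0 => ?_⟩
      have e4 := e1 (pt (W y))
      rw [hW y y0, ww, p1, ← hW _ h0, ← hW y y0, p5 d hd, p1] at e4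
      have c1 : c + δ d * W y ≠ 0 := fun e => p2 _ (by rw [e4, e, p7, ob _ (h.le (u1 _))])
      rw [← hW _ c1, p1] at e4
      exact p3 _ _ e4)
    (fun hc => by
      let Y₀ : Submonoid G :=
        { carrier := {y | ∃ a, (a = 0 ∨ S a) ∧ u a = y}
          one_mem' := ⟨0, Or.inl rfl, u0⟩
          mul_mem' := by
            rintro _ _ ⟨a, ha, rfl⟩ ⟨b, hb, rfl⟩
            refine ⟨a + b, ?_, u4 a b⟩
            rcases ha with rfl | ha
            · rwa [zero_add]
            rcases hb with rfl | hb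
            · exact Or.inr (by rwa [add_zero])
            · exact or_iff_not_imp_left.2 (hc a b ha hb) }
      let Y : Subgroup G :=
        { Y₀ with
          inv_mem' := fun {y} hy => by
            rw [inv_eq_of_mul_eq_one_right (show y * y ^ (orderOf y - 1) = 1 by
              rw [← pow_succ', Nat.sub_add_cancel (orderOf_pos y), pow_orderOf_eq_one])]
            exact Y₀.pow_mem hy _ }
      rcases irr_of_half semi oD (Y := Y) (by rintro _ ⟨a, -, rfl⟩; exact u1 a) (fun d hd => mem_norm_of_forall (by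
        rintro _ ⟨a, ha, rfl⟩
        refine ⟨_, ha.imp (fun e => by rw [e, mul_zero]) ?_, (u5 d hd a).symm⟩
        rintro ⟨d', hd', rfl⟩
        exact ⟨_, mul_mem hd hd', dm d hd d' hd'⟩)) with e | e
      · exact one_ne_zero (u3 ((mem_bot.1 (e.le ⟨1, Or.inr ⟨1, one_mem _, d1⟩, rfl⟩)).trans u0.symm))
      · obtain ⟨x, -, hx⟩ := SetLike.exists_of_lt (lt_top_iff_ne_top.2 fun e' : f.range = ⊤ => by simp [e'] at fx)
        obtain ⟨a, ha, e'⟩ := e.ge (u1 x)
        rw [u3 e'] at ha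
        exact hx ((Sf x).2 (ha.resolve_left x.ne_zero)))
  let φ : (Fin 2 → F) → G ⧸ B := fun v => if v 1 = 0 then o else pt (v 0 / v 1)
  let E : Subgroup (G × SL(2, F)) :=
    { carrier := {x | ∀ v ≠ 0, x.1 • φ v = φ (x.2 • v)}
      one_mem' := fun v _ => by simp
      mul_mem' := fun {a b} ha hb v hv => by
        rw [Prod.fst_mul, Prod.snd_mul, mul_smul, mul_smul, hb v hv, ha _ ((smul_ne_zero_iff_ne _).2 hv)]
      inv_mem' := fun {a} ha v hv => by
        rw [Prod.fst_inv, Prod.snd_inv, inv_smul_eq_iff, ha _ ((smul_ne_zero_iff_ne _).2 hv), smul_inv_smul] }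
  have mk : ∀ (g : G) (a b c d : F) (e : a * d - b * c = 1),
      (∀ x y : F, ¬ (x = 0 ∧ y = 0) → g • (if y = 0 then o else pt (x / y)) =
        if c * x + d * y = 0 then o else pt ((a * x + b * y) / (c * x + d * y))) → ∃ A, (g, A) ∈ E :=
    fun g a b c d e H => ⟨⟨!![a, b; c, d], by rwa [det_fin_two_of]⟩, fun v hv => by
      have := H (v 0) (v 1) fun h => hv (funext fun i => by fin_cases i; exacts [h.1, h.2])
      change _ = φ (!![a, b; c, d] *ᵥ v)
      simpa [φ, mulVec, dotProduct, Fin.sum_univ_two] using this⟩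
  have g1 : ∀ c, ∃ A, (u c, A) ∈ E := fun c => mk _ 1 c 0 1 (by ring) fun x y _ => by
    by_cases hy : y = 0
    · simp [hy, ob _ (h.le (u1 c))]
    · simp only [hy, zero_mul, one_mul, zero_add, if_false, p1]
      congr 1; field_simp; ring
  have g2 : ∀ d ∈ D, ∃ A, (d, A) ∈ E := fun d hd => by
    obtain ⟨s, s0, hs⟩ := Ssq _ ⟨d, hd, rfl⟩
    refine mk _ s 0 0 s⁻¹ (by field_simp; ring) fun x y _ => ?_
    by_cases hy : y = 0
    · simp [hy, ob _ hd.2]
    · simp only [hy, zero_mul, zero_add, if_false, p5 d hd, mul_eq_zero, inv_eq_zero, s0, or_self, add_zero, hs]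
      congr 1; field_simp
  have g3 : ∃ A, (w, A) ∈ E := by
    obtain ⟨s, s0, hs⟩ := Ssq _ hα
    refine mk _ 0 (-s) s⁻¹ 0 (by field_simp; ring) fun x y hxy => ?_
    by_cases hy : y = 0
    · have hx : x ≠ 0 := fun e => hxy ⟨e, hy⟩
      simp [hy, hx, s0, p6]
    by_cases hx : x = 0
    · simp [hy, hx, p7]
    simp only [hy, hx, zero_mul, zero_add, if_false, mul_eq_zero, inv_eq_zero, s0, or_self, add_zero]
    rw [← hW _ (div_ne_zero hx hy), hWx _ (div_ne_zero hx hy), neg_eq_iff_eq_neg.1 hs]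
    congr 1; field_simp
  have g4 : ∀ g, g • o = o → ∃ A, (g, A) ∈ E := fun g hg => by
    obtain ⟨c, d, hd, rfl⟩ := dec g hg
    obtain ⟨A, hA⟩ := g1 c
    obtain ⟨A', hA'⟩ := g2 d hd
    exact ⟨A * A', E.mul_mem hA hA'⟩
  have g5 : ∀ g, ∃ A, (g, A) ∈ E := fun g => by
    by_cases hg : g • o = o
    · exact g4 g hg
    obtain ⟨a, ha⟩ := p4 _ hg
    obtain ⟨A, hA⟩ := g4 (w * u (-a) * g) (by rw [mul_smul, mul_smul, ← ha, p1, neg_add_cancel, p7])
    obtain ⟨A₁, h₁⟩ := g1 (-a)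
    obtain ⟨A₂, h₂⟩ := g3
    exact ⟨(A₂ * A₁)⁻¹ * A, by simpa [mul_assoc] using E.mul_mem (E.inv_mem (E.mul_mem h₂ h₁)) hA⟩
  refine ⟨F, inferInstance, inferInstance, oF, Cfsg.Agent.Lin.nonempty_equiv_of_prod
    (E.map ((MonoidHom.id G).prodMap (QuotientGroup.mk' _))) (fun g => ?_) ?_ ?_⟩
  · obtain ⟨A, hA⟩ := g5 g
    exact ⟨_, _, hA, rfl⟩
  · rintro _ ⟨⟨g, A⟩, hA, e⟩
    obtain ⟨r, hr, e'⟩ := Matrix.SpecialLinearGroup.mem_center_iff.1 ((QuotientGroup.eq_one_iff A).1 (congrArg Prod.snd e))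
    obtain rfl : g = _ := congrArg Prod.fst e
    have r0 : r ≠ 0 := by rintro rfl; simp at hr
    have e1 : ∀ v ≠ 0, g • φ v = φ v := fun v hv => by
      rw [hA v hv]
      change φ (A.1 *ᵥ v) = _
      rw [← e']
      simp [φ, r0, mul_div_mul_left]
    refine perm_coset_inj h.ne_top ?_
    rw [map_one]
    refine Equiv.ext fun x => (?_ : g • x = x)
    by_cases hx : x = o
    · simpa [φ, hx] using e1 ![1, 0] (by simp)
    · obtain ⟨a, rfl⟩ := p4 x hx
      simpa [φ] using e1 ![a, 1] (by simp)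
  · have e1 := Cfsg.Agent.Lin.card_PSL2 oF
    have e2 := card_mul_index B
    rw [h.index, ← h.card_inter hw, ← hD] at e2
    rw [← oD] at e1 e2
    rw [Nat.add_sub_cancel, Nat.gcd_eq_left (dvd_mul_right 2 _),
      show (2 * Nat.card D + 1) ^ 2 - 1 = 2 * (Nat.card D * (2 * Nat.card D + 1 + 1)) from
        Nat.sub_eq_of_eq_add (by ring)] at e1
    exact Nat.le_of_mul_le_mul_left (le_of_eq (by rw [e1, ← e2]; ring)) two_pos

theorem ZS.equiv_psl [IsSimpleGroup G] {B P : Subgroup G} (h : ZS B P) (cP : IsMulCommutative P) {w : G}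
    (w2 : w * w = 1) (hw : w ∉ B) (semi : Semiregular P (B :^ w ⊓ B))
    (oD : 2 * Nat.card (B :^ w ⊓ B : Subgroup G) + 1 = Nat.card P)
    (inv : ∀ d ∈ B :^ w ⊓ B, w * d * w⁻¹ = d⁻¹) {F : Type*} [Field F] [Fintype F]
    (hF : Fintype.card F = Nat.card P) : Nonempty (G ≃* PSL(2, F)) := by
  obtain ⟨K, _, _, hK, ⟨e⟩⟩ := h.equiv_psl_aux cP w2 hw semi oD inv
  obtain ⟨e'⟩ := Cfsg.Agent.Lin.nonempty_pslCongr (ι := Fin 2) (hK.trans hF.symm)
  exact ⟨e.trans e'⟩

theorem ZS.exists_equiv_psl [IsSimpleGroup G] {B P : Subgroup G} (h : ZS B P) (cP : IsMulCommutative P) {w : G}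
    (w2 : w * w = 1) (hw : w ∉ B) (semi : Semiregular P (B :^ w ⊓ B))
    (oD : 2 * Nat.card (B :^ w ⊓ B : Subgroup G) + 1 = Nat.card P)
    (inv : ∀ d ∈ B :^ w ⊓ B, w * d * w⁻¹ = d⁻¹) :
    ∃ (F : Type) (_ : Field F) (_ : Fintype F), Fintype.card F = Nat.card P ∧ Nonempty (G ≃* PSL(2, F)) := by
  obtain ⟨K, _, _, hK, -⟩ := h.equiv_psl_aux cP w2 hw semi oD inv
  obtain ⟨p, _, n, hp, hn⟩ := FiniteField.card' K
  have := Fact.mk hp
  have := Fintype.ofFinite (GaloisField p n)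
  have e : Fintype.card (GaloisField p n) = Nat.card P := by
    rw [← Nat.card_eq_fintype_card, GaloisField.card p n n.ne_zero, ← hK, hn]
  exact ⟨GaloisField p n, inferInstance, inferInstance, e, h.equiv_psl cP w2 hw semi oD inv e⟩

end CA.Dih
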