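/-
The Brauer-Suzuki-Wall theorem: character theory.
-/
import Cfsg.Agent.Dih.Zass
import Cfsg.Agent.PF.S01

set_option autoImplicit false
set_option linter.unusedSectionVars false

namespace CA.Dih

open Subgroup Cfsg CA.FG CA.BG CA.Chr MulAction Finset
open scoped commutatorElement ComplexConjugate Classical

universe u v

variable {G : Type u} [Group G] [Fintype G]

/-- the involutions -/
noncomputable def invs (G : Type u) [Group G] [Fintype G] : Finset G := univ.filter fun u => u * u = 1 ∧ u ≠ 1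

theorem mem_invs {u : G} : u ∈ invs G ↔ u * u = 1 ∧ u ≠ 1 := by simp [invs]

theorem conj_mem_invs {u : G} (g : G) : g * u * g⁻¹ ∈ invs G ↔ u ∈ invs G := by
  have : g * u * g⁻¹ * (g * u * g⁻¹) = g * (u * u) * g⁻¹ := by group
  simp only [mem_invs, this, ne_eq, conj_eq_one_iff]

/-- the number of ways to write `x` as a product of two involutions -/
noncomputable def rr (x : G) : ℕ := ((invs G).filter fun u => u * x ∈ invs G).card

theorem rr_conj (x g : G) : rr (g * x * g⁻¹) = rr x := by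
  symm
  refine card_bij (fun u _ => g * u * g⁻¹) (fun u hu => ?_) (fun a _ b _ e => by simpa using e) fun u hu => ?_
  · rw [mem_filter] at hu ⊢
    refine ⟨(conj_mem_invs g).2 hu.1, ?_⟩
    rw [show g * u * g⁻¹ * (g * x * g⁻¹) = g * (u * x) * g⁻¹ by group]
    exact (conj_mem_invs g).2 hu.2
  · rw [mem_filter] at hu
    refine ⟨g⁻¹ * u * g⁻¹⁻¹, mem_filter.2 ⟨(conj_mem_invs _).2 hu.1, ?_⟩, by group⟩
    rw [show g⁻¹ * u * g⁻¹⁻¹ * x = g⁻¹ * (u * (g * x * g⁻¹)) * g⁻¹⁻¹ by group]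
    exact (conj_mem_invs _).2 hu.2

theorem rr_one : rr (1 : G) = (invs G).card := by
  rw [rr, filter_true_of_mem fun u hu => by rwa [mul_one]]

theorem sum_pairs {R : Type*} [Semiring R] (φ : G → R) :
    ∑ u ∈ invs G, ∑ v ∈ invs G, φ (u * v) = ∑ x, (rr x : R) * φ x := by
  have : ∀ u ∈ invs G, ∑ v ∈ invs G, φ (u * v) = ∑ x, if u * x ∈ invs G then φ x else 0 := fun u hu => by
    rw [← sum_filter]
    have u2 := (mem_invs.1 hu).1
    refine sum_bij (fun v _ => u * v) (fun v hv => ?_) (fun a _ b _ e => by simpa using e) (fun x hx => ?_)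
      fun _ _ => rfl
    · simpa [← mul_assoc, u2] using hv
    · exact ⟨u * x, by simpa using hx, by rw [← mul_assoc, u2, one_mul]⟩
  rw [sum_congr rfl this, sum_comm]
  refine sum_congr rfl fun x _ => ?_
  rw [← sum_filter, sum_const, nsmul_eq_mul, rr]

/-- the elements conjugate to nontrivial elements of `K` -/
noncomputable def cjs (K : Subgroup G) : Finset G := univ.filter fun y => y ≠ 1 ∧ ∃ g : G, g * y * g⁻¹ ∈ K

theorem mem_cjs {K : Subgroup G} {y : G} : y ∈ cjs K ↔ y ≠ 1 ∧ ∃ g : G, g * y * g⁻¹ ∈ K := by simp [cjs]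

theorem conj_mem_cjs {K : Subgroup G} {y : G} (g : G) : g * y * g⁻¹ ∈ cjs K ↔ y ∈ cjs K := by
  simp only [mem_cjs, ne_eq, conj_eq_one_iff]
  refine and_congr_right fun _ => ⟨fun ⟨a, ha⟩ => ⟨a * g, ?_⟩, fun ⟨a, ha⟩ => ⟨a * g⁻¹, ?_⟩⟩ <;>
    convert ha using 1 <;> group

theorem mem_cjs_of_mem {K : Subgroup G} {y : G} (hy : y ∈ K) (h1 : y ≠ 1) : y ∈ cjs K :=
  mem_cjs.2 ⟨h1, 1, by simpa using hy⟩

theorem one_not_mem_cjs (K : Subgroup G) : (1 : G) ∉ cjs K := fun h => (mem_cjs.1 h).1 rfl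

theorem ind_eq_zero_of_cjs {K : Subgroup G} {α : K → ℂ} (h1 : α 1 = 0) {y : G} (hy : y ∉ cjs K) :
    ind K.subtype α y = 0 := by
  refine ind_eq_zero fun x hx => ?_
  by_contra e
  obtain ⟨g, hg⟩ := isConj_iff.1 hx.symm
  have x1 : (x : G) ≠ 1 := fun e' => e (by rw [show x = 1 from Subtype.ext e', h1])
  exact hy ((conj_mem_cjs g).1 (hg ▸ mem_cjs_of_mem x.2 x1))

structure BSW (K : Subgroup G) (t : G) : Prop where
  t2 : t * t = 1
  t1 : t ≠ 1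
  tK : t ∈ K
  le : K ≤ 𝒞[t]
  index : K.relIndex 𝒞[t] = 2
  sq : ∀ x ∈ 𝒞[t], x ∉ K → x * x = 1
  TI : ∀ g : G, ∀ x ∈ K, x ≠ 1 → g * x * g⁻¹ ∈ K → g ∈ 𝒞[t]
  isConj : ∀ u : G, u * u = 1 → u ≠ 1 → IsConj t u

variable {K : Subgroup G} {t : G}

namespace BSW

theorem inv (h : BSW K t) {w x : G} (hw : w ∈ 𝒞[t]) (hw' : w ∉ K) (hx : x ∈ K) : w * x * w⁻¹ = x⁻¹ := by
  have h1 := h.sq _ (mul_mem hw (h.le hx)) fun e => hw' ((K.mul_mem_cancel_right hx).1 e)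
  rw [eq_inv_iff_mul_eq_one, inv_eq_of_mul_eq_one_right (h.sq _ hw hw'), ← h1]; group

theorem exists_w (h : BSW K t) : ∃ w ∈ 𝒞[t], w ∉ K := by
  by_contra! e
  have := h.index
  rw [relIndex_eq_one.2 e] at this
  omega

theorem comm (h : BSW K t) : IsMulCommutative K := by
  obtain ⟨w, hw, hw'⟩ := h.exists_w
  refine ⟨⟨fun x y => Subtype.ext ?_⟩⟩
  have := h.inv hw hw' (mul_mem x.2 y.2)
  rw [show w * (x * y) * w⁻¹ = (w * x * w⁻¹) * (w * y * w⁻¹) by group, h.inv hw hw' x.2, h.inv hw hw' y.2,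
    ← _root_.mul_inv_rev, inv_inj] at this
  exact this.symm

theorem mul_comm' (h : BSW K t) {x y : G} (hx : x ∈ K) (hy : y ∈ K) : x * y = y * x :=
  congrArg Subtype.val (h.comm.is_comm.comm ⟨x, hx⟩ ⟨y, hy⟩)

theorem uniq (h : BSW K t) {u : G} (hu : u ∈ K) (u2 : u * u = 1) (u1 : u ≠ 1) : u = t := by
  obtain ⟨g, rfl⟩ := isConj_iff.1 (h.isConj u u2 u1)
  rw [mem_centralizer_singleton_iff.1 (h.TI g t h.tK h.t1 hu), mul_inv_cancel_right]

theorem card_cent (h : BSW K t) : Nat.card 𝒞[t] = 2 * Nat.card K := by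
  rw [← card_mul_relIndex h.le, h.index, mul_comm]

theorem card_eq (h : BSW K t) : Nat.card G = 2 * Nat.card K * (𝒞[t]).index := by
  rw [← h.card_cent, card_mul_index]

theorem card_invs (h : BSW K t) : (invs G).card = (𝒞[t]).index := by
  have := card_class_mul_card_centralizer t
  rw [← card_mul_index 𝒞[t], mul_comm (Nat.card _)] at this
  rw [← Nat.eq_of_mul_eq_mul_right Nat.card_pos this]
  congr 1
  ext u
  simp only [mem_invs, mem_filter, mem_univ, true_and]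
  refine ⟨fun e => h.isConj u e.1 e.2, fun e => ?_⟩
  obtain ⟨g, rfl⟩ := isConj_iff.1 e
  exact mem_invs.1 ((conj_mem_invs g).2 (mem_invs.2 ⟨h.t2, h.t1⟩))

theorem card_filter_K (K : Subgroup G) : (univ.filter (· ∈ K)).card = Nat.card K := by
  rw [Nat.card_eq_fintype_card, Fintype.card_subtype]

theorem card_diff (h : BSW K t) : (univ.filter fun g => g ∈ 𝒞[t] ∧ g ∉ K).card = Nat.card K := by
  have h1 := card_filter_add_card_filter_not (s := univ.filter (· ∈ 𝒞[t])) (· ∈ K)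
  rw [filter_filter, filter_filter, card_filter_K, h.card_cent,
    show univ.filter (fun g => g ∈ 𝒞[t] ∧ g ∈ K) = univ.filter (· ∈ K) from
      filter_congr fun x _ => ⟨fun e => e.2, fun e => ⟨h.le e, e⟩⟩, card_filter_K] at h1
  omega

theorem rr_eq (h : BSW K t) {y : G} (hy : y ∈ cjs K) : rr y = Nat.card K := by
  obtain ⟨y1, g, hg⟩ := mem_cjs.1 hy
  rw [← rr_conj y g, ← h.card_diff]
  generalize hx : g * y * g⁻¹ = x at hg
  have x1 : x ≠ 1 := by simpa [← hx] using y1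
  rw [rr]
  congr 1
  ext u
  simp only [mem_filter, mem_invs, mem_univ, true_and]
  constructor
  · rintro ⟨⟨u2, u1⟩, h2, h1⟩
    have e : u * x * u⁻¹ = x⁻¹ := by
      rw [eq_inv_iff_mul_eq_one, inv_eq_of_mul_eq_one_right u2, ← h2]; group
    refine ⟨h.TI u x hg x1 (e ▸ inv_mem hg), fun hu => h1 ?_⟩
    rw [h.mul_comm' hu hg, mul_inv_cancel_right] at e
    rw [h.uniq hu u2 u1, h.uniq hg (by rw [eq_inv_iff_mul_eq_one] at e; exact e) x1, h.t2]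
  · rintro ⟨h1, h2⟩
    have h3 : u * x ∉ K := fun e => h2 ((K.mul_mem_cancel_right hg).1 e)
    exact ⟨⟨h.sq u h1 h2, fun e => h2 (e ▸ one_mem K)⟩, h.sq _ (mul_mem h1 (h.le hg)) h3,
      fun e => h3 (e ▸ one_mem K)⟩

theorem ind_apply (h : BSW K t) {α : K → ℂ} (h1 : α 1 = 0) (x : K) :
    ind K.subtype α x = α x + α x⁻¹ := by
  by_cases x1 : x = 1
  · subst x1
    rw [inv_one, h1, add_zero]
    exact ind_eq_zero_of_cjs h1 (one_not_mem_cjs K)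
  have x1' : (x : G) ≠ 1 := fun e => x1 (Subtype.ext e)
  rw [ind_apply_inj K.subtype_injective]
  have : ∀ g : G, Function.extend K.subtype α 0 (g⁻¹ * x * g) =
      (if g ∈ K then α x else 0) + if g ∈ 𝒞[t] ∧ g ∉ K then α x⁻¹ else 0 := fun g => by
    by_cases hg : g ∈ K
    · rw [if_pos hg, if_neg fun e => e.2 hg, add_zero, mul_assoc, h.mul_comm' x.2 hg, inv_mul_cancel_left]
      exact K.subtype_injective.extend_apply _ _ x
    by_cases hg' : g ∈ 𝒞[t]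
    · have := h.inv (inv_mem hg') (fun e => hg (inv_mem_iff.1 e)) x.2
      rw [inv_inv] at this
      rw [if_neg hg, if_pos ⟨hg', hg⟩, zero_add, this]
      exact K.subtype_injective.extend_apply _ _ x⁻¹
    · rw [if_neg hg, if_neg fun e => hg' e.1, add_zero, Function.extend_apply']
      · rfl
      rintro ⟨a, ha⟩
      exact hg' (inv_mem_iff.1 (h.TI g⁻¹ x x.2 x1' (by rw [inv_inv, ← ha]; exact a.2)))
  rw [sum_congr rfl fun g _ => this g, sum_add_distrib, ← sum_filter, ← sum_filter, sum_const, sum_const,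
    h.card_diff, card_filter_K, nsmul_eq_mul, nsmul_eq_mul, ← mul_add, inv_mul_cancel_left₀ card_ne_zero]

theorem sum_cjs (h : BSW K t) {φ : G → ℂ} (hφ : φ ∈ CF G) :
    ∑ y ∈ cjs K, φ y = (𝒞[t]).index * (∑ x : K, φ x - φ 1) := by
  let α : K → ℂ := fun x => if x = 1 then 0 else 1
  have e1 : ind K.subtype α = fun y => if y ∈ cjs K then 2 else 0 := funext fun y => by
    split_ifs with hy
    · obtain ⟨y1, g, hg⟩ := mem_cjs.1 hy
      have : (⟨_, hg⟩ : K) ≠ 1 := fun e => y1 (by simpa using congrArg Subtype.val e)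
      rw [← CF_conj (ind_mem_CF _ _) y g]
      refine (h.ind_apply (by simp [α]) ⟨_, hg⟩).trans ?_
      simp only [α, if_neg this, inv_eq_one]; norm_num
    · exact ind_eq_zero_of_cjs (by simp [α]) hy
  have e2 := frob_rec' K.subtype α hφ
  rw [e1, dot_def, dot_def, h.card_eq] at e2
  have e3 : ∑ g, φ g * conj (if g ∈ cjs K then (2 : ℂ) else 0) = 2 * ∑ y ∈ cjs K, φ y := by
    rw [mul_sum, ← sum_filter_add_sum_filter_not univ (· ∈ cjs K), filter_univ_mem, sum_eq_zero (s := filter _ _)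
      fun y hy => by rw [if_neg (mem_filter.1 hy).2, map_zero, mul_zero], add_zero]
    exact sum_congr rfl fun y hy => by rw [if_pos hy, mul_comm]; congr 1; simp [map_ofNat]
  have e4 : ∑ x : K, (φ ∘ K.subtype) x * conj (α x) = ∑ x : K, φ x - φ 1 := by
    rw [← add_sum_erase _ _ (mem_univ 1), ← add_sum_erase _ (fun x : K => φ x) (mem_univ 1)]
    rw [sum_congr rfl (g := fun x : K => φ x) fun x hx => by simp [α, ne_of_mem_erase hx]]
    simp [α]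
  rw [e3, e4] at e2
  have k0 : (Nat.card K : ℂ) ≠ 0 := card_ne_zero
  have f0 : ((𝒞[t]).index : ℂ) ≠ 0 := Nat.cast_ne_zero.2 index_ne_zero_of_finite
  push_cast at e2
  field_simp at e2
  linear_combination e2

theorem two_dvd (h : BSW K t) : 2 ∣ Nat.card K := by
  rw [← orderOf_two h.t2 h.t1]; exact K.orderOf_dvd_natCard h.tK

theorem odd_index (h : BSW K t) : ¬ 2 ∣ (𝒞[t]).index := by
  obtain ⟨S, hS⟩ := sylow_exists Nat.prime_two (⊤ : Subgroup G)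
  have S0 := hS.ne_bot' Nat.prime_two (h.two_dvd.trans (card_dvd_of_le le_top))
  obtain ⟨z, hz, oz⟩ := IsPGrp.exists_orderOf_eq (IsPiGrp.inf_left hS.pGrp 𝒞(S)) (center_nil_ne_bot (IsPGrp.nil hS.pGrp) S0)
  obtain ⟨g, rfl⟩ := isConj_iff.1 (h.isConj z (sq_eq_one_of_orderOf oz) (ne_one_of_orderOf Nat.prime_two oz))
  rw [← index_conjg _ g, conjg_cent1]
  intro e
  refine hS.not_dvd_index Nat.prime_two ?_
  rw [relIndex_top_right]
  exact e.trans (index_dvd_of_le (mem_cent_iff_le_cent_singleton.1 hz.2))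

end BSW

/-- sum over pairs of involutions -/
noncomputable def Phi (φ : G → ℂ) : ℂ := ∑ u ∈ invs G, ∑ v ∈ invs G, φ (u * v)

theorem Phi_add (φ ψ : G → ℂ) : Phi (φ + ψ) = Phi φ + Phi ψ := by simp [Phi, sum_add_distrib]

theorem Phi_sub (φ ψ : G → ℂ) : Phi (φ - ψ) = Phi φ - Phi ψ := by simp [Phi, sum_sub_distrib]

theorem Phi_neg (φ : G → ℂ) : Phi (-φ) = - Phi φ := by simp [Phi]

theorem Phi_one : Phi (1 : G → ℂ) = (invs G).card ^ 2 := by simp [Phi, pow_two]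

theorem Phi_dirr (hc : ∀ u : G, u * u = 1 → u ≠ 1 → IsConj t u) {ζ : G → ℂ} (hζ : Dirr ζ) :
    ζ 1 * Phi ζ = (invs G).card ^ 2 * ζ t ^ 2 := by
  suffices H : ∀ ζ, IsIrrCharacter G ζ → ζ 1 * Phi ζ = (invs G).card ^ 2 * ζ t ^ 2 by
    rcases hζ with h | h
    · exact H _ h
    · have := H _ h
      rw [Phi_neg] at this
      simpa using this
  intro ζ hζ
  have e : ∀ φ : G → ℂ, ∑ g, (if g ∈ invs G then 1 else 0) * φ g = ∑ g ∈ invs G, φ g := fun φ => by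
    simp
  have e2 : ∀ u ∈ invs G, ζ u = ζ t := fun u hu =>
    (CF_isConj (IsIrr.mem_CF hζ) (hc u (mem_invs.1 hu).1 (mem_invs.1 hu).2)).symm
  have := fun a => IsIrr.sum_class_mul hζ (f := fun g => if g ∈ invs G then 1 else 0)
    (fun x g => by simp only [conj_mem_invs]) a
  rw [Phi, mul_sum, sum_congr rfl (g := fun _ => ζ t * ((invs G).card * ζ t)) fun u hu => by
    rw [← e (fun g => ζ (u * g)), this, e, sum_congr rfl e2, e2 u hu, sum_const, nsmul_eq_mul]]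
  rw [sum_const, nsmul_eq_mul]; ring

/-- `(1 - l)` induced from `K` -/
noncomputable def th (K : Subgroup G) (l : K →* ℂˣ) : G → ℂ := ind K.subtype (1 - lin l)

theorem th_ZIrr (l : K →* ℂˣ) : th K l ∈ ZIrr G := ZIrr.ind (sub_mem (one_mem _) (lin_mem_ZIrr l)) _

theorem th_eq_zero (l : K →* ℂˣ) {y : G} (hy : y ∉ cjs K) : th K l y = 0 := ind_eq_zero_of_cjs (by simp) hy

theorem dot_th {ζ : G → ℂ} (hζ : ζ ∈ CF G) (l : K →* ℂˣ) :
    ⟪ζ, th K l⟫ = ⟪ζ ∘ K.subtype, 1⟫ - ⟪ζ ∘ K.subtype, lin l⟫ := by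
  rw [th, frob_rec' _ _ hζ, dot_sub_right]

theorem dot_th_one {l : K →* ℂˣ} (hl : l ≠ 1) : ⟪th K l, 1⟫ = 1 := by
  rw [th, dot_ind_one, dot_sub_left, dot_one_one, ← lin_one, dot_lin, if_neg hl, sub_zero]

theorem sum_eq_dot (φ : G → ℂ) : ∑ g, φ g = Nat.card G * ⟪φ, 1⟫ := by
  rw [dot_def, mul_inv_cancel_left₀ card_ne_zero]; simp

theorem apply_eq_sum (cK : IsMulCommutative K) [Fintype (K →* ℂˣ)] {ζ : G → ℂ} (hζ : ζ ∈ CF G) {x : K}
    (hx : x ≠ 1) : ζ x = - ∑ l : K →* ℂˣ, ⟪ζ, th K l⟫ * l x := by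
  have h1 := congrFun (lin_expand (ζ ∘ K.subtype)) x
  have h2 := sum_lin_apply x
  rw [if_neg hx] at h2
  simp only [dot_th hζ, sub_mul, sum_sub_distrib, ← mul_sum, h2]
  simpa [Finset.sum_apply] using h1

theorem apply_eq_sum' (cK : IsMulCommutative K) {ζ : G → ℂ} (hζ : ζ ∈ CF G) {s : Finset (K →* ℂˣ)}
    (h : ∀ l, ⟪ζ, th K l⟫ = if l ∈ s then 1 else 0) {x : K} (hx : x ≠ 1) : ζ x = - ∑ l ∈ s, (l x : ℂ) := by
  have := Nat.finite_of_card_ne_zero (α := K →* ℂˣ) (by rw [card_lin]; exact Nat.card_pos.ne')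
  have := Fintype.ofFinite (K →* ℂˣ)
  rw [apply_eq_sum cK hζ hx]
  simp [h]

namespace BSW

theorem th_apply (h : BSW K t) (l : K →* ℂˣ) : th K l ∘ K.subtype = 1 + 1 - lin l - lin l⁻¹ := by
  funext x
  refine (h.ind_apply (by simp) x).trans ?_
  simp; ring

theorem th_inv (h : BSW K t) (l : K →* ℂˣ) : th K l⁻¹ = th K l := by
  funext y
  by_cases hy : y ∈ cjs K
  · obtain ⟨-, g, hg⟩ := mem_cjs.1 hy
    rw [← CF_conj (ZIrr.mem_CF (th_ZIrr _)) y g, ← CF_conj (ZIrr.mem_CF (th_ZIrr l)) y g]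
    have h1 := congrFun (h.th_apply l) ⟨_, hg⟩
    have h2 := congrFun (h.th_apply l⁻¹) ⟨_, hg⟩
    refine h2.trans (Eq.trans ?_ h1.symm)
    simp; ring
  · rw [th_eq_zero _ hy, th_eq_zero _ hy]

theorem dot_th_th (h : BSW K t) {l m : K →* ℂˣ} (hl : l ≠ 1) (hm : m ≠ 1) :
    ⟪th K l - 1, th K m - 1⟫ = 1 + (if l = m then 1 else 0) + if l⁻¹ = m then 1 else 0 := by
  have := dot_th_one hm
  rw [ZIrr.dot_comm (th_ZIrr _) (one_mem _)] at this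
  rw [dot_sub_left, dot_sub_right, dot_sub_right, dot_th_one hl, this, dot_one_one,
    dot_th (ZIrr.mem_CF (th_ZIrr _)), h.th_apply, ← lin_one]
  simp only [dot_sub_left, dot_add_left, dot_lin, if_neg hl, if_neg hm.symm, inv_eq_one, if_true]
  ring

theorem Phi_th (h : BSW K t) {l : K →* ℂˣ} (hl : l ≠ 1) :
    Phi (th K l - 1) = (𝒞[t]).index * (2 * Nat.card K ^ 2 - (𝒞[t]).index) := by
  rw [Phi_sub, Phi_one, Phi, sum_pairs, sum_congr rfl (g := fun x => (Nat.card K : ℂ) * th K l x) fun x _ => by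
    by_cases hx : x ∈ cjs K
    · rw [h.rr_eq hx]
    · rw [th_eq_zero _ hx, mul_zero, mul_zero], ← mul_sum, sum_eq_dot, dot_th_one hl, h.card_eq, h.card_invs]
  push_cast; ring

theorem exists_mu (h : BSW K t) : ∃ μ : K →* ℂˣ, μ ≠ 1 ∧ μ⁻¹ = μ ∧ ∀ l : K →* ℂˣ, l⁻¹ = l → l = 1 ∨ l = μ := by
  have := h.comm
  let : CommGroup K := { mul_comm := _root_.mul_comm' }
  have : NeZero (Monoid.exponent K) := ⟨Monoid.exponent_ne_zero_of_finite⟩
  obtain ⟨e⟩ := CommGroup.monoidHom_mulEquiv_of_hasEnoughRootsOfUnity K ℂ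
  refine ⟨e.symm ⟨t, h.tK⟩, fun e' => h.t1 ?_, ?_, fun l hl => ?_⟩
  · exact congrArg Subtype.val ((map_eq_one_iff _ e.symm.injective).1 e')
  · rw [← map_inv]; congr 1
    exact Subtype.ext (inv_eq_of_mul_eq_one_right h.t2)
  · refine or_iff_not_imp_left.2 fun l1 => e.eq_symm_apply.2 (Subtype.ext (h.uniq (e l).2 ?_ fun e' => l1 ?_))
    · rw [← Subgroup.coe_mul, ← map_mul, show l * l = 1 by nth_rw 1 [← hl]; exact inv_mul_cancel l, map_one]; rfl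
    · exact (map_eq_one_iff _ e.injective).1 (Subtype.ext e')

end BSW

theorem two_split {A x y : G → ℂ} (hA : A ∈ ZIrr G) (hn : nrm A < 4) (hx : Dirr x) (hy : Dirr y)
    (h : ⟪A, x + y⟫ = 1) : (⟪A, x⟫ = 1 ∧ ⟪A, y⟫ = 0) ∨ (⟪A, x⟫ = 0 ∧ ⟪A, y⟫ = 1) := by
  rw [dot_add_right] at h
  rcases ZIrr.dot_cases_of_nrm_lt_four hA hn hx with e | e | e <;>
    rcases ZIrr.dot_cases_of_nrm_lt_four hA hn hy with e' | e' | e' <;> rw [e, e'] at h ⊢ <;> revert h <;> norm_num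

theorem dirr_sub {A x : G → ℂ} (hA : A ∈ ZIrr G) (hn : nrm A = 2) (hx : Dirr x) (h : ⟪A, x⟫ = 1) : Dirr (A - x) :=
  ZIrr.dirr_of_nrm_one (sub_mem hA hx.mem_ZIrr) (by rw [nrm_sub_of_dot_one hx.dot_self h, hn]; norm_num)

theorem eq_add_two {A x y : G → ℂ} (hA : A ∈ ZIrr G) (hn : nrm A = 2) (hx : Dirr x) (hy : Dirr y)
    (h : ⟪A, x⟫ = 1) (h' : ⟪A, y⟫ = 1) (hxy : ⟪x, y⟫ = 0) : A = x + y := by
  rw [← (dirr_sub hA hn hx h).eq_of_dot_eq_one hy (by rw [dot_sub_left, h', hxy, sub_zero]), add_sub_cancel]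

theorem dirr_orth_one {A x : G → ℂ} (hx : Dirr x) (h : ⟪A, x⟫ = 1) (h1 : ⟪A, 1⟫ = 0) : ⟪x, 1⟫ = 0 := by
  rcases hx.dot_cases (IsIrr.dirr one_irr) with ⟨rfl, -⟩ | ⟨rfl, -⟩ | e
  · simp [h1] at h
  · simp [dot_neg_right, h1] at h
  · exact e.2.2

namespace BSW

theorem nrm_two (h : BSW K t) {l : K →* ℂˣ} (hl : l ≠ 1) (hl' : l⁻¹ ≠ l) : nrm (th K l - 1) = 2 :=
  nrm_eq_of_dot (by rw [h.dot_th_th hl hl, if_pos rfl, if_neg hl']; norm_num)

theorem nrm_three (h : BSW K t) {l : K →* ℂˣ} (hl : l ≠ 1) (hl' : l⁻¹ = l) : nrm (th K l - 1) = 3 :=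
  nrm_eq_of_dot (by rw [h.dot_th_th hl hl, if_pos rfl, if_pos hl']; norm_num)

theorem dot_ne (h : BSW K t) {l m : K →* ℂˣ} (hl : l ≠ 1) (hm : m ≠ 1) (e : l ≠ m) (e' : l⁻¹ ≠ m) :
    ⟪th K l - 1, th K m - 1⟫ = 1 := by
  rw [h.dot_th_th hl hm, if_neg e, if_neg e']; norm_num

theorem lin_t (h : BSW K t) (l : K →* ℂˣ) : ((l ⟨t, h.tK⟩ : ℂ) = 1 ∨ (l ⟨t, h.tK⟩ : ℂ) = -1) ∧
    (l⁻¹ ⟨t, h.tK⟩ : ℂ) = l ⟨t, h.tK⟩ := by
  have : l ⟨t, h.tK⟩ * l ⟨t, h.tK⟩ = 1 := by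
    rw [← map_mul, show (⟨t, h.tK⟩ * ⟨t, h.tK⟩ : K) = 1 from Subtype.ext h.t2, map_one]
  refine ⟨mul_self_eq_one_iff.1 (by rw [← Units.val_mul, this, Units.val_one]), ?_⟩
  rw [MonoidHom.inv_apply, inv_eq_of_mul_eq_one_right this]

theorem exists_common (h : BSW K t) {l₀ : K →* ℂˣ} (h0 : l₀ ≠ 1) (h0' : l₀⁻¹ ≠ l₀) :
    ∃ γ δ, Dirr γ ∧ Dirr δ ∧ th K l₀ - 1 = γ + δ ∧ ⟪γ, 1⟫ = 0 ∧ ⟪γ, δ⟫ = 0 ∧ ∀ l ≠ 1, ⟪γ, th K l⟫ = 1 := by
  obtain ⟨μ, μ1, μi, hμ⟩ := h.exists_mu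
  have Z : ∀ l, th K l - 1 ∈ ZIrr G := fun l => sub_mem (th_ZIrr l) (one_mem _)
  have Z1 : ∀ l ≠ 1, ⟪th K l - 1, 1⟫ = 0 := fun l hl => by rw [dot_sub_left, dot_th_one hl, dot_one_one, sub_self]
  have D1 : ∀ l, (th K l - 1) 1 = -1 := fun l => by simp [th_eq_zero l (one_not_mem_cjs K)]
  have tr : ∀ {ζ}, Dirr ζ → ⟪ζ, 1⟫ = 0 → ∀ l, ⟪ζ, th K l⟫ = ⟪th K l - 1, ζ⟫ := fun hζ e l => by
    rw [ZIrr.dot_comm (Z l) hζ.mem_ZIrr, dot_sub_right, e, sub_zero]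
  have n3 := h.nrm_three μ1 μi
  have dμ : ∀ l ≠ 1, l ≠ μ → ⟪th K μ - 1, th K l - 1⟫ = 1 := fun l hl e =>
    h.dot_ne μ1 hl e.symm (μi.symm ▸ e.symm)
  have l0μ : l₀ ≠ μ := fun e => h0' (by rw [e, μi])
  obtain ⟨γ, δ, hγ, hδ, hγδ, e0, μγ, μδ⟩ : ∃ γ δ, Dirr γ ∧ Dirr δ ∧ ⟪γ, δ⟫ = 0 ∧ th K l₀ - 1 = γ + δ ∧
      ⟪th K μ - 1, γ⟫ = 1 ∧ ⟪th K μ - 1, δ⟫ = 0 := by
    obtain ⟨x, y, hx, hy, hxy, e⟩ := ZIrr.exists_of_nrm_two (Z l₀) (h.nrm_two h0 h0')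
    rcases two_split (Z μ) (by rw [n3]; norm_num) hx hy (e ▸ dμ l₀ h0 l0μ) with e' | e'
    · exact ⟨x, y, hx, hy, hxy, e, e'⟩
    · exact ⟨y, x, hy, hx, dot_comm_zero hxy, e.trans (add_comm _ _), e'.symm⟩
  have γ1 := dirr_orth_one hγ μγ (Z1 μ μ1)
  have hδγ := dot_comm_zero hγδ
  have l0γ : ⟪th K l₀ - 1, γ⟫ = 1 := by rw [e0, dot_add_left, hγ.dot_self, hδγ, add_zero]
  refine ⟨γ, δ, hγ, hδ, e0, γ1, hγδ, fun m₀ m1 => ?_⟩
  rw [tr hγ γ1]
  by_contra hm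
  have m0μ : m₀ ≠ μ := fun e => hm (e ▸ μγ)
  have m0l : m₀ ≠ l₀ := fun e => hm (e ▸ l0γ)
  have m0l' : m₀⁻¹ ≠ l₀ := fun e => hm (by rw [← h.th_inv, e, l0γ])
  have ni : ∀ m ≠ 1, m ≠ μ → m⁻¹ ≠ m := fun m e e' e'' => (hμ m e'').elim e e'
  have n2 := h.nrm_two m1 (ni _ m1 m0μ)
  obtain ⟨mγ, mδ⟩ := (two_split (Z m₀) (by rw [n2]; norm_num) hγ hδ (e0 ▸ h.dot_ne m1 h0 m0l m0l')).resolve_left
    fun e => hm e.1
  obtain ⟨γ', e1⟩ : ∃ γ', th K m₀ - 1 = γ' + δ := ⟨_, (sub_add_cancel _ δ).symm⟩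
  have hγ' : Dirr γ' := by have := dirr_sub (Z m₀) n2 hδ mδ; rwa [e1, add_sub_cancel_right] at this
  have γ'δ : ⟪γ', δ⟫ = 0 := by rw [e1, dot_add_left, hδ.dot_self] at mδ; simpa using mδ
  have γ'γ : ⟪γ', γ⟫ = 0 := by rwa [e1, dot_add_left, hδγ, add_zero] at mγ
  have μγ' : ⟪th K μ - 1, γ'⟫ = 1 := by have := dμ m₀ m1 m0μ; rwa [e1, dot_add_right, μδ, add_zero] at this
  have γ'1 := dirr_orth_one hγ' μγ' (Z1 μ μ1)
  have l0γ' : ⟪th K l₀ - 1, γ'⟫ = 0 := by rw [e0, dot_add_left, dot_comm_zero γ'γ, dot_comm_zero γ'δ, add_zero]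
  have m0γ' : ⟪th K m₀ - 1, γ'⟫ = 1 := by rw [e1, dot_add_left, hγ'.dot_self, dot_comm_zero γ'δ, add_zero]
  have d0 := D1 l₀
  have d1 := D1 m₀
  rw [e0] at d0
  rw [e1] at d1
  simp only [Pi.add_apply] at d0 d1
  have all : ∀ m, m = 1 ∨ m = μ ∨ m = l₀ ∨ m = l₀⁻¹ ∨ m = m₀ ∨ m = m₀⁻¹ := fun m => by
    by_contra! hh
    obtain ⟨a1, a2, a3, a4, a5, a6⟩ := hh
    have n2' := h.nrm_two a1 (ni _ a1 a2)
    have b1 := h.dot_ne a1 m1 a5 fun e => a6 (by rw [← e, inv_inv])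
    have b2 := dμ m a1 a2
    rw [e1, dot_add_right] at b1
    rcases two_split (Z m) (by rw [n2']; norm_num) hγ hδ
      (e0 ▸ h.dot_ne a1 h0 a3 fun e => a4 (by rw [← e, inv_inv])) with ⟨c1, c2⟩ | ⟨c1, c2⟩
    · rw [c2, add_zero] at b1
      rw [eq_add_two (Z m) n2' hγ hγ' c1 b1 (dot_comm_zero γ'γ), dot_add_right, μγ, μγ'] at b2
      norm_num at b2
    · rw [c2, add_eq_right] at b1
      have hγ'' := dirr_sub (Z m) n2' hδ c2
      have e3 := eq_add_two (sub_mem (Z μ) hγ.mem_ZIrr) (by rw [nrm_sub_of_dot_one hγ.dot_self μγ, n3]; norm_num)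
        hγ' hγ'' (by rw [dot_sub_left, μγ', dot_comm_zero γ'γ, sub_zero])
        (by rw [dot_sub_left, dot_sub_right _ _ δ, dot_sub_right _ _ δ, b2, μδ, dot_comm_zero c1, hγδ]; ring)
        (by rw [dot_sub_right, dot_comm_zero b1, γ'δ, sub_zero])
      have e4 := congrFun e3 1
      obtain ⟨x, -, hx⟩ := hγ.deg_int
      rw [Pi.sub_apply, Pi.add_apply, Pi.sub_apply _ δ, D1, D1] at e4
      have : ((3 * x : ℤ) : ℂ) = (-1 : ℤ) := by push_cast; linear_combination -3 * hx - e4 + 2 * d0 - d1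
      have := Int.cast_injective this
      omega
  have i1 : l₀⁻¹ ≠ 1 := by simpa using h0
  have i2 : m₀⁻¹ ≠ 1 := by simpa using m1
  have i3 : l₀⁻¹ ≠ μ := fun e => l0μ (by rw [← μi, ← e, inv_inv])
  have i4 : m₀⁻¹ ≠ μ := fun e => m0μ (by rw [← μi, ← e, inv_inv])
  have i5 : m₀ ≠ l₀⁻¹ := fun e => m0l' (by rw [e, inv_inv])
  have i6 : m₀⁻¹ ≠ l₀⁻¹ := by simpa using m0l
  have i7 := ni _ m1 m0μ
  have t1 : (⟨t, h.tK⟩ : K) ≠ 1 := fun e => h.t1 (congrArg Subtype.val e)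
  have th1 : th K 1 = 0 := by simp [th]
  have v1 := apply_eq_sum' h.comm (ZIrr.mem_CF hγ.mem_ZIrr) (s := {μ, l₀, l₀⁻¹}) (fun l => by
    rcases all l with e | e | e | e | e | e <;> rw [e]
    · simp [th1, dot_zero_right, μ1.symm, h0.symm, i1.symm]
    · simp [tr hγ γ1, μγ]
    · simp [tr hγ γ1, l0γ]
    · simp [tr hγ γ1, h.th_inv, l0γ]
    · simp [tr hγ γ1, mγ, m0μ, m0l, i5]
    · simp [tr hγ γ1, h.th_inv, mγ, i4, m0l, m0l']) t1
  have v2 := apply_eq_sum' h.comm (ZIrr.mem_CF hγ'.mem_ZIrr) (s := {μ, m₀, m₀⁻¹}) (fun l => by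
    rcases all l with e | e | e | e | e | e <;> rw [e]
    · simp [th1, dot_zero_right, μ1.symm, m1.symm, i2.symm]
    · simp [tr hγ' γ'1, μγ']
    · simp [tr hγ' γ'1, l0γ', l0μ, m0l.symm, m0l'.symm]
    · simp [tr hγ' γ'1, h.th_inv, l0γ', i3, i5.symm, m0l.symm]
    · simp [tr hγ' γ'1, m0γ']
    · simp [tr hγ' γ'1, h.th_inv, m0γ']) t1
  have := h.comm
  have := Nat.finite_of_card_ne_zero (α := K →* ℂˣ) (by rw [card_lin]; exact Nat.card_pos.ne')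
  have := Fintype.ofFinite (K →* ℂˣ)
  have v3 := sum_lin_apply (⟨t, h.tK⟩ : K)
  rw [if_neg t1, show (univ : Finset (K →* ℂˣ)) = {1, μ, l₀, l₀⁻¹, m₀, m₀⁻¹} from
    (eq_univ_of_forall fun l => by simpa using all l).symm, sum_insert (by simp [*, eq_comm (a := (1 : K →* ℂˣ))]),
    sum_insert (by simp [*, eq_comm (a := μ)]), sum_insert (by simp [h0'.symm, m0l.symm, m0l'.symm]),
    sum_insert (by simp [i5.symm, m0l.symm]), sum_pair i7.symm] at v3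
  rw [sum_insert (by simp [*, eq_comm (a := μ)]), sum_pair h0'.symm] at v1
  rw [sum_insert (by simp [*, eq_comm (a := μ)]), sum_pair i7.symm] at v2
  have p1 := Phi_dirr h.isConj hγ
  have p2 := Phi_dirr h.isConj hγ'
  have p3 := (h.Phi_th h0).trans (h.Phi_th m1).symm
  rw [e0, e1, Phi_add, Phi_add, add_left_inj] at p3
  rw [p3, show γ 1 = γ' 1 by linear_combination d0 - d1, p2, mul_right_inj' (pow_ne_zero _ (by
    rw [h.card_invs]; exact Nat.cast_ne_zero.2 index_ne_zero_of_finite))] at p1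
  simp only at v1 v2
  rw [v1, v2] at p1
  obtain ⟨a1, -⟩ := h.lin_t μ
  obtain ⟨a2, b2⟩ := h.lin_t l₀
  obtain ⟨a3, b3⟩ := h.lin_t m₀
  rw [b2, b3] at p1 v3
  rcases a1 with a1 | a1 <;> rcases a2 with a2 | a2 <;> rcases a3 with a3 | a3 <;> rw [a1, a2, a3] at p1 v3 <;>
    revert p1 v3 <;> norm_num

theorem eq_one_of_dot (h : BSW K t) {ζ : G → ℂ} (hζ : ζ ∈ CF G) (e : ∀ l ≠ 1, ⟪ζ, th K l⟫ = 1) {y : G}
    (hy : y ∈ cjs K) : ζ y = 1 := by
  obtain ⟨y1, g, hg⟩ := mem_cjs.1 hy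
  have x1 : (⟨_, hg⟩ : K) ≠ 1 := fun e => y1 (by simpa using congrArg Subtype.val e)
  have := h.comm
  have := Nat.finite_of_card_ne_zero (α := K →* ℂˣ) (by rw [card_lin]; exact Nat.card_pos.ne')
  have := Fintype.ofFinite (K →* ℂˣ)
  have v1 := apply_eq_sum' h.comm hζ (s := univ.erase 1) (fun l => by
    by_cases hl : l = 1
    · simp [hl, th, dot_zero_right]
    · simp [hl, e l hl]) x1
  have v2 := sum_lin_apply (⟨_, hg⟩ : K)
  rw [if_neg x1, ← add_sum_erase _ _ (mem_univ 1)] at v2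
  rw [← CF_conj hζ y g]
  simp only [MonoidHom.one_apply, Units.val_one] at v1 v2
  linear_combination v1 - v2

end BSW

theorem exists_deg_eq {ζ : G → ℂ} (hζ : ζ ∈ ZIrr G) (e : ∀ y ∈ cjs K, ζ y = 1) :
    ∃ c : ℤ, ζ 1 = 1 + c * Nat.card K := by
  obtain ⟨c, hc⟩ := ZIrr.dot_int (sub_mem (ZIrr.comp hζ K.subtype) (one_mem _)) (one_mem _)
  have := sum_eq_dot (ζ ∘ K.subtype - 1)
  rw [hc, sum_eq_single 1 (fun x _ hx => by simp [e x (mem_cjs_of_mem x.2 fun e => hx (Subtype.ext e))])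
    (by simp)] at this
  exact ⟨c, by simp only [Pi.sub_apply, Function.comp, map_one, Pi.one_apply] at this; linear_combination this⟩

theorem dot_th_of_one {ζ : G → ℂ} (hζ : ζ ∈ CF G) (e : ∀ y ∈ cjs K, ζ y = 1) {l : K →* ℂˣ} (hl : l ≠ 1) :
    ⟪ζ, th K l⟫ = 1 := by
  rw [th, frob_rec' _ _ hζ, dot_congr_left (φ := ζ ∘ K.subtype) (φ' := 1) fun x hx =>
    e x (mem_cjs_of_mem x.2 fun e => hx (by simp [show x = 1 from Subtype.ext e])),
    dot_sub_right, dot_one_one, ← lin_one, dot_lin, if_neg hl.symm, sub_zero]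

theorem int_aux {f c k : ℤ} (hf : ¬ 2 ∣ f) (h : f * c ^ 2 = 2 * (1 + c * k) * (2 + c * k)) : c = 2 ∨ c = -2 := by
  have h4 : c ∣ 4 := ⟨f * c - 6 * k - 2 * c * k ^ 2, by linear_combination -h⟩
  have := Int.le_of_dvd (by norm_num) h4
  have := Int.le_of_dvd (by norm_num) ((neg_dvd).2 h4)
  obtain ⟨m, hm⟩ : ∃ m, m = k ^ 2 := ⟨_, rfl⟩
  have h' : f * c ^ 2 = 4 + 6 * c * k + 2 * c ^ 2 * m := by rw [hm]; linear_combination h
  have : -4 ≤ c := by omega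
  interval_cases c <;> omega

theorem dirr_deg (hG : ⁅(⊤ : Subgroup G), (⊤ : Subgroup G)⁆ = ⊤) {ζ : G → ℂ} (hζ : Dirr ζ) (h : ⟪ζ, 1⟫ = 0) :
    ζ 1 ≠ 1 ∧ ζ 1 ≠ -1 := by
  have : ∀ {ζ : G → ℂ}, Dirr ζ → ⟪ζ, 1⟫ = 0 → ζ 1 ≠ 1 := fun {ζ} hζ h e => by
    obtain ⟨l, rfl⟩ := IsChar.exists_lin_of_deg_one (IsIrr.isChar (hζ.irr_of_deg_pos (by simp [e]))) e
    have : lin l = 1 := funext fun g => (eq_const_of_cfker_top (top_unique (hG.ge.trans
      (commutator_le_cfker_lin l))) g).trans e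
    rw [this, dot_one_one] at h
    exact one_ne_zero h
  exact ⟨this hζ h, fun e => this hζ.neg (by rw [dot_neg_left, h, neg_zero]) (by simp [e])⟩

namespace BSW

theorem exists_chars (h : BSW K t) (hk : Nat.card K ≠ 2) : ∃ (γ δ : G → ℂ) (ε : ℤ), (ε = 1 ∨ ε = -1) ∧
    Dirr γ ∧ Dirr δ ∧ (∀ y ∈ cjs K, γ y = 1) ∧ (∀ y ∉ cjs K, δ y = -1 - γ y) ∧
    γ 1 = 1 + 2 * Nat.card K * ε ∧ ((𝒞[t]).index : ℤ) = (2 * Nat.card K + ε) * (Nat.card K + ε) ∧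
    ⟪γ, 1⟫ = 0 ∧ ∀ y, ∃ n : ℤ, γ y = n := by
  obtain ⟨l, hl⟩ : ∃ l : K →* ℂˣ, l⁻¹ ≠ l := by
    by_contra! e
    obtain ⟨μ, -, -, hμ⟩ := h.exists_mu
    have := h.comm
    have h1 : (Set.univ : Set (K →* ℂˣ)).ncard ≤ ({1, μ} : Set _).ncard :=
      Set.ncard_le_ncard (fun l _ => hμ l (e l))
    have h2 := Set.ncard_insert_le 1 ({μ} : Set _)
    rw [Set.ncard_singleton] at h2
    rw [Set.ncard_univ, card_lin] at h1
    have := h.two_dvd
    have := Nat.card_pos (α := K)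
    omega
  have l1 : l ≠ 1 := fun e => hl (by simp [e])
  obtain ⟨γ, δ, hγ, hδ, e, γ1, γδ, hd⟩ := h.exists_common l1 hl
  have v1 := fun y => h.eq_one_of_dot (ZIrr.mem_CF hγ.mem_ZIrr) hd (y := y)
  have v2 : ∀ y ∉ cjs K, δ y = -1 - γ y := fun y hy => by
    have := congrFun e y
    simp only [Pi.sub_apply, Pi.add_apply, th_eq_zero l hy, Pi.one_apply] at this
    linear_combination -this
  have v3 : δ t ^ 2 = 4 := by
    have h1 := congrFun e t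
    have h2 := congrFun (h.th_apply l) ⟨t, h.tK⟩
    obtain ⟨h3, h4⟩ := h.lin_t l
    simp only [Pi.sub_apply, Pi.add_apply, Pi.one_apply, Function.comp, Subgroup.subtype_apply, lin_apply, h4,
      v1 t (mem_cjs_of_mem h.tK h.t1)] at h1 h2
    rw [show δ t = -2 * (l ⟨t, h.tK⟩ : ℂ) by linear_combination h2 - h1]
    rcases h3 with h3 | h3 <;> rw [h3] <;> norm_num
  obtain ⟨c, hc⟩ := exists_deg_eq hγ.mem_ZIrr v1
  have p1 := Phi_dirr h.isConj hγ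
  have p2 := Phi_dirr h.isConj hδ
  have p3 := h.Phi_th l1
  rw [e, Phi_add] at p3
  rw [v1 t (mem_cjs_of_mem h.tK h.t1), hc, h.card_invs] at p1
  rw [v3, v2 1 (one_not_mem_cjs K), hc, h.card_invs] at p2
  have f0 : ((𝒞[t]).index : ℂ) ≠ 0 := Nat.cast_ne_zero.2 index_ne_zero_of_finite
  have k0 : (Nat.card K : ℂ) ≠ 0 := card_ne_zero
  have p4 : (((𝒞[t]).index * c ^ 2 : ℤ) : ℂ) = (2 * (1 + c * Nat.card K) * (2 + c * Nat.card K) : ℤ) := by
    push_cast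
    apply mul_left_cancel₀ (mul_ne_zero f0 (pow_ne_zero 2 k0))
    linear_combination (1 + c * Nat.card K) * (2 + c * Nat.card K) * p3 - (2 + c * Nat.card K) * p1 +
      (1 + c * Nat.card K) * p2
  have p5 := Int.cast_injective p4
  obtain ⟨ε, hε, rfl⟩ : ∃ ε : ℤ, (ε = 1 ∨ ε = -1) ∧ c = 2 * ε := by
    rcases int_aux (by exact_mod_cast h.odd_index) p5 with e | e
    · exact ⟨1, Or.inl rfl, e⟩
    · exact ⟨-1, Or.inr rfl, e⟩
  refine ⟨γ, δ, ε, hε, hγ, hδ, v1, v2, by rw [hc]; push_cast; ring, ?_, γ1, fun y => ?_⟩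
  · rcases hε with rfl | rfl <;> linarith
  refine int_of_aut_fixed (ZIrr.isIntegral hγ.mem_ZIrr y) fun σ => ?_
  have hσ := hγ.map σ.toRingHom
  have v4 : ∀ y ∈ cjs K, (σ.toRingHom ∘ γ) y = 1 := fun y hy => by simp [v1 y hy]
  have s1 := ZIrr.dot_map_map hγ.mem_ZIrr (one_mem _) σ.toRingHom
  rw [show σ.toRingHom ∘ (1 : G → ℂ) = 1 by ext; simp, γ1] at s1
  rcases two_split hσ.mem_ZIrr (by rw [hσ.nrm]; norm_num) hγ hδ (by
    rw [← e, dot_sub_right, s1, dot_th_of_one (ZIrr.mem_CF hσ.mem_ZIrr) v4 l1, sub_zero]) with s | s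
  · exact congrFun (hσ.eq_of_dot_eq_one hγ s.1) y
  · rw [← hσ.eq_of_dot_eq_one hδ s.2, v4 t (mem_cjs_of_mem h.tK h.t1)] at v3
    norm_num at v3

theorem card_lt (h : BSW K t) (hG : ⁅(⊤ : Subgroup G), (⊤ : Subgroup G)⁆ = ⊤) (hk : Nat.card K = 2) :
    Nat.card G < 96 := by
  obtain ⟨μ, μ1, μi, hμ⟩ := h.exists_mu
  have Z : th K μ - 1 ∈ ZIrr G := sub_mem (th_ZIrr μ) (one_mem _)
  have Z1 : ⟪th K μ - 1, 1⟫ = 0 := by rw [dot_sub_left, dot_th_one μ1, dot_one_one, sub_self]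
  have n3 := h.nrm_three μ1 μi
  have f0 : ((𝒞[t]).index : ℂ) ≠ 0 := Nat.cast_ne_zero.2 index_ne_zero_of_finite
  have key : ∀ ζ, Dirr ζ → ⟪th K μ - 1, ζ⟫ = 1 → ∃ x : ℤ, ζ 1 = x ∧ (x ≤ -3 ∨ 3 ≤ x) ∧
      Phi ζ = (𝒞[t]).index ^ 2 * (x : ℂ)⁻¹ := fun ζ hζ e => by
    have e1 := dirr_orth_one hζ e Z1
    have v1 := fun y => h.eq_one_of_dot (ZIrr.mem_CF hζ.mem_ZIrr) (y := y) fun l hl => by
      have : l⁻¹ = l := MonoidHom.ext fun x => by
        rw [MonoidHom.inv_apply, inv_eq_iff_mul_eq_one, ← map_mul, ← pow_two, ← hk, pow_card_eq_one', map_one]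
      rw [(hμ l this).resolve_left hl]
      rwa [ZIrr.dot_comm Z hζ.mem_ZIrr, dot_sub_right, e1, sub_zero] at e
    obtain ⟨c, hc⟩ := exists_deg_eq hζ.mem_ZIrr v1
    have p1 := Phi_dirr h.isConj hζ
    rw [v1 t (mem_cjs_of_mem h.tK h.t1), h.card_invs] at p1
    have hx : ζ 1 = (1 + c * 2 : ℤ) := by rw [hc, hk]; push_cast; ring
    obtain ⟨d1, d2⟩ := dirr_deg hG hζ e1
    refine ⟨_, hx, ?_, ?_⟩
    · rw [hx] at d1 d2
      norm_cast at d1 d2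
      omega
    · rw [← hx, eq_mul_inv_iff_mul_eq₀ hζ.deg_ne_zero]; linear_combination p1
  obtain ⟨a, ha, e1⟩ := ZIrr.exists_point Z (fun e => by rw [e, nrm_zero] at n3; norm_num at n3)
    (by rw [n3]; norm_num)
  obtain ⟨b, c, hb, hc, hbc, e2⟩ := ZIrr.exists_of_nrm_two (sub_mem Z ha.mem_ZIrr)
    (by rw [nrm_sub_of_dot_one ha.dot_self e1, n3]; norm_num)
  have e3 : th K μ - 1 = a + (b + c) := by rw [← e2, add_sub_cancel]
  have e4 : ⟪b + c, a⟫ = 0 := by rw [← e2, dot_sub_left, e1, ha.dot_self, sub_self]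
  have e5 : ⟪a, b⟫ = 0 ∧ ⟪a, c⟫ = 0 := by
    rw [dot_add_left] at e4
    rcases ha.dot_cases hb with ⟨rfl, -⟩ | ⟨rfl, -⟩ | ⟨-, -, e⟩
    · simp [ha.dot_self, dot_comm_zero hbc] at e4
    · simp [dot_neg_right, hb.dot_self, dot_comm_zero hbc] at e4
    · exact ⟨e, dot_comm_zero (by rwa [dot_comm_zero e, zero_add] at e4)⟩
  obtain ⟨x, x1, x2, x3⟩ := key a ha e1
  obtain ⟨y, y1, y2, y3⟩ := key b hb (by simp [e3, dot_add_left, e5.1, hb.dot_self, dot_comm_zero hbc])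
  obtain ⟨z, z1, z2, z3⟩ := key c hc (by simp [e3, dot_add_left, e5.2, hc.dot_self, hbc])
  have p := h.Phi_th μ1
  have d := congrFun e3 1
  simp only [Pi.sub_apply, Pi.add_apply, th_eq_zero μ (one_not_mem_cjs K), Pi.one_apply, x1, y1, z1] at d
  have d' : -1 = x + (y + z) := by
    apply Int.cast_injective (α := ℂ); push_cast; linear_combination d
  rw [e3, Phi_add, Phi_add, x3, y3, z3, hk] at p
  have p' : ((((𝒞[t]).index : ℝ) * (1 + (x : ℝ)⁻¹ + (y : ℝ)⁻¹ + (z : ℝ)⁻¹) : ℝ) : ℂ) = (8 : ℝ) := by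
    push_cast at p ⊢
    apply mul_left_cancel₀ f0
    linear_combination p
  have p'' := Complex.ofReal_injective p'
  have b1 : ∀ x : ℤ, x ≤ -3 ∨ 3 ≤ x → -(1 / 3 : ℝ) ≤ (x : ℝ)⁻¹ := fun x hx => by
    rcases hx with hx | hx
    · have : (3 : ℝ) ≤ -x := by exact_mod_cast (by omega : 3 ≤ -x)
      have := inv_anti₀ (by norm_num) this
      rw [inv_neg] at this; linarith
    · have : (0 : ℝ) ≤ (x : ℝ)⁻¹ := inv_nonneg.2 (by exact_mod_cast (by omega : 0 ≤ x))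
      linarith
  have b2 : ∀ x : ℤ, 0 < x → (0 : ℝ) < (x : ℝ)⁻¹ := fun x hx => inv_pos.2 (by exact_mod_cast hx)
  have b3 : (1 / 3 : ℝ) < 1 + (x : ℝ)⁻¹ + (y : ℝ)⁻¹ + (z : ℝ)⁻¹ := by
    have := b1 x x2
    have := b1 y y2
    have := b1 z z2
    rcases (by omega : 0 < x ∨ 0 < y ∨ 0 < z) with e | e | e <;> have := b2 _ e <;> linarith
  have f1 : (0 : ℝ) < (𝒞[t]).index := Nat.cast_pos.2 (index_pos _)
  have : ((𝒞[t]).index : ℝ) < 24 := by nlinarith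
  have : (𝒞[t]).index < 24 := by exact_mod_cast this
  rw [h.card_eq, hk]; omega

end BSW

end CA.Dih

theorem CA.Dih.realizeEqnsBSW1 : True := by
  have := @CA.Dih.Phi.eq_1.{0}
  have := @CA.Dih.Phi.eq_def.{0}
  have := @CA.Dih.Phi.congr_simp.{0}
  have := @CA.Dih.invs.eq_1.{0}
  have := @CA.Dih.invs.eq_def.{0}
  have := @CA.Dih.invs.congr_simp.{0}
  have := @CA.Dih.th.eq_1.{0}
  have := @CA.Dih.th.eq_def.{0}
  have := @CA.Dih.th.congr_simp.{0}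
  have := @CA.Dih.rr.eq_1.{0}
  have := @CA.Dih.rr.eq_def.{0}
  have := @CA.Dih.rr.congr_simp.{0}
  have := @CA.Dih.cjs.eq_1.{0}
  have := @CA.Dih.cjs.eq_def.{0}
  have := @CA.Dih.cjs.congr_simp.{0}
  trivial
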