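/-
The Brauer-Suzuki-Wall theorem: centralizer orders.
-/
import Cfsg.Agent.Dih.BSW1
import Cfsg.Agent.FT
import Cfsg.Agent.Lin.SmallIso

set_option autoImplicit false
set_option linter.unusedSectionVars false

namespace CA.Dih

open Subgroup Cfsg CA.FG CA.BG CA.Chr MulAction Finset
open scoped commutatorElement ComplexConjugate Classical

universe u v

variable {G : Type u} [Group G] [Fintype G] {K : Subgroup G} {t : G} {p : ℕ}

theorem orderOf_dvd_of_cjs {y : G} (hy : y ∈ cjs K) : orderOf y ∣ Nat.card K := by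
  obtain ⟨-, g, hg⟩ := mem_cjs.1 hy
  rw [← orderOf_conj y g]; exact orderOf_dvd_card_of_mem hg

theorem card_class (y : G) : (univ.filter (IsConj y)).card = (𝒞[y]).index := by
  have := card_class_mul_card_centralizer y
  rw [← card_mul_index 𝒞[y], mul_comm (Nat.card _)] at this
  exact Nat.eq_of_mul_eq_mul_right Nat.card_pos this

theorem deg_dvd_index {ζ : G → ℂ} (hζ : Dirr ζ) {y : G} (hy : ζ y = -1) {n : ℤ} (hn : ζ 1 = n) :
    n ∣ (𝒞[y]).index := by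
  suffices H : ∀ ζ, IsIrrCharacter G ζ → ∀ n e : ℤ, ζ y = e → ζ 1 = n → n ∣ (𝒞[y]).index * e by
    rcases hζ with h | h
    · simpa using H _ h n (-1) (by simp [hy]) hn
    · simpa using H _ h (-n) 1 (by simp [hy]) (by simp [hn])
  intro ζ hζ n e hy hn
  have := IsIrr.isIntegral_central hζ (f := fun g => if IsConj y g then 1 else 0)
    (fun x g => if_congr ⟨fun h => h.trans (isConj_iff.2 ⟨g, rfl⟩).symm, fun h => h.trans (isConj_iff.2 ⟨g, rfl⟩)⟩
      rfl rfl) fun g => by split_ifs; exacts [isIntegral_one, isIntegral_zero]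
  simp only [ite_mul, one_mul, zero_mul, ← sum_filter] at this
  rw [sum_congr rfl fun g hg => (CF_isConj (IsIrr.mem_CF hζ) (mem_filter.1 hg).2).symm, sum_const, card_class,
    hy, hn] at this
  exact int_dvd_of_isIntegral_div (fun e => IsIrr.deg_ne_zero hζ (by simp [hn, e])) (by simpa using this)

theorem inv_of_fpf' {F : Subgroup G} {u : G} (u2 : u * u = 1) (hu : u ∈ 𝒩(F)) (hc : F ⊓ 𝒞[u] = ⊥) {y : G}
    (hy : y ∈ F) : u * y * u⁻¹ = y⁻¹ := by
  obtain ⟨x, -, rfl⟩ := P03.fpf_surj hu hc hy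
  rw [show u * (x * u * x⁻¹ * u⁻¹) * u⁻¹ = u * x * (u * u) * u⁻¹ * x⁻¹ * (u * u)⁻¹ by group, u2]
  group

theorem abelian_of_inv {F : Subgroup G} {u : G} (h : ∀ y ∈ F, u * y * u⁻¹ = y⁻¹) : IsMulCommutative F :=
  abelian_iff_forall.2 fun x hx y hy => by
    have := h _ (mul_mem hx hy)
    rw [show u * (x * y) * u⁻¹ = (u * x * u⁻¹) * (u * y * u⁻¹) by group, h x hx, h y hy,
      ← _root_.mul_inv_rev, inv_inj] at this
    exact this.symm

theorem rr_ne_zero {y : G} : rr y ≠ 0 ↔ ∃ u ∈ invs G, u * y ∈ invs G := by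
  simp [rr]

theorem inv_of_mem_invs {u y : G} (hu : u ∈ invs G) (h : u * y ∈ invs G) : u * y * u⁻¹ = y⁻¹ := by
  rw [eq_inv_iff_mul_eq_one, inv_eq_of_mul_eq_one_right (mem_invs.1 hu).1, ← (mem_invs.1 h).1]; group

theorem rr_le (y : G) : rr y ≤ Nat.card 𝒞[y] := by
  by_cases h : rr y = 0
  · omega
  obtain ⟨u, hu, hu'⟩ := rr_ne_zero.1 h
  rw [← BSW.card_filter_K]
  refine card_le_card_of_injOn (u⁻¹ * ·) (fun v hv => ?_) fun a _ b _ e => by simpa using e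
  simp only [coe_filter, Set.mem_setOf_eq, mem_univ, true_and] at hv ⊢
  rw [mem_centralizer_singleton_iff]
  have h1 := inv_of_mem_invs hu hu'
  rw [← inv_of_mem_invs hv.1 hv.2] at h1
  rw [show u⁻¹ * v * y = u⁻¹ * (v * y * v⁻¹) * v by group, ← h1]; group

theorem mem_norm_cent1_of_inv {u y : G} (h : u * y * u⁻¹ = y⁻¹) : u ∈ 𝒩(𝒞[y]) := by
  rw [← conjg_eq_self_iff, conjg_cent1, h, cent_singleton_inv]

namespace BSW

theorem invs_cjs (h : BSW K t) {u : G} (hu : u ∈ invs G) : u ∈ cjs K := by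
  obtain ⟨g, rfl⟩ := isConj_iff.1 (h.isConj u (mem_invs.1 hu).1 (mem_invs.1 hu).2)
  exact (conj_mem_cjs g).2 (mem_cjs_of_mem h.tK h.t1)

theorem cjs_of_cent (h : BSW K t) {y : G} (hy : y ∈ 𝒞[t]) (y1 : y ≠ 1) : y ∈ cjs K := by
  by_cases hK : y ∈ K
  · exact mem_cjs_of_mem hK y1
  · exact h.invs_cjs (mem_invs.2 ⟨h.sq y hy hK, y1⟩)

theorem cent_le (h : BSW K t) {x : G} (hx : x ∈ K) (x1 : x ≠ 1) : 𝒞[x] ≤ 𝒞[t] := fun g hg =>
  h.TI g x hx x1 (by rwa [mem_centralizer_singleton_iff.1 hg, mul_inv_cancel_right])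

theorem cjs_of_comm (h : BSW K t) {x y : G} (hx : x ∈ cjs K) (hy : y ∈ 𝒞[x]) (y1 : y ≠ 1) : y ∈ cjs K := by
  obtain ⟨x1, g, hg⟩ := mem_cjs.1 hx
  refine (conj_mem_cjs g).1 (h.cjs_of_cent (h.cent_le hg (by simpa using x1) ?_) (by simpa using y1))
  rw [← conjg_cent1]; exact conj_mem_conjg g hy

theorem inf_cent_eq_bot (h : BSW K t) {F : Subgroup G} {u : G} (hu : u ∈ cjs K)
    (hF : (Nat.card F).Coprime (Nat.card K)) : F ⊓ 𝒞[u] = ⊥ := by
  refine eq_bot_iff.2 fun x hx => by_contra fun x1 => x1 ?_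
  exact orderOf_eq_one_iff.1 (Nat.eq_one_of_dvd_coprimes hF (orderOf_dvd_card_of_mem hx.1)
    (orderOf_dvd_of_cjs (h.cjs_of_comm hu hx.2 x1)))

theorem cjs_of_orderOf (h : BSW K t) (hf : (𝒞[t]).index.Coprime (Nat.card K)) (hp : p.Prime)
    (hd : p ∣ Nat.card K) {x : G} (hx : orderOf x = p) : x ∈ cjs K := by
  obtain ⟨P, hP⟩ := sylow_exists hp 𝒞[t]
  obtain ⟨g, -, hg⟩ := sylow_Jsub hp (hP.trans_index le_top ((piNat_compl_singleton_iff hp).2 fun e =>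
    hp.one_lt.ne' (Nat.eq_one_of_dvd_coprimes hf (by rwa [relIndex_top_right] at e) hd)))
    (piGrp_zpowers_iff.2 (show IsPiElt {p} x by rw [IsPiElt, hx]; exact piNat_singleton_self hp)) le_top
  exact (conj_mem_cjs g).1 (h.cjs_of_cent (hP.le (hg (conj_mem_conjg g (mem_zpowers x))))
    (by simpa using ne_one_of_orderOf hp hx))

theorem coprime_cent (h : BSW K t) (hf : (𝒞[t]).index.Coprime (Nat.card K)) {y : G} (y1 : y ≠ 1)
    (hy : y ∉ cjs K) : (Nat.card 𝒞[y]).Coprime (2 * Nat.card K) := by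
  refine Nat.coprime_of_dvd fun p hp h1 h2 => hy ?_
  obtain ⟨x, hx, ox⟩ := exists_mem_orderOf_eq hp h1
  refine h.cjs_of_comm (h.cjs_of_orderOf hf hp (((Nat.Prime.dvd_mul hp).1 h2).elim (fun e => ?_) id) ox)
    (mem_cent_singleton_comm.1 hx) y1
  exact e.trans h.two_dvd

theorem card_cjs (h : BSW K t) : ((cjs K).card : ℤ) = (𝒞[t]).index * (Nat.card K - 1) := by
  have := h.sum_cjs (one_mem _)
  simp only [Pi.one_apply, sum_const, nsmul_eq_mul, mul_one, card_univ, ← Nat.card_eq_fintype_card] at this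
  exact_mod_cast this

end BSW

theorem sum_split (K : Subgroup G) {R : Type*} [AddCommMonoid R] (φ : G → R) :
    ∑ y, φ y = φ 1 + ∑ y ∈ cjs K, φ y + ∑ y ∈ univ.filter (fun y => y ≠ 1 ∧ y ∉ cjs K), φ y := by
  rw [← sum_filter_add_sum_filter_not univ (· ∈ insert 1 (cjs K)), filter_univ_mem,
    sum_insert (one_not_mem_cjs K)]
  congr 2
  ext y; simp

structure BSWD (K : Subgroup G) (t : G) (q r : ℕ) (L0 L1 : Finset G) : Prop extends BSW K t where
  hq : q = Nat.card K + r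
  hr : r = Nat.card K + 1 ∨ r + 1 = Nat.card K
  k2 : Nat.card K ≠ 2
  f : (𝒞[t]).index = q * r
  cover : univ.filter (fun y => y ≠ 1 ∧ y ∉ cjs K) = L0 ∪ L1
  h0 : ∀ y ∈ L0, Nat.card 𝒞[y] ∣ q
  h1 : ∀ y ∈ L1, Nat.card 𝒞[y] ∣ r
  c0 : L0.card + 1 = q ^ 2
  c1 : L1.card + q * Nat.card K = q * Nat.card K * r

theorem coprime_of_near {k r : ℕ} (h : r = k + 1 ∨ r + 1 = k) : r.Coprime k := by
  rcases h with rfl | rfl <;> simp

theorem BSW.exists_data (h : BSW K t) (hk : Nat.card K ≠ 2) : ∃ q r L0 L1, BSWD K t q r L0 L1 := by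
  obtain ⟨γ, δ, ε, hε, hγ, hδ, v1, v2, d1, hf, γ1, hn⟩ := h.exists_chars hk
  choose n hn using hn
  obtain ⟨r, hr⟩ : ∃ r : ℕ, (r : ℤ) = Nat.card K + ε :=
    Int.eq_ofNat_of_zero_le (by have := Nat.card_pos (α := K); omega) |>.imp fun _ e => e.symm
  have hr' : r = Nat.card K + 1 ∨ r + 1 = Nat.card K := by omega
  have hf' : (𝒞[t]).index = (Nat.card K + r) * r := by zify; rw [hf, hr]; ring
  have co := coprime_of_near hr'
  have cf : (𝒞[t]).index.Coprime (Nat.card K) := by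
    rw [hf']; exact Nat.Coprime.mul_left (by simpa using co) co
  have n1 : n 1 = 1 + 2 * Nat.card K * ε := by have := (hn 1).symm.trans d1; exact_mod_cast this
  have n2 : ∀ y ∈ cjs K, n y = 1 := fun y hy => by have := (hn y).symm.trans (v1 y hy); exact_mod_cast this
  have s1 : ∑ y, n y = 0 := by
    have := sum_eq_dot γ
    rw [γ1, mul_zero, sum_congr rfl fun y _ => hn y] at this
    exact_mod_cast this
  have s2 : ∑ y, n y ^ 2 = Nat.card G := by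
    have := hγ.dot_self
    rw [dot_def, inv_mul_eq_one₀ card_ne_zero, sum_congr rfl (g := fun y => ((n y ^ 2 : ℤ) : ℂ))
      fun y _ => by simp [hn y, pow_two]] at this
    exact_mod_cast this.symm
  have s3 : ∑ _y : G, (1 : ℤ) = Nat.card G := by simp
  have cM := h.card_cjs
  have oG := h.card_eq
  set L := univ.filter (fun y => y ≠ 1 ∧ y ∉ cjs K) with hL
  rw [sum_split K, ← hL] at s1 s2 s3
  rw [sum_congr rfl n2] at s1
  rw [sum_congr rfl (g := fun _ => 1) fun y hy => by rw [n2 y hy, one_pow]] at s2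
  simp only [sum_const, nsmul_eq_mul, mul_one] at s1 s2 s3
  have s4 : ∑ y ∈ L, (n y ^ 2 + n y) = 0 := by
    rw [sum_add_distrib]
    rw [oG, n1, cM] at *
    push_cast at s2
    rw [hf] at s1 s2
    rcases hε with rfl | rfl <;> linear_combination s1 + s2
  have s5 : ∀ y ∈ L, n y = 0 ∨ n y = -1 := fun y hy => by
    have := (sum_eq_zero_iff_of_nonneg fun y _ => by nlinarith [sq_nonneg (2 * n y + 1)]).1 s4 y hy
    rw [show n y ^ 2 + n y = n y * (n y + 1) by ring, mul_eq_zero] at this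
    omega
  have s6 := card_filter_add_card_filter_not (s := L) (n · = 0)
  have s7 : ∑ y ∈ L, n y = -(L.filter (¬ n · = 0)).card := by
    rw [← sum_filter_add_sum_filter_not L (n · = 0), sum_eq_zero fun y hy => (mem_filter.1 hy).2, zero_add,
      sum_congr rfl fun y hy => (s5 y (mem_filter.1 hy).1).resolve_left (mem_filter.1 hy).2]
    simp
  have key : ∀ y ∈ L, ∀ a b : ℕ, (𝒞[t]).index = a * b → a ∣ (𝒞[y]).index → Nat.card 𝒞[y] ∣ b :=
    fun y hy a b e ⟨m, hm⟩ => by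
      have h1 := card_mul_index 𝒞[y]
      have a0 : 0 < a := Nat.pos_of_mul_pos_right (e ▸ index_pos _)
      rw [oG, e, hm] at h1
      refine (h.coprime_cent cf (mem_filter.1 hy).2.1 (mem_filter.1 hy).2.2).dvd_of_dvd_mul_left
        ⟨m, Nat.eq_of_mul_eq_mul_left a0 (by linarith)⟩
  refine ⟨_, r, L.filter (n · = 0), L.filter (¬ n · = 0), h, rfl, hr', hk, hf',
    (filter_union_filter_not_eq _ _).symm, fun y hy => ?_, fun y hy => ?_, ?_, ?_⟩
  · rw [mem_filter] at hy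
    refine key y hy.1 r _ (hf'.trans (mul_comm _ _)) ?_
    have := deg_dvd_index hδ (y := y) (by simp [v2 y (mem_filter.1 hy.1).2.2, hn, hy.2]) (n := -2 * ε * r)
      (by rw [v2 1 (one_not_mem_cjs K), d1, hr]; rcases hε with rfl | rfl <;> push_cast <;> ring)
    exact_mod_cast (Dvd.intro_left _ rfl).trans this
  · rw [mem_filter] at hy
    refine key y hy.1 _ r hf' ?_
    have := deg_dvd_index hγ (y := y) (by simp [hn, (s5 y hy.1).resolve_left hy.2]) (n := ε * (Nat.card K + r : ℕ))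
      (by rw [d1]; norm_cast; push_cast; rw [hr]; rcases hε with rfl | rfl <;> ring)
    exact_mod_cast (Dvd.intro_left _ rfl).trans this
  · zify at s6 ⊢
    rw [oG, cM] at s3
    rw [n1, cM, s7] at s1
    push_cast at s3
    rw [hf] at s1 s3
    rw [hr]
    rcases hε with rfl | rfl <;> linear_combination s6 + s1 + s3
  · zify
    rw [n1, cM, s7, hf] at s1
    rw [hr]
    rcases hε with rfl | rfl <;> linear_combination -s1

namespace BSWD

variable {q r : ℕ} {L0 L1 : Finset G}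

theorem co_rk (h : BSWD K t q r L0 L1) : r.Coprime (Nat.card K) := coprime_of_near h.hr

theorem co_qk (h : BSWD K t q r L0 L1) : q.Coprime (Nat.card K) := by rw [h.hq]; simpa using h.co_rk

theorem co_qr (h : BSWD K t q r L0 L1) : q.Coprime r := by rw [h.hq]; simpa using h.co_rk.symm

theorem co_f (h : BSWD K t q r L0 L1) : (𝒞[t]).index.Coprime (Nat.card K) := by
  rw [h.f]; exact h.co_qk.mul_left h.co_rk

theorem k4 (h : BSWD K t q r L0 L1) : 4 ≤ Nat.card K := by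
  have := h.two_dvd; have := h.k2; have := Nat.card_pos (α := K); omega

theorem odd_q (h : BSWD K t q r L0 L1) : ¬ 2 ∣ q := by have := h.two_dvd; have := h.hq; have := h.hr; omega

theorem odd_r (h : BSWD K t q r L0 L1) : ¬ 2 ∣ r := by have := h.two_dvd; have := h.hr; omega

theorem card_G (h : BSWD K t q r L0 L1) : Nat.card G = q * (2 * Nat.card K * r) := by
  rw [h.card_eq, h.f]; ring

theorem sq_q (h : BSWD K t q r L0 L1) : q ^ 2 = 4 * Nat.card K * r + 1 := by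
  have := h.hq
  rcases h.hr with e | e
  · subst e; rw [this]; ring
  · rw [this, ← e]; ring

theorem mem_L (h : BSWD K t q r L0 L1) {y : G} : y ∈ L0 ∨ y ∈ L1 ↔ y ≠ 1 ∧ y ∉ cjs K := by
  rw [← mem_union, ← h.cover]; simp

theorem mem_L0 (h : BSWD K t q r L0 L1) {y : G} : y ∈ L0 ↔ y ≠ 1 ∧ orderOf y ∣ q := by
  refine ⟨fun hy => ⟨(h.mem_L.1 (.inl hy)).1,
    (orderOf_dvd_card_of_mem (mem_cent_singleton_self y)).trans (h.h0 y hy)⟩, fun ⟨y1, hy⟩ => ?_⟩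
  refine (h.mem_L.2 ⟨y1, fun e => y1 ?_⟩).resolve_right fun e => y1 ?_
  · exact orderOf_eq_one_iff.1 (Nat.eq_one_of_dvd_coprimes h.co_qk hy (orderOf_dvd_of_cjs e))
  · exact orderOf_eq_one_iff.1 (Nat.eq_one_of_dvd_coprimes h.co_qr hy
      ((orderOf_dvd_card_of_mem (mem_cent_singleton_self y)).trans (h.h1 y e)))

theorem mem_L1 (h : BSWD K t q r L0 L1) {y : G} : y ∈ L1 ↔ y ≠ 1 ∧ orderOf y ∣ r := by
  refine ⟨fun hy => ⟨(h.mem_L.1 (.inr hy)).1,
    (orderOf_dvd_card_of_mem (mem_cent_singleton_self y)).trans (h.h1 y hy)⟩, fun ⟨y1, hy⟩ => ?_⟩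
  refine (h.mem_L.2 ⟨y1, fun e => y1 ?_⟩).resolve_left fun e => y1 ?_
  · exact orderOf_eq_one_iff.1 (Nat.eq_one_of_dvd_coprimes h.co_rk hy (orderOf_dvd_of_cjs e))
  · exact orderOf_eq_one_iff.1 (Nat.eq_one_of_dvd_coprimes h.co_qr (h.mem_L0.1 e).2 hy)

theorem class_subset (h : BSWD K t q r L0 L1) {y : G} (hy : y ∈ L0) : univ.filter (IsConj y) ⊆ L0 := fun z hz => by
  obtain ⟨g, rfl⟩ := isConj_iff.1 (mem_filter.1 hz).2
  rw [h.mem_L0] at hy ⊢
  exact ⟨by simpa using hy.1, by rw [orderOf_conj]; exact hy.2⟩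

theorem card_cent0 (h : BSWD K t q r L0 L1) {y : G} (hy : y ∈ L0) :
    Nat.card 𝒞[y] = q ∧ (𝒞[y]).index = 2 * Nat.card K * r := by
  obtain ⟨m, hm⟩ := h.h0 y hy
  have h1 := card_mul_index 𝒞[y]
  rw [h.card_G, hm, mul_assoc] at h1
  have h2 := Nat.eq_of_mul_eq_mul_left Nat.card_pos h1
  have h3 := card_le_card (h.class_subset hy)
  have h4 := h.c0
  rw [card_class, h2] at h3
  rw [h.sq_q] at h4
  have h5 := index_pos 𝒞[y]
  have h6 : m ≤ 2 := by
    by_contra! e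
    rw [h2] at h5
    have := Nat.pos_of_mul_pos_left h5
    nlinarith
  have h7 : m = 1 := by
    have := h.odd_q
    interval_cases m <;> omega
  rw [hm, h2, h7]; simp

theorem exists_prime (h : BSWD K t q r L0 L1) : ∃ p, p.Prime ∧ p ∣ q ∧ PiNat {p} q := by
  obtain ⟨p, hp, hd⟩ := Nat.exists_prime_and_dvd (n := q) (by have := h.hq; have := h.k4; omega)
  refine ⟨p, hp, hd, fun s hs hs' => by_contra fun ne => ?_⟩
  obtain ⟨y, -, oy⟩ := exists_mem_orderOf_eq (H := (⊤ : Subgroup G)) hp (by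
    rw [card_top, h.card_G]; exact hd.mul_right _)
  have hy := h.mem_L0.2 ⟨ne_one_of_orderOf hp oy, oy ▸ hd⟩
  obtain ⟨z, hz, oz⟩ := exists_mem_orderOf_eq hs ((h.card_cent0 hy).1.symm ▸ hs')
  have hz' := h.mem_L0.2 ⟨ne_one_of_orderOf hs oz, oz ▸ hs'⟩
  have co := (Nat.coprime_primes hs hp).2 ne
  have ozy : orderOf (z * y) = s * p := by
    rw [Commute.orderOf_mul_eq_mul_orderOf_of_coprime (mem_centralizer_singleton_iff.1 hz) (by rwa [oz, oy]), oz, oy]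
  have := hs.one_lt
  have := hp.one_lt
  have hzy := h.mem_L0.2 ⟨fun e => by rw [e, orderOf_one] at ozy; nlinarith, ozy ▸ co.mul_dvd_of_dvd_of_dvd hs' hd⟩
  have dj : ∀ a b : G, orderOf a ≠ orderOf b → Disjoint (univ.filter (IsConj a)) (univ.filter (IsConj b)) :=
    fun a b e => disjoint_filter.2 fun x _ h1 h2 => e (by
      obtain ⟨g, rfl⟩ := isConj_iff.1 (h1.trans h2.symm); rw [orderOf_conj])
  have h3 := card_le_card (union_subset (union_subset (h.class_subset hy) (h.class_subset hz')) (h.class_subset hzy))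
  rw [card_union_of_disjoint (disjoint_union_left.2 ⟨dj _ _ (by rw [oy, ozy]; nlinarith),
    dj _ _ (by rw [oz, ozy]; nlinarith)⟩), card_union_of_disjoint (dj _ _ (by rw [oy, oz]; exact Ne.symm ne)),
    card_class, card_class, card_class, (h.card_cent0 hy).2, (h.card_cent0 hz').2, (h.card_cent0 hzy).2] at h3
  have h4 := h.c0
  rw [h.sq_q] at h4
  have := (h.card_cent0 hy).2 ▸ index_pos 𝒞[y]
  nlinarith

theorem sylow_of_card (h : BSWD K t q r L0 L1) (hp : p.Prime) (hd : p ∣ q) (hq : PiNat {p} q) {P : Subgroup G}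
    (hP : Nat.card P = q) : IsSylowOf p P ⊤ := by
  refine sylow_mk le_top (by rwa [← hP] at hq) fun e => ?_
  have := card_mul_index P
  rw [h.card_G, hP] at this
  rw [relIndex_top_right, Nat.eq_of_mul_eq_mul_left (hP ▸ Nat.card_pos) this] at e
  exact hp.one_lt.ne' (Nat.eq_one_of_dvd_coprimes ((((Nat.prime_two.coprime_iff_not_dvd.2 h.odd_q).symm.mul_right
    h.co_qk).mul_right h.co_qr)) hd e)

theorem card_sylow (h : BSWD K t q r L0 L1) (hp : p.Prime) (hd : p ∣ q) (hq : PiNat {p} q) {P : Subgroup G}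
    (hP : IsSylowOf p P ⊤) : Nat.card P = q := by
  obtain ⟨y, hy⟩ := card_pos.1 (show 0 < L0.card by
    have := h.c0; have := h.hq; have := h.k4; nlinarith)
  rw [hP.card_eq (h.sylow_of_card hp hd hq (h.card_cent0 hy).1), (h.card_cent0 hy).1]

theorem caseB (h : BSWD K t q r L0 L1) (h0 : ∀ y ∈ L0, rr y = 0) :
    r + 1 = Nat.card K ∧ ∀ y ∈ L1, Nat.card 𝒞[y] = r ∧ rr y ≠ 0 := by
  have s := sum_pairs (G := G) fun _ => (1 : ℤ)
  have dj : Disjoint L0 L1 := disjoint_left.2 fun y h1 h2 => (h.mem_L0.1 h1).1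
    (orderOf_eq_one_iff.1 (Nat.eq_one_of_dvd_coprimes h.co_qr (h.mem_L0.1 h1).2 (h.mem_L1.1 h2).2))
  rw [sum_split K, h.cover, sum_union dj, sum_congr rfl (s₂ := cjs K) fun y hy => by rw [h.rr_eq hy],
    sum_eq_zero (s := L0) fun y hy => by rw [h0 y hy]; simp] at s
  simp only [sum_const, nsmul_eq_mul, mul_one, rr_one, h.card_invs, h.card_cjs, h.f] at s
  have r0 : 0 < r := by have := h.hr; have := h.k4; omega
  have le : ∀ y ∈ L1, rr y ≤ Nat.card 𝒞[y] ∧ Nat.card 𝒞[y] ≤ r := fun y hy => ⟨rr_le y, Nat.le_of_dvd r0 (h.h1 y hy)⟩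
  have le' : ∀ y ∈ L1, (rr y : ℤ) ≤ r := fun y hy => by exact_mod_cast (le y hy).1.trans (le y hy).2
  have s2 := sum_le_sum le'
  have c1 := h.c1
  have hq := h.hq
  have k4 := h.k4
  zify at c1 hq k4 r0
  push_cast at s
  have e : r + 1 = Nat.card K := h.hr.resolve_left fun e => by
    rw [sum_const, nsmul_eq_mul] at s2
    zify at e
    have : (q * r * (4 * Nat.card K) : ℤ) ≤ 0 := by
      linear_combination s + s2 + r * c1 - q * r * (r * hq + (r + Nat.card K + 1) * e)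
    nlinarith [mul_pos (show (0 : ℤ) < q by omega) r0]
  refine ⟨e, fun y hy => ?_⟩
  zify at e
  have := (sum_eq_sum_iff_of_le le').1 (by
    rw [sum_const, nsmul_eq_mul]
    linear_combination -s - r * c1 + q * r * (r * hq + (r + Nat.card K - 1) * e)) y hy
  have := le y hy
  omega

end BSWD

theorem sylow_pcore_of_sol (hp : p.Prime) {M : Subgroup G} (sol : Group.IsSolvable M)
    (h : ∀ s R, s.Prime → s ≠ p → R ≤ M → IsPGrp s R → R ≠ ⊥ → ¬ p ∣ Nat.card (M ⊓ 𝒩(R) : Subgroup G)) :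
    IsSylowOf p (pCoreOf p M) M := by
  rcases (pcore_le {p} M).eq_or_lt with e | e
  · exact sylow_mk e.le (pcore_pGrp p M) (by rw [pCoreOf, e, relIndex_self]; exact hp.not_dvd_one)
  obtain ⟨W, -, hW⟩ := chiefFactor_exists_above (normalIn_refl M) (pcore_norm {p} M) e
  obtain ⟨s, hs, ab⟩ := hW.abelem (sol_of_le sol hW.normal_right.1)
  have i := (piGrp_quot_iff hW.normal.2).1 (abelem_pGrp hs ab)
  have sp : s ≠ p := by
    rintro rfl
    exact hW.lt.not_ge (pcore_max hW.normal_right (IsPiGrp.of_relIndex hW.lt.le (pcore_pGrp s M) i))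
  obtain ⟨R, hR⟩ := sylow_exists hs W
  have e1 := hR.sup_eq_of_index hW.lt.le i
  have e2 := frattini_arg hs hW.normal_right hR
  have R0 : R ≠ ⊥ := fun e => hW.lt.ne (by rw [← e1, e, sup_bot_eq])
  rw [← e1, sup_assoc, sup_eq_right.2 (le_inf (hR.le.trans hW.normal_right.1) le_normalizer)] at e2
  refine sylow_mk e.le (pcore_pGrp p M) fun hd => h s R hs sp (hR.le.trans hW.normal_right.1) hR.pGrp R0 ?_
  nth_rw 2 [← e2] at hd
  rw [relIndex_sup_of_right_le_norm (inf_le_left.trans (pcore_norm _ M))] at hd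
  exact hd.trans (relIndex_dvd_card _ _)

namespace BSWD

variable {q r : ℕ} {L0 L1 : Finset G}

theorem inverts (h : BSWD K t q r L0 L1) {y : G} (hy : y ∈ L0 ∨ y ∈ L1) (h0 : rr y ≠ 0) :
    ∃ u ∈ invs G, ∀ x ∈ 𝒞[y], u * x * u⁻¹ = x⁻¹ := by
  obtain ⟨u, hu, hu'⟩ := rr_ne_zero.1 h0
  exact ⟨u, hu, fun x hx => inv_of_fpf' (mem_invs.1 hu).1 (mem_norm_cent1_of_inv (inv_of_mem_invs hu hu'))
    (h.inf_cent_eq_bot (h.invs_cjs hu) ((h.coprime_cent h.co_f (h.mem_L.1 hy).1 (h.mem_L.1 hy).2).coprime_mul_left_right)) hx⟩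

theorem rr_ne_zero_of_inv (h : BSWD K t q r L0 L1) {y u : G} (hy : y ∈ L0) (hu : u ∈ invs G)
    (e : u * y * u⁻¹ = y⁻¹) : rr y ≠ 0 := by
  refine rr_ne_zero.2 ⟨u, hu, mem_invs.2 ⟨?_, fun e' => (h.mem_L.1 (.inl hy)).2 ?_⟩⟩
  · rw [inv_eq_of_mul_eq_one_right (mem_invs.1 hu).1] at e
    rw [← mul_assoc, e, inv_mul_cancel]
  · rw [← inv_eq_of_mul_eq_one_right e', inv_eq_of_mul_eq_one_right (mem_invs.1 hu).1]
    exact h.invs_cjs hu

theorem not_dvd_norm (h : BSWD K t q r L0 L1) (h0 : ∀ y ∈ L0, rr y = 0) (hp : p.Prime) (hd : p ∣ q)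
    {s : ℕ} (s2 : s ≠ 2) (sq : ¬ s ∣ q) {R : Subgroup G} (hR : IsPGrp s R) (R0 : R ≠ ⊥) :
    ¬ p ∣ Nat.card 𝒩(R) := fun e => by
  have hs := IsPGrp.prime hR R0
  obtain ⟨a, ha, oa⟩ := exists_mem_orderOf_eq hp e
  have aL := h.mem_L0.2 ⟨ne_one_of_orderOf hp oa, oa ▸ hd⟩
  obtain ⟨x, hx, ox⟩ := IsPGrp.exists_orderOf_eq (IsPiGrp.inf_left hR 𝒞(R)) (center_nil_ne_bot (IsPGrp.nil hR) R0)
  have x1 := ne_one_of_orderOf hs ox
  have hRx := mem_cent_iff_le_cent_singleton.1 hx.2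
  by_cases hK : x ∈ cjs K
  · obtain ⟨-, g, hg⟩ := mem_cjs.1 hK
    have g1 : g * x * g⁻¹ ≠ 1 := by simpa using x1
    have h1 : g * (a * x * a⁻¹) * g⁻¹ ∈ 𝒞[t] := h.cent_le hg g1 (by
      rw [← conjg_cent1]; exact conj_mem_conjg g (hRx (conj_mem_of_mem_norm ha hx.1)))
    have h2 : g * (a * x * a⁻¹) * g⁻¹ ∈ K := by_contra fun e => s2 ((Nat.prime_dvd_prime_iff_eq hs Nat.prime_two).1 (by
      rw [← ox, ← orderOf_conj x a, ← orderOf_conj _ g, orderOf_dvd_iff_pow_eq_one, pow_two]; exact h.sq _ h1 e))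
    exact (h.mem_L.1 (.inl aL)).2 ((conj_mem_cjs g).1 (h.cjs_of_cent (h.TI _ _ hg g1 (by
      convert h2 using 1; group)) (by simpa using ne_one_of_orderOf hp oa)))
  have xL := (h.mem_L.2 ⟨x1, hK⟩).resolve_left fun e => sq (ox ▸ (h.mem_L0.1 e).2)
  obtain ⟨-, hB⟩ := h.caseB h0
  obtain ⟨u, hu, inv⟩ := h.inverts (.inr xL) (hB x xL).2
  have cF := abelian_of_inv inv
  have nF : ∀ a ∈ 𝒩(R), a ∈ 𝒩(𝒞[x]) := fun a ha => by
    rw [← conjg_eq_self_iff]
    refine (eq_of_le_of_card_ge ?_ (card_conjg _ _).le).symm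
    rw [conjg_cent1]
    exact (abelian_iff_le_cent.1 cF).trans (cent_le_cent_singleton (hRx (conj_mem_of_mem_norm ha hx.1)))
  have hX : zpowers a ≤ 𝒩(𝒞[x]) := zpowers_le.2 (nF a ha)
  have c1 : u * a * u⁻¹ * a⁻¹ ∈ 𝒞[x] := by
    have h1 := inv _ (conj_mem_of_mem_norm' (nF a ha) (mem_cent_singleton_self x))
    have h2 := inv _ (inv_mem (mem_cent_singleton_self x))
    have h3 : u⁻¹ * (a⁻¹ * x * a) * u = (a⁻¹ * x * a)⁻¹ := by
      rw [inv_eq_of_mul_eq_one_right (mem_invs.1 hu).1] at h1 ⊢; exact h1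
    rw [mem_centralizer_singleton_iff, ← mul_inv_eq_iff_eq_mul, show u * a * u⁻¹ * a⁻¹ * x * (u * a * u⁻¹ * a⁻¹)⁻¹ =
      u * a * (u⁻¹ * (a⁻¹ * x * a) * u) * a⁻¹ * u⁻¹ by group, h3]
    exact Eq.trans (by group) (h2.trans (inv_inv x))
  have nX : u ∈ 𝒩(𝒞[x] ⊔ zpowers a) := by
    refine mem_norm_of_conjg_le ?_
    rw [conjg_sup, conjg_of_mem_norm (mem_norm_cent1_of_inv (inv x (mem_cent_singleton_self x))), conjg_zpowers]
    refine sup_le le_sup_left (zpowers_le.2 ?_)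
    rw [show u * a * u⁻¹ = u * a * u⁻¹ * a⁻¹ * a by group]
    exact mul_mem (mem_sup_left c1) (mem_sup_right (mem_zpowers a))
  refine h.rr_ne_zero_of_inv aL hu (inv_of_fpf' (mem_invs.1 hu).1 nX (h.inf_cent_eq_bot (h.invs_cjs hu) ?_)
    (mem_sup_right (mem_zpowers a))) (h0 a aL)
  refine Nat.Coprime.coprime_dvd_left (card_sup_dvd (.inr hX)) ?_
  rw [(hB x xL).1, Nat.card_zpowers, oa]
  exact h.co_rk.mul_left (h.co_qk.coprime_dvd_left hd)

theorem mem_L0_of_pElt (h : BSWD K t q r L0 L1) (hp : p.Prime) (hd : p ∣ q) (hq : PiNat {p} q) {P : Subgroup G}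
    (hP : IsPGrp p P) {y : G} (hy : y ∈ P) (y1 : y ≠ 1) : y ∈ L0 := by
  obtain ⟨Q, hQ, le⟩ := sylow_superset hp hP le_top
  exact h.mem_L0.2 ⟨y1, h.card_sylow hp hd hq hQ ▸ orderOf_dvd_card_of_mem (le hy)⟩

theorem abelian_sylow (h : BSWD K t q r L0 L1) (hp : p.Prime) (hd : p ∣ q) (hq : PiNat {p} q) {P : Subgroup G}
    (hP : IsSylowOf p P ⊤) : IsMulCommutative P := by
  by_cases h0 : ∀ y ∈ L0, rr y = 0
  swap
  · push Not at h0
    obtain ⟨y, hy, h0⟩ := h0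
    obtain ⟨u, -, inv⟩ := h.inverts (.inl hy) h0
    obtain ⟨g, -, rfl⟩ := sylow_trans hp (h.sylow_of_card hp hd hq (h.card_cent0 hy).1) hP
    exact abelian_conjg.2 (abelian_of_inv inv)
  by_contra nc
  obtain ⟨y, hy, hy'⟩ := SetLike.not_le_iff_exists.1 (mt abelian_iff_le_cent.2 nc)
  have y1 : y ≠ 1 := fun e => hy' (e ▸ one_mem _)
  obtain ⟨D, hD, ⟨P₁, P₂, h1, h2, ne, rfl⟩, max⟩ := exists_max_subgroup
    (P := fun D => ∃ P₁ P₂, IsSylowOf p P₁ ⊤ ∧ IsSylowOf p P₂ ⊤ ∧ P₁ ≠ P₂ ∧ D = P₁ ⊓ P₂)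
    ⟨P, 𝒞[y], hP, h.sylow_of_card hp hd hq (h.card_cent0 (h.mem_L0_of_pElt hp hd hq hP.pGrp hy y1)).1,
      fun e => hy' (mem_cent_iff_le_cent_singleton.2 e.le), rfl⟩
  have yD : y ∈ P₁ ⊓ P₂ := hD ⟨hy, mem_cent_singleton_self y⟩
  have yL := h.mem_L0_of_pElt hp hd hq h1.pGrp yD.1 y1
  have odd : ¬ 2 ∣ Nat.card 𝒩(P₁ ⊓ P₂) := fun e => by
    obtain ⟨u, hu, ou⟩ := exists_mem_orderOf_eq Nat.prime_two e
    have hu' := mem_invs.2 ⟨sq_eq_one_of_orderOf ou, ne_one_of_orderOf Nat.prime_two ou⟩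
    exact h.rr_ne_zero_of_inv yL hu' (inv_of_fpf' (sq_eq_one_of_orderOf ou) hu (h.inf_cent_eq_bot (h.invs_cjs hu')
      (h.co_qk.coprime_dvd_left (h.card_sylow hp hd hq h1 ▸ card_dvd_of_le inf_le_left))) yD) (h0 y yL)
  have hQ := sylow_pcore_of_sol hp (FT.odd_sol (Nat.not_even_iff_odd.1 (mt even_iff_two_dvd.1 odd)))
    fun s R hs sp le hR R0 e => h.not_dvd_norm h0 hp hd (fun e => odd (e ▸ (IsPGrp.dvd_card hR R0).trans
      (card_dvd_of_le le))) (fun e => sp (hq s hs e)) hR R0 (e.trans (card_dvd_of_le inf_le_right))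
  obtain ⟨Q, hQ', le⟩ := sylow_superset hp hQ.pGrp le_top
  have key : ∀ P', IsSylowOf p P' ⊤ → P₁ ⊓ P₂ < P' → P' = Q := fun P' h' lt => by_contra fun e => by
    have h3 := nilpotent_proper_norm (IsPGrp.nil h'.pGrp) lt
    have h4 : P' ⊓ 𝒩(P₁ ⊓ P₂) ≤ P' ⊓ Q := le_inf inf_le_left ((hQ.le_of_normal (pcore_norm _ _)
      (IsPiGrp.inf_left h'.pGrp _) inf_le_right).trans le)
    exact (h3.trans_le h4).ne' (max _ ⟨P', Q, h', hQ', e, rfl⟩ (h3.le.trans h4))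
  refine ne ((key P₁ h1 (lt_of_le_of_ne inf_le_left fun e => ne ?_)).trans
    (key P₂ h2 (lt_of_le_of_ne inf_le_right fun e => ne ?_)).symm)
  · exact (h1.eq_of_le h2.pGrp (inf_eq_left.1 e) le_top).symm
  · exact h2.eq_of_le h1.pGrp (inf_eq_right.1 e) le_top

theorem cent_eq (h : BSWD K t q r L0 L1) (hp : p.Prime) (hd : p ∣ q) (hq : PiNat {p} q) {P : Subgroup G}
    (hP : IsSylowOf p P ⊤) {y : G} (hy : y ∈ P) (y1 : y ≠ 1) : 𝒞[y] = P :=
  (eq_of_le_of_card_ge ((abelian_iff_le_cent.1 (h.abelian_sylow hp hd hq hP)).trans (cent_le_cent_singleton hy))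
    (by rw [(h.card_cent0 (h.mem_L0_of_pElt hp hd hq hP.pGrp hy y1)).1, h.card_sylow hp hd hq hP])).symm

theorem zs (h : BSWD K t q r L0 L1) (hp : p.Prime) (hd : p ∣ q) (hq : PiNat {p} q) {P : Subgroup G}
    (hP : IsSylowOf p P ⊤) : ZS 𝒩(P) P := by
  have TI : ∀ y ∈ P, y ≠ 1 → ∀ g, y ∈ P :^ g → g ∈ 𝒩(P) := fun y hy y1 g hg => conjg_eq_self_iff.1
    ((h.cent_eq hp hd hq (hP.conjg_of_mem (mem_top g)) hg y1).symm.trans (h.cent_eq hp hd hq hP hy y1))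
  refine ⟨le_normalizer, le_rfl, reg_of_TI hP TI, ?_⟩
  have h1 := P14.ncard_classSupport_TI (A := (P : Set G) \ {1}) (L := 𝒩(P)) fun a ha g =>
    ⟨fun e => inv_mem_iff.1 (TI a ha.1 ha.2 _ (mem_conjg_inv.2 e.1)),
      fun e => ⟨conj_mem_of_mem_norm e ha.1, by simpa using ha.2⟩⟩
  have h2 : classSupport ((P : Set G) \ {1}) ⊤ = L0 := Set.ext fun y => ⟨fun ⟨a, ha, g, _, e⟩ =>
    e ▸ h.mem_L0_of_pElt hp hd hq (IsPiGrp.conjg hP.pGrp g) (conj_mem_conjg g ha.1) (by simpa using ha.2),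
    fun hy => by
      obtain ⟨g, -, hg⟩ := sylow_subJ hp hP (piGrp_zpowers_iff.2 (hq.of_dvd (h.mem_L0.1 hy).2)) le_top
      obtain ⟨a, ha, rfl⟩ := mem_conjg'.1 (hg (mem_zpowers y))
      exact ⟨a, ⟨ha, by simpa using (h.mem_L0.1 hy).1⟩, g, trivial, rfl⟩⟩
  rw [h2, Set.ncard_coe_finset, Set.ncard_diff_singleton_of_mem (by exact one_mem P), ← Nat.card_coe_set_eq,
    SetLike.coe_sort_coe, h.card_sylow hp hd hq hP] at h1
  rw [h.card_sylow hp hd hq hP]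
  have h3 := h.c0
  obtain ⟨m, rfl⟩ : ∃ m, q = m + 1 := ⟨q - 1, by have := h.hq; have := h.k4; omega⟩
  refine Nat.eq_of_mul_eq_mul_left (show 0 < m by have := h.hq; have := h.k4; omega) ?_
  rw [add_tsub_cancel_right] at h1
  nlinarith

theorem inter_facts (h : BSWD K t q r L0 L1) (hp : p.Prime) (hd : p ∣ q) (hq : PiNat {p} q) {P : Subgroup G}
    (hP : IsSylowOf p P ⊤) {g : G} (hg : g ∉ 𝒩(P)) : Semiregular P (𝒩(P) :^ g ⊓ 𝒩(P)) ∧
      2 * Nat.card (𝒩(P) :^ g ⊓ 𝒩(P) : Subgroup G) + 1 = q := by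
  have z := h.zs hp hd hq hP
  refine ⟨fun x hx x1 => eq_bot_iff.2 fun y hy => by_contra fun y1 => x1 ?_, ?_⟩
  · exact (z.reg g hg).le ⟨hx.1, h.cent_eq hp hd hq hP hy.1 y1 ▸ mem_cent_singleton_comm.1 hy.2⟩
  have h1 := z.card_inter hg
  have h2 := card_mul_index 𝒩(P)
  have h3 := h.sq_q
  rw [← h1, z.index, h.card_sylow hp hd hq hP, h.card_G] at h2
  have q0 : 0 < q := by have := h.hq; have := h.k4; omega
  refine Nat.eq_of_mul_eq_mul_left (show 0 < q * (q + 1) by positivity) ?_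
  linear_combination 2 * h2 - q * h3

theorem exists_fixed (h : BSWD K t q r L0 L1) (hp : p.Prime) (hd : p ∣ q) (hq : PiNat {p} q) {P : Subgroup G}
    (hP : IsSylowOf p P ⊤) {x : G} (hx : x ∈ 𝒩(P)) (ox : (orderOf x).Prime) (hx' : ¬ orderOf x ∣ q) :
    ∃ g ∉ 𝒩(P), x ∈ 𝒩(P) :^ g := by
  by_contra! e
  have h1 := dvd_ncard_compl (Ω := G ⧸ 𝒩(P)) ox
  have h2 := moved_add_fixed 𝒩(P) x
  have h3 : fixedBy (G ⧸ 𝒩(P)) x = {((1 : G) : G ⧸ 𝒩(P))} := Set.ext fun a => by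
    obtain ⟨g, rfl⟩ := QuotientGroup.mk_surjective a
    rw [mem_fixedBy_coset, Set.mem_singleton_iff, coset_eq_one]
    exact ⟨fun e' => by_contra fun e'' => e g e'' e', fun e' => by rwa [conjg_of_mem e']⟩
  rw [(h.zs hp hd hq hP).index, h.card_sylow hp hd hq hP] at h2
  nth_rw 2 [h3] at h2
  rw [Set.ncard_singleton, add_left_inj] at h2
  exact hx' (h2 ▸ h1)

theorem exists_equiv [IsSimpleGroup G] (h : BSWD K t q r L0 L1) :
    ∃ (F : Type) (_ : Field F) (_ : Fintype F), Fintype.card F = q ∧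
      Nonempty (G ≃* Matrix.ProjectiveSpecialLinearGroup (Fin 2) F) := by
  obtain ⟨p, hp, hd, hq⟩ := h.exists_prime
  suffices H : ∃ P D w, IsSylowOf p P ⊤ ∧ w ∈ invs G ∧ w ∉ 𝒩(P) ∧ D ≤ 𝒩(P) ∧ 2 * Nat.card D + 1 = q ∧
      ∀ d ∈ D, w * d * w⁻¹ = d⁻¹ by
    obtain ⟨P, D, w, hP, hw, hw', le, oD, inv⟩ := H
    obtain ⟨h1, h2⟩ := h.inter_facts hp hd hq hP hw'
    have e : D = 𝒩(P) :^ w ⊓ 𝒩(P) := eq_of_le_of_card_ge (fun d hd => ⟨by
      rw [← inv_inv d, ← inv _ (inv_mem hd)]; exact conj_mem_conjg w (le (inv_mem hd)), le hd⟩) (by omega)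
    rw [← h.card_sylow hp hd hq hP] at h2 ⊢
    exact (h.zs hp hd hq hP).exists_equiv_psl (h.abelian_sylow hp hd hq hP) (mem_invs.1 hw).1 hw' h1 h2 (e ▸ inv)
  have oB : ∀ P, IsSylowOf p P ⊤ → ∃ m, 2 * m + 1 = q ∧ Nat.card 𝒩(P) = m * q := fun P hP => by
    obtain ⟨g, -, hg⟩ := SetLike.exists_of_lt (h.zs hp hd hq hP).ne_top.lt_top
    exact ⟨_, (h.inter_facts hp hd hq hP hg).2, by rw [← (h.zs hp hd hq hP).card_inter hg, h.card_sylow hp hd hq hP]⟩
  obtain ⟨P, hP⟩ := sylow_exists hp (⊤ : Subgroup G)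
  have hq' := h.hq
  rcases h.hr with e | e
  · obtain ⟨m, hm, oN⟩ := oB P hP
    obtain rfl : m = Nat.card K := by omega
    obtain ⟨u, hu, ou⟩ := exists_mem_orderOf_eq Nat.prime_two (oN ▸ h.two_dvd.mul_right q)
    obtain ⟨a, ha⟩ := isConj_iff.1 (h.isConj u (sq_eq_one_of_orderOf ou) (ne_one_of_orderOf Nat.prime_two ou)).symm
    have hP' := hP.conjg_of_mem (mem_top a)
    have ht : t ∈ 𝒩(P :^ a) := by rw [← conjg_norm, ← ha]; exact conj_mem_conjg a hu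
    generalize P :^ a = P at hP' ht
    have ot := orderOf_two h.t2 h.t1
    obtain ⟨g, hg, htg⟩ := h.exists_fixed hp hd hq hP' ht (ot ▸ Nat.prime_two) (ot ▸ h.odd_q)
    obtain ⟨semi, oD⟩ := h.inter_facts hp hd hq hP' hg
    have inv : ∀ u ∈ 𝒩(P) :^ g ⊓ 𝒩(P), u * u = 1 → u ≠ 1 → ∀ y ∈ P, u * y * u⁻¹ = y⁻¹ := fun u hu u2 u1 y hy =>
      inv_of_fpf' u2 hu.2 (semi u hu u1) hy
    have uniq : ∀ u ∈ 𝒩(P) :^ g ⊓ 𝒩(P), u * u = 1 → u ≠ 1 → u = t := fun u hu u2 u1 => by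
      rw [← inv_eq_of_mul_eq_one_right h.t2]
      exact eq_inv_of_mul_eq_one_left ((h.zs hp hd hq hP').eq_one_of_cent hg (mul_mem hu ⟨htg, ht⟩)
        (mul_mem_cent_of_inv (inv u hu u2 u1) (inv t ⟨htg, ht⟩ h.t2 h.t1)))
    have le : 𝒩(P) :^ g ⊓ 𝒩(P) ≤ K := fun d hd => by
      have h1 : d ∈ 𝒞[t] := by
        have := mem_invs.1 ((conj_mem_invs d).2 (mem_invs.2 ⟨h.t2, h.t1⟩))
        rw [mem_centralizer_singleton_iff, ← mul_inv_eq_iff_eq_mul]
        exact uniq _ (mul_mem (mul_mem hd ⟨htg, ht⟩) (inv_mem hd)) this.1 this.2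
      by_contra e
      exact e (uniq d hd (h.sq d h1 e) (fun e' => e (e' ▸ one_mem K)) ▸ h.tK)
    have eK := eq_of_le_of_card_ge le (by omega)
    obtain ⟨w, hw, hw'⟩ := h.exists_w
    refine ⟨P, K, w, hP', mem_invs.2 ⟨h.sq w hw hw', fun e => hw' (e ▸ one_mem K)⟩, fun hN => ?_,
      eK ▸ inf_le_right, hm, fun d hd => h.inv hw hw' hd⟩
    have h1 : 𝒞[t] ≤ 𝒩(P) := fun x hx => by
      by_cases hx' : x ∈ K
      · exact (eK.ge hx').2
      · exact (mul_mem_cancel_right hN).1 (eK.ge (mul_mem_of_relIndex_two h.index hx hw hx' hw')).2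
    obtain ⟨m, hm', oN'⟩ := oB P hP'
    have h2 := card_dvd_of_le h1
    rw [oN', h.card_cent, show m = Nat.card K by omega, mul_comm 2] at h2
    exact h.odd_q (Nat.dvd_of_mul_dvd_mul_left Nat.card_pos h2)
  · have odd : ∀ P, IsSylowOf p P ⊤ → ∀ u ∈ invs G, u ∉ 𝒩(P) := fun P hP u hu hN => by
      obtain ⟨m, hm, oN⟩ := oB P hP
      have := orderOf_dvd_card_of_mem hN
      rw [orderOf_two (mem_invs.1 hu).1 (mem_invs.1 hu).2, oN, show m = r by omega, Nat.prime_two.dvd_mul] at this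
      exact this.elim h.odd_r h.odd_q
    obtain ⟨-, hB⟩ := h.caseB fun y hy => by_contra fun e => by
      obtain ⟨u, hu, inv⟩ := h.inverts (.inl hy) e
      exact odd _ (h.sylow_of_card hp hd hq (h.card_cent0 hy).1) u hu
        (mem_norm_cent1_of_inv (inv y (mem_cent_singleton_self y)))
    obtain ⟨g, -, hg⟩ := SetLike.exists_of_lt (h.zs hp hd hq hP).ne_top.lt_top
    obtain ⟨-, oD⟩ := h.inter_facts hp hd hq hP hg
    have le : 𝒩(P) :^ g ⊓ 𝒩(P) ≤ 𝒩(P) := inf_le_right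
    generalize 𝒩(P) :^ g ⊓ 𝒩(P) = D at oD le
    have oD' : Nat.card D = r := by omega
    have mL : ∀ x ∈ D, x ≠ 1 → x ∈ L1 := fun x hx x1 => h.mem_L1.2 ⟨x1, oD' ▸ orderOf_dvd_card_of_mem hx⟩
    obtain ⟨s, V, -, hV, V0, ab, -, nV⟩ := exists_norm_abelem (K := D) (A := D)
      (fun e => by have := h.k4; rw [e, card_bot] at oD'; omega)
      (FT.odd_sol (Nat.not_even_iff_odd.1 (mt even_iff_two_dvd.1 (oD' ▸ h.odd_r)))) le_normalizer
    obtain ⟨x, hx, x1⟩ := exists_mem_ne_one V0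
    have xL := mL x (hV hx) x1
    obtain ⟨u, hu, inv⟩ := h.inverts (.inr xL) (hB x xL).2
    have nF : D ≤ 𝒩(𝒞[x]) := fun a ha => by
      rw [← conjg_eq_self_iff]
      refine (eq_of_le_of_card_ge ?_ (card_conjg _ _).le).symm
      rw [conjg_cent1]
      exact (abelian_iff_le_cent.1 (abelian_of_inv inv)).trans (cent_le_cent_singleton
        ((abelian_iff_le_cent.1 ab.1).trans (cent_le_cent_singleton hx) (conj_mem_of_mem_norm (nV ha) hx)))
    have le' : D ≤ 𝒞[x] := le_of_coprime_relIndex nF le_rfl (by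
      have h1 := card_mul_index 𝒞[x]
      rw [(hB x xL).1, h.card_G, show q * (2 * Nat.card K * r) = r * (q * (2 * Nat.card K)) by ring] at h1
      refine Nat.Coprime.coprime_dvd_right (relIndex_dvd_index_of_le le_normalizer) ?_
      rw [Nat.eq_of_mul_eq_mul_left (oD' ▸ Nat.card_pos) h1, oD']
      exact h.co_qr.symm.mul_right ((Nat.prime_two.coprime_iff_not_dvd.2 h.odd_r).symm.mul_right h.co_rk))
    exact ⟨P, D, u, hP, hu, odd P hP u hu, le, oD, fun d hd => inv d (le' hd)⟩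

end BSWD

/-- the Brauer-Suzuki-Wall theorem -/
theorem BSW.exists_equiv [IsSimpleGroup G] (h : BSW K t) :
    ∃ (F : Type) (_ : Field F) (_ : Fintype F), Odd (Fintype.card F) ∧
      Nonempty (G ≃* Matrix.ProjectiveSpecialLinearGroup (Fin 2) F) := by
  by_cases hk : Nat.card K = 2
  · have hG : ¬ IsMulCommutative G := not_comm_of_card fun e => by
      have := (Nat.dvd_prime e).1 (show 2 ∣ Nat.card G by rw [h.card_eq, mul_assoc]; exact Dvd.intro _ rfl)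
      have := h.card_eq
      rw [hk] at this
      omega
    have h1 := h.card_lt (der_top_eq hG) hk
    obtain ⟨e⟩ := equiv_A5 hG (by have := card_simple_le hG (by omega); omega)
    obtain ⟨e'⟩ := Cfsg.Agent.Lin.psl2_five_equiv
    have : Fact (Nat.Prime 5) := ⟨by norm_num⟩
    exact ⟨ZMod 5, inferInstance, inferInstance, by simp; decide, ⟨e.trans e'.symm⟩⟩
  · obtain ⟨q, r, L0, L1, hD⟩ := h.exists_data hk
    obtain ⟨F, _, _, h1, h2⟩ := hD.exists_equiv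
    exact ⟨F, _, _, h1 ▸ Nat.not_even_iff_odd.1 (mt even_iff_two_dvd.1 hD.odd_q), h2⟩

theorem eq_of_cyclic_inv {Z : Subgroup G} (cZ : IsCyclic Z) {u : G} (hu : u ∈ Z) (ht : t ∈ Z) (u2 : u * u = 1)
    (u1 : u ≠ 1) (t2 : t * t = 1) (t1 : t ≠ 1) : u = t := by
  have e := eq_of_cyclic_of_card_eq cZ (zpowers_le.2 hu) (zpowers_le.2 ht)
    (by rw [Nat.card_zpowers, Nat.card_zpowers, orderOf_two u2 u1, orderOf_two t2 t1])
  obtain ⟨n, rfl⟩ := mem_powers_iff_mem_zpowers.2 (e.le (mem_zpowers u))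
  rcases Nat.even_or_odd' n with ⟨m, rfl | rfl⟩
  · exact (u1 (by simp only [pow_mul, pow_two, t2, one_pow])).elim
  · simp only [pow_succ, pow_mul, pow_zero, one_mul, t2, one_pow]

theorem IsDih.sq_of_cyclic {S Z : Subgroup G} {c : G} (h : IsDih S c) (hZ : Z ≤ S) (cZ : IsCyclic Z)
    (i : Z.relIndex S = 2) {s : G} (hs : s ∈ S) (hs' : s ∉ Z) : s * s = 1 := by
  by_contra e
  have hc : s ∈ zpowers c := by_contra fun e' => e (h.sq s hs e')
  have h1 := card_mul_relIndex hZ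
  have h2 := card_mul_relIndex (zpowers_le.2 h.mem)
  rw [i] at h1
  rw [h.index] at h2
  obtain ⟨z, -, rfl⟩ := cyclic_iff_eq_zpowers.1 cZ
  have h3 : z ∉ zpowers c := fun e => hs' ((eq_of_le_of_card_ge (zpowers_le.2 e) (by omega)).ge hc)
  have h4 := orderOf_dvd_of_pow_eq_one ((pow_two z).trans (h.sq z (hZ (mem_zpowers z)) h3))
  rw [← Nat.card_zpowers, show Nat.card (zpowers z) = Nat.card (zpowers c) by omega] at h4
  exact e ((pow_two s).symm.trans (orderOf_dvd_iff_pow_eq_one.1 ((orderOf_dvd_card_of_mem hc).trans h4)))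

theorem BSW.of_core (hG : ⁅(⊤ : Subgroup G), (⊤ : Subgroup G)⁆ = ⊤) {S Z O : Subgroup G} (hS : IsSylowOf 2 S ⊤)
    (ot : orderOf t = 2) (hSt : S ≤ 𝒞[t]) (hO : IsPiHallOf {2}ᶜ O 𝒞[t]) (nO : 𝒞[t] ≤ 𝒩(O)) (hZ : Z ≤ S)
    (cZ : IsCyclic Z) (iZ : Z.relIndex S = 2) (tZ : t ∈ Z) (cO : Z ≤ 𝒞(O)) (sq : ∀ s ∈ S, s ∉ Z → s * s = 1)
    (inv : ∀ s ∈ S, s ∉ Z → ∀ y ∈ O, s * y * s⁻¹ = y⁻¹)
    (hc : ∀ y ∈ O, y ≠ 1 → 𝒞[y] ≤ 𝒞[t]) : BSW (Z ⊔ O) t := by
  have t2 := sq_eq_one_of_orderOf ot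
  have t1 := ne_one_of_orderOf Nat.prime_two ot
  have hS' := hS.of_le hSt le_top
  have le : Z ⊔ O ≤ 𝒞[t] := sup_le (hZ.trans hSt) hO.le
  have odd : ∀ y ∈ O, y * y = 1 → y = 1 := fun y hy e =>
    (pElt_of_pow_eq_one Nat.prime_two ((pow_two y).trans e)).eq_one (hO.piGrp.piElt hy)
  have sq' : ∀ x ∈ 𝒞[t], x ∉ Z ⊔ O → x * x = 1 := fun x hx hx' => by
    rw [← hS'.sup_compl hO, mem_sup_of_left_le_norm (hSt.trans nO)] at hx
    obtain ⟨s, hs, y, hy, rfl⟩ := hx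
    have h1 : s ∉ Z := fun e => hx' (mul_mem_sup e hy)
    rw [show s * y * (s * y) = s * y * s⁻¹ * (s * s) * y by group, inv s hs h1 y hy, sq s hs h1]; group
  have uniq : ∀ u ∈ Z ⊔ O, u * u = 1 → u ≠ 1 → u = t := fun u hu u2 u1 => by
    obtain ⟨z, hz, y, hy, rfl⟩ := (mem_sup_of_left_le_norm (norm_of_cent cO)).1 hu
    rw [show z * y * (z * y) = z * (y * z) * y by group, ← comm_of_le_cent cO hz hy,
      show z * (z * y) * y = z * z * (y * y) by group] at u2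
    have h1 : y * y = 1 := ((IsPiGrp.of_le hS.pGrp hZ).inf_eq_bot hO.piGrp).le
      ⟨by rw [eq_inv_of_mul_eq_one_right u2]; exact Z.inv_mem (mul_mem hz hz), mul_mem hy hy⟩
    rw [h1, mul_one] at u2
    rw [odd y hy h1, mul_one] at u1 ⊢
    exact eq_of_cyclic_inv cZ hz tZ u2 u1 t2 t1
  have fix : ∀ g, g * t * g⁻¹ ∈ Z ⊔ O → g ∈ 𝒞[t] := fun g hg => by
    have := mem_invs.1 ((conj_mem_invs g).2 (mem_invs.2 ⟨t2, t1⟩))
    rw [mem_centralizer_singleton_iff, ← mul_inv_eq_iff_eq_mul]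
    exact uniq _ hg this.1 this.2
  refine ⟨t2, t1, mem_sup_left tZ, le, ?_, sq', fun g x hx x1 hg => ?_, fun u u2 u1 => ?_⟩
  · have h1 := card_mul_relIndex le
    have h2 := card_mul_relIndex hZ
    rw [card_sup_of_inf_eq_bot (.inl (norm_of_cent cO)) ((IsPiGrp.of_le hS.pGrp hZ).inf_eq_bot hO.piGrp),
      ← hS'.card_mul_card hO, ← h2, iZ, mul_right_comm _ 2] at h1
    exact Nat.eq_of_mul_eq_mul_left (Nat.mul_pos Nat.card_pos Nat.card_pos) h1
  · by_cases ox : 2 ∣ orderOf x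
    · obtain ⟨y, hy, y2, y1⟩ := exists_inv_mem_zpowers ox
      rw [uniq y (zpowers_le.2 hx hy) y2 y1] at hy
      exact fix g (zpowers_le.2 hg (by rw [← conjg_zpowers]; exact conj_mem_conjg g hy))
    have h1 : g * x * g⁻¹ ∈ O := hO.mem_of_normal nO
      (IsPiElt.conj ((piNat_compl_singleton_iff Nat.prime_two).2 ox) g) (le hg)
    have h2 : g * x * g⁻¹ ≠ 1 := by simpa using x1
    have h3 : g * t * g⁻¹ ∈ 𝒞[g * x * g⁻¹] := by
      rw [← conjg_cent1]; exact conj_mem_conjg g (mem_cent_singleton_comm.1 (le hx))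
    refine fix g (by_contra fun e => h2 (odd _ h1 ?_))
    have h4 := hc _ h1 h2 h3
    have h5 := sq' _ (mul_mem h4 (le hg)) fun e' => e ((mul_mem_cancel_right hg).1 e')
    rw [mem_centralizer_singleton_iff] at h3
    have h6 := sq' _ h4 e
    generalize g * x * g⁻¹ = a at *
    generalize g * t * g⁻¹ = b at *
    rwa [mul_assoc, ← mul_assoc a, ← h3, mul_assoc, ← mul_assoc b, h6, one_mul] at h5
  · obtain ⟨g, hg⟩ := exists_mem_conj_of_index hG (H := Z) (fun e => by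
      rw [← relIndex_mul_index hZ, iZ] at e
      have := hS.not_dvd_index Nat.prime_two
      rw [relIndex_top_right] at this
      omega) u2
    have := mem_invs.1 ((conj_mem_invs g⁻¹).2 (mem_invs.2 ⟨u2, u1⟩))
    rw [inv_inv] at this
    exact isConj_iff.2 ⟨g, by rw [← eq_of_cyclic_inv cZ hg tZ this.1 this.2 t2 t1]; group⟩

theorem brauer_suzuki_wall [IsSimpleGroup G] {S O : Subgroup G} {c : G} (hS : IsSylowOf 2 S ⊤) (h : IsDih S c)
    (c1 : c ≠ 1) (ot : orderOf t = 2) (tS : t ∈ S) (hSt : S ≤ 𝒞[t]) (hO : O = pPrimeCoreOf 2 𝒞[t])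
    (ha : O ≠ ⊥ → IsCyclic (S ⊓ 𝒞(O) : Subgroup G) ∧ (S ⊓ 𝒞(O)).relIndex S = 2)
    (hb : ∀ s ∈ S, s ∉ 𝒞(O) → ∀ y ∈ O, s * y * s⁻¹ = y⁻¹) (hc : ∀ y ∈ O, y ≠ 1 → 𝒞[y] ≤ 𝒞[t]) :
    ∃ (F : Type) (_ : Field F) (_ : Fintype F), Odd (Fintype.card F) ∧
      Nonempty (G ≃* Matrix.ProjectiveSpecialLinearGroup (Fin 2) F) := by
  have h1 := card_mul_relIndex (zpowers_le.2 h.mem)
  rw [h.index, Nat.card_zpowers] at h1
  have h2 : 1 < orderOf c := by have := mt orderOf_eq_one_iff.1 c1; have := orderOf_pos c; omega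
  have hG : ¬ IsMulCommutative G := not_comm_of_card fun e => by
    have := Nat.le_of_dvd Nat.card_pos (card_subgroup_dvd_card S)
    have := (Nat.dvd_prime e).1 ((Dvd.intro_left _ h1).trans (card_subgroup_dvd_card S))
    omega
  have hall := hO ▸ h.hall_core hS ot
  have nO : 𝒞[t] ≤ 𝒩(O) := hO ▸ pcore_norm _ _
  suffices H : ∃ Z, Z ≤ S ∧ IsCyclic Z ∧ Z.relIndex S = 2 ∧ t ∈ Z ∧ Z ≤ 𝒞(O) ∧
      ∀ s ∈ S, s ∉ Z → ∀ y ∈ O, s * y * s⁻¹ = y⁻¹ by
    obtain ⟨Z, a1, a2, a3, a4, a5, a6⟩ := H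
    exact (BSW.of_core (der_top_eq hG) hS ot hSt hall nO a1 a2 a3 a4 a5
      (fun s hs hs' => h.sq_of_cyclic a1 a2 a3 hs hs') a6 hc).exists_equiv
  by_cases O0 : O = ⊥
  · have e : ∀ s y : G, y ∈ O → s * y * s⁻¹ = y⁻¹ := fun s y hy => by
      rw [O0, mem_bot] at hy; simp [hy]
    have e' : ∀ Z : Subgroup G, Z ≤ 𝒞(O) := fun Z => by rw [O0, cent_bot]; exact le_top
    by_cases tc : t ∈ zpowers c
    · exact ⟨_, zpowers_le.2 h.mem, cyclic_zpowers c, h.index, tc, e' _, fun s _ _ => e s⟩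
    refine ⟨_, zpowers_le.2 tS, cyclic_zpowers t, ?_, mem_zpowers t, e' _, fun s _ _ => e s⟩
    have h3 := h.sq _ (mul_mem tS h.mem) fun e => tc ((mul_mem_cancel_right (mem_zpowers c)).1 e)
    rw [mul_assoc, ← mul_assoc c, mem_centralizer_singleton_iff.1 (hSt h.mem), mul_assoc, ← mul_assoc,
      sq_eq_one_of_orderOf ot, one_mul] at h3
    have h4 := card_mul_relIndex (zpowers_le.2 tS)
    rw [Nat.card_zpowers, ot, ← h1, orderOf_two h3 c1] at h4
    omega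
  · exact ⟨_, inf_le_left, (ha O0).1, (ha O0).2, ⟨tS, mem_cent_iff_le_cent_singleton.2 hall.le⟩, inf_le_right,
      fun s hs hs' => hb s hs fun e => hs' ⟨hs, e⟩⟩

end CA.Dih
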