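/-
2-groups with exactly three involutions, permuted by an automorphism of odd order (G. Higman).
-/
import Cfsg.Agent.Dih.BSW2
import Cfsg.Agent.TG.Four

set_option autoImplicit false
set_option linter.unusedSectionVars false

namespace CA.Dih

open Subgroup Cfsg CA.FG CA.BG MulAction
open scoped commutatorElement IsMulCommutative

universe u v

theorem levi_ring {R : Type*} [Ring R] {Y Z : R} (hY : Y * Y = 0) (hZ : Z * Z = 0)
    (h : ((1 + Y) * (1 + Z) - 1) * ((1 + Y) * (1 + Z) - 1) = 0) :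
    Y * Z + Z * Y = 0 ∧ (1 + Y) * (1 + Z) * (1 - Y) * (1 - Z) - 1 = Y * Z + Y * Z := by
  have h1 : Y * Z * Y * (1 + Z) = 0 := by
    linear_combination (norm := noncomm_ring) Y * h - hY * (Y + Z + Y * Z + Z * Y + Z * Z + Z * Y * Z)
      - Y * hZ
  have h2 : Y * Z * Y = 0 := by
    linear_combination (norm := noncomm_ring) h1 * (1 - Z) + Y * Z * Y * hZ
  have h3 : (1 + Y) * (Z * Y * Z) = 0 := by
    linear_combination (norm := noncomm_ring) h * Z - (Y + Z + Y * Z) * (1 + Y) * hZ - hY * Z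
  have h4 : Z * Y * Z = 0 := by
    linear_combination (norm := noncomm_ring) (1 - Y) * h3 + hY * (Z * Y * Z)
  have h5 : Y * Z + Z * Y = 0 := by
    linear_combination (norm := noncomm_ring) h - hY - hZ - hY * Z - Y * hZ - h2 - h4 - h2 * Z
  refine ⟨h5, ?_⟩
  linear_combination (norm := noncomm_ring) - h5 - hY - hZ + hY * Z - h2 + h4 - Y * hZ + h2 * Z

theorem levi_inv {R : Type*} [Ring R] {A Y : R} (e : A * (1 + Y) = 1) (h : Y * Y = 0) : A = 1 - Y := by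
  linear_combination (norm := noncomm_ring) e * (1 - Y) + A * h

/-- Levi's theorem on groups in which every element commutes with its conjugates. -/
theorem levi {H : Type u} [Group H] (h : ∀ x g : H, Commute x (g * x * g⁻¹)) (a y z : H) :
    ⁅a, ⁅y, z⁆⁆ ^ 3 = 1 := by
  have key : ∀ a y z : H, ⁅y, ⁅z, a⁆⁆ * ⁅z, ⁅y, a⁆⁆ = 1 ∧ ⁅⁅y, z⁆, a⁆ = ⁅y, ⁅z, a⁆⁆ * ⁅y, ⁅z, a⁆⁆ := by
    intro a y z
    let A := normalClosure ({a} : Set H)
    have hc : ∀ x ∈ Group.conjugatesOfSet ({a} : Set H), ∃ g, x = g * a * g⁻¹ := fun x hx => by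
      obtain ⟨b, rfl, hb⟩ := Group.mem_conjugatesOfSet_iff.1 hx
      obtain ⟨g, rfl⟩ := isConj_iff.1 hb
      exact ⟨g, rfl⟩
    have cA : IsMulCommutative A := by
      refine abelian_iff_le_cent.2 ((closure_le _).2 fun x hx => mem_cent_iff_le_cent_singleton.2
        ((closure_le _).2 fun w hw => mem_centralizer_singleton_iff.2 ?_))
      obtain ⟨g, rfl⟩ := hc x hx
      obtain ⟨k, rfl⟩ := hc w hw
      have := (h (k * a * k⁻¹) (g * k⁻¹)).eq
      convert this using 1 <;> group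
    let ρ : MulAut A →* AddMonoid.End (Additive A) :=
      { toFun := fun a => MonoidHom.toAdditive a.toMonoidHom
        map_one' := rfl
        map_mul' := fun a b => rfl }
    let u : H →* AddMonoid.End (Additive A) := ρ.comp MulAut.conjNormal
    have ap : ∀ (w : H) (b : Additive A), (((u w - 1) b).toMul : H) = ⁅w, (b.toMul : H)⁆ := fun w b => by
      change w * b.toMul * w⁻¹ / b.toMul = _
      rw [div_eq_mul_inv, commutatorElement_def]
    have sq : ∀ w, (u w - 1) * (u w - 1) = 0 := fun w => by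
      refine AddMonoidHom.ext fun b => Additive.toMul.injective (Subtype.ext ?_)
      change (((u w - 1) ((u w - 1) b)).toMul : H) = 1
      rw [ap, ap, commutatorElement_eq_one_iff_commute, commutatorElement_def]
      have := (Commute.refl w).mul_right (h w b.toMul).inv_right
      rwa [show w * ((b.toMul : H) * w * (b.toMul : H)⁻¹)⁻¹ = w * b.toMul * w⁻¹ * (b.toMul : H)⁻¹ by group] at this
    have iv : ∀ w, u w⁻¹ = 1 - (u w - 1) := fun w => by
      refine levi_inv ?_ (sq w)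
      rw [add_sub_cancel, ← map_mul, inv_mul_cancel, map_one]
    obtain ⟨h1, h2⟩ := levi_ring (sq y) (sq z) (by simpa using sq (y * z))
    rw [← iv, ← iv, add_sub_cancel, add_sub_cancel, ← map_mul, ← map_mul, ← map_mul] at h2
    let b : Additive A := Additive.ofMul ⟨a, subset_normalClosure rfl⟩
    have e1 := congrArg (fun f : AddMonoid.End (Additive A) => ((f b).toMul : H)) h1
    have e2 := congrArg (fun f : AddMonoid.End (Additive A) => ((f b).toMul : H)) h2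
    change (((u y - 1) ((u z - 1) b)).toMul : H) * (((u z - 1) ((u y - 1) b)).toMul : H) = 1 at e1
    change (((u _ - 1) b).toMul : H) =
      (((u y - 1) ((u z - 1) b)).toMul : H) * (((u y - 1) ((u z - 1) b)).toMul : H) at e2
    simp only [ap] at e1 e2
    exact ⟨e1, e2⟩
  have i3 : ∀ a u : H, ⁅a, u⁻¹⁆ = ⁅a, u⁆⁻¹ := fun a u => by
    have := (h u a).inv_right.eq
    simp only [commutatorElement_def]
    calc _ = (a * u * a⁻¹)⁻¹ * u := by group
      _ = _ := by rw [← this]; group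
  have e1 : ⁅y, ⁅z, a⁆⁆ = ⁅a, ⁅y, z⁆⁆ := by
    rw [← commutatorElement_inv a z, i3]
    exact inv_eq_of_mul_eq_one_left (key z a y).1
  have e2 := (key a y z).2
  rw [e1, ← commutatorElement_inv] at e2
  rw [pow_three', ← e2, inv_mul_cancel]

variable {G : Type u} [Group G] [Finite G]

/-- B. H. Neumann: fixed-point-free automorphisms of order three. -/
theorem neumann {T : Subgroup G} {ρ : G} (nT : ρ ∈ 𝒩(T)) (h3 : ρ ^ 3 ∈ 𝒞(T)) (fpf : T ⊓ 𝒞[ρ] = ⊥)
    (co : ¬ 3 ∣ Nat.card T) :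
    (∀ x ∈ T, x * (ρ * x * ρ⁻¹) * (ρ * (ρ * x * ρ⁻¹) * ρ⁻¹) = 1) ∧ (∀ x ∈ T, Commute x (ρ * x * ρ⁻¹)) ∧
      ⁅T, T⁆ ≤ 𝒞(T) := by
  have h1 : ∀ x ∈ T, x * (ρ * x * ρ⁻¹) * (ρ * (ρ * x * ρ⁻¹) * ρ⁻¹) = 1 := fun x hx => by
    obtain ⟨y, hy, rfl⟩ := P03.fpf_surj nT fpf hx
    calc _ = (y * ρ ^ 3) * y⁻¹ * (ρ ^ 3)⁻¹ := by rw [pow_three']; group
      _ = 1 := by rw [mem_centralizer_iff.1 h3 y hy]; group
  have h2 : ∀ x ∈ T, Commute x (ρ * x * ρ⁻¹) := fun x hx => by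
    have e1 := eq_inv_of_mul_eq_one_left (h1 x hx)
    have e2 := eq_inv_of_mul_eq_one_left (h1 _ (inv_mem hx))
    rw [Commute, SemiconjBy, e1, ← inv_inj]
    calc _ = (ρ * (ρ * x⁻¹ * ρ⁻¹) * ρ⁻¹)⁻¹ := by group
      _ = _ := by rw [← e2]; group
  have h4 : ∀ x ∈ T, ∀ g ∈ T, Commute x (g * (ρ * x * ρ⁻¹) * g⁻¹) := fun x hx g hg => by
    obtain ⟨y, hy, rfl⟩ := P03.fpf_surj nT fpf hg
    have := (h2 _ (mul_mem (mul_mem (inv_mem hy) hx) hy)).conj y
    convert this using 1 <;> group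
  have h5 : ∀ x g : T, Commute x (g * x * g⁻¹) := fun x g => by
    have e := eq_inv_of_mul_eq_one_left ((mul_assoc _ _ _).symm.trans (h1 x x.2))
    have m := conj_mem_of_mem_norm nT (conj_mem_of_mem_norm nT x.2)
    have c := (h4 _ m _ (inv_mem g.2)).conj g
    have e3 : ρ * (ρ * (ρ * x * ρ⁻¹) * ρ⁻¹) * ρ⁻¹ = x := by
      calc _ = ρ ^ 3 * x * (ρ ^ 3)⁻¹ := by rw [pow_three']; group
        _ = _ := by rw [← mem_centralizer_iff.1 h3 _ x.2, mul_inv_cancel_right]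
    rw [e3, show (g : G) * ((g : G)⁻¹ * x * (g : G)⁻¹⁻¹) * (g : G)⁻¹ = x by group] at c
    have := ((h4 x x.2 g g.2).mul_right c.symm).inv_right
    refine Subtype.ext ?_
    change (x : G) * (g * x * (g : G)⁻¹) = g * x * (g : G)⁻¹ * x
    convert this.eq using 2 <;> (nth_rewrite 1 [e]; group)
  refine ⟨h1, h2, commutator_le.2 fun y hy z hz => mem_centralizer_iff.2 fun a ha => ?_⟩
  have h6 := levi h5 ⟨a, ha⟩ ⟨y, hy⟩ ⟨z, hz⟩
  have h7 : ⁅(⟨a, ha⟩ : T), ⁅(⟨y, hy⟩ : T), (⟨z, hz⟩ : T)⁆⁆ = 1 := by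
    rw [← orderOf_eq_one_iff]
    exact Nat.eq_one_of_dvd_coprimes ((Nat.Prime.coprime_iff_not_dvd Nat.prime_three).2 co)
      (orderOf_dvd_of_pow_eq_one h6) (orderOf_dvd_natCard _)
  exact congrArg Subtype.val (commutatorElement_eq_one_iff_mul_comm.1 h7)

theorem four_cases {V : Subgroup G} (h4 : Nat.card V = 4) (sq : ∀ v ∈ V, v * v = 1) {a b w : G} (ha : a ∈ V)
    (hb : b ∈ V) (a1 : a ≠ 1) (b1 : b ≠ 1) (ab : a ≠ b) (hw : w ∈ V) : w = 1 ∨ w = a ∨ w = b ∨ w = a * b := by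
  have := CA.TG.Four.kleinFour_iff.2 ⟨h4, fun x hx => by rw [pow_two, sq x hx]⟩
  by_contra h
  push Not at h
  exact h.2.2.2 (congrArg Subtype.val (IsKleinFour.eq_mul_of_ne_all (x := (⟨a, ha⟩ : V)) (y := ⟨b, hb⟩)
    (z := ⟨w, hw⟩) (fun e => a1 (congrArg Subtype.val e)) (fun e => b1 (congrArg Subtype.val e))
    (fun e => ab (congrArg Subtype.val e)) (fun e => h.1 (congrArg Subtype.val e))
    (fun e => h.2.1 (congrArg Subtype.val e)) fun e => h.2.2.1 (congrArg Subtype.val e)))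

theorem mem_zpowers_two {t y : G} (h : t * t = 1) (hy : y ∈ zpowers t) : y = 1 ∨ y = t := by
  obtain ⟨k, rfl⟩ := hy
  have h2 : t ^ (2 : ℤ) = 1 := by rw [zpow_two, h]
  rcases Int.even_or_odd' k with ⟨m, rfl | rfl⟩
  · left; simp only [zpow_mul, h2, one_zpow]
  · right; simp only [zpow_add, zpow_mul, h2, one_zpow, one_mul, zpow_one]

theorem relIndex_sup_zpowers_le {H : Subgroup G} {x : G} (hx : x ∈ 𝒩(H)) (h2 : x * x ∈ H) :
    H.relIndex (H ⊔ zpowers x) ≤ 2 := by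
  rw [relIndex_sup_of_right_le_norm (zpowers_le.2 hx)]
  refine (relIndex_le_of_le_left (zpowers_le.2 h2) (relIndex_pos _ _).ne').trans ?_
  have h := card_mul_relIndex (zpowers_le.2 (mul_mem (mem_zpowers x) (mem_zpowers x)))
  rw [Nat.card_zpowers, Nat.card_zpowers, ← pow_two, orderOf_pow' _ two_ne_zero] at h
  have h1 : orderOf x / (orderOf x).gcd 2 * (orderOf x).gcd 2 = orderOf x := Nat.div_mul_cancel (Nat.gcd_dvd_left _ _)
  have h3 : 0 < orderOf x / (orderOf x).gcd 2 := Nat.pos_of_ne_zero fun e => by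
    rw [e, zero_mul] at h1; exact (orderOf_pos x).ne h1
  rw [← pow_two, Nat.eq_of_mul_eq_mul_left h3 (h.trans h1.symm)]
  exact Nat.gcd_le_right _ two_pos

theorem card_sup_zpowers_le {H : Subgroup G} {x : G} (hx : x ∈ 𝒩(H)) (h2 : x * x ∈ H) :
    Nat.card (H ⊔ zpowers x : Subgroup G) ≤ Nat.card H * 2 := by
  rw [← card_mul_relIndex (le_sup_left : H ≤ H ⊔ zpowers x)]
  exact Nat.mul_le_mul_left _ (relIndex_sup_zpowers_le hx h2)

theorem sq_mul_eq (x y : G) : x * y * (x * y) = x * x * ⁅x⁻¹, y⁆ * (y * y) := by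
  rw [commutatorElement_def]; group

theorem comm_mul_right {x y z : G} (h : y * ⁅x, z⁆ = ⁅x, z⁆ * y) : ⁅x, y * z⁆ = ⁅x, y⁆ * ⁅x, z⁆ := by
  calc _ = ⁅x, y⁆ * (y * ⁅x, z⁆) * y⁻¹ := by simp only [commutatorElement_def]; group
    _ = _ := by rw [h]; group

theorem comm_mul_left {x y z : G} (h : x * ⁅y, z⁆ = ⁅y, z⁆ * x) : ⁅x * y, z⁆ = ⁅y, z⁆ * ⁅x, z⁆ := by
  calc _ = (x * ⁅y, z⁆) * x⁻¹ * ⁅x, z⁆ := by simp only [commutatorElement_def]; group
    _ = _ := by rw [h]; group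

theorem comm_mem {C : Subgroup G} {x y : G} (hx : x ∈ C) (hy : y ∈ C) : ⁅x, y⁆ ∈ C :=
  der_le C (commutator_mem_commutator hx hy)

theorem sq_index {C Z V : Subgroup G} (hVZ : V ≤ Z) (hZC : Z ≤ C) (hc : C ≤ 𝒞(Z)) (h2 : ∀ x ∈ C, x * x ∈ Z)
    (hd : ∀ x ∈ C, ∀ y ∈ C, ⁅x, y⁆ ∈ V) (h4 : Nat.card V = 4)
    (inv : ∀ x ∈ C, x * x = 1 → x ∈ V) (hsq : ∀ v ∈ V, ∃ w ∈ Z, w * w = v) : Z.relIndex C ≤ 4 := by
  have cZ : IsMulCommutative Z := abelian_iff_le_cent.2 (hZC.trans hc)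
  let s : Z →* Z := powMonoidHom 2
  let φ : C →* Z ⧸ s.range := MonoidHom.mk' (fun x => QuotientGroup.mk ⟨x * x, h2 x x.2⟩) fun x y => by
    obtain ⟨w, hw, e⟩ := hsq _ (hd _ (inv_mem x.2) _ y.2)
    have : (⟨(x * y : C) * (x * y : C), h2 _ (x * y).2⟩ : Z) =
        ⟨x * x, h2 x x.2⟩ * s ⟨w, hw⟩ * ⟨y * y, h2 y y.2⟩ := Subtype.ext (by
      change (x : G) * y * (x * y) = x * x * w ^ 2 * (y * y)
      rw [sq_mul_eq, pow_two, e])
    rw [this, QuotientGroup.mk_mul, QuotientGroup.mk_mul, (QuotientGroup.eq_one_iff (N := s.range) (s _)).2 ⟨_, rfl⟩, mul_one]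
  have hk : φ.ker ≤ Z.subgroupOf C := fun x hx => by
    obtain ⟨w, hw⟩ := (QuotientGroup.eq_one_iff _).1 hx
    have e : (w : G) ^ 2 = x * x := congrArg Subtype.val hw
    have c := comm_of_le_cent hc x.2 (inv_mem w.2)
    have := hVZ (inv _ (mul_mem x.2 (hZC (inv_mem w.2))) (by
      calc _ = (x : G) * ((w : G)⁻¹ * x) * (w : G)⁻¹ := by group
        _ = _ := by rw [← c, ← mul_assoc, ← e]; group))
    exact mem_subgroupOf.2 (by simpa using mul_mem this w.2)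
  have hs : s.ker ≤ V.subgroupOf Z := fun x hx =>
    mem_subgroupOf.2 (inv _ (hZC x.2) (by rw [← pow_two]; exact congrArg Subtype.val hx))
  calc _ ≤ φ.ker.index := Nat.le_of_dvd (index_pos _) (index_dvd_of_le hk)
    _ = Nat.card φ.range := index_ker φ
    _ ≤ Nat.card (Z ⧸ s.range) := card_le_card_group _
    _ = Nat.card s.ker := index_range
    _ ≤ Nat.card (V.subgroupOf Z) := card_le_of_le hs
    _ = 4 := by rw [card_subgroupOf hVZ, h4]

theorem cent_index {C V : Subgroup G} (hc : C ≤ 𝒞(V)) (hd : ∀ x ∈ C, ∀ y ∈ C, ⁅x, y⁆ ∈ V) {x : G} (hx : x ∈ C) :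
    (C ⊓ 𝒞[x]).relIndex C ≤ Nat.card V := by
  let ψ : C →* V := MonoidHom.mk' (fun y => ⟨⁅x, y⁆, hd _ hx _ y.2⟩) fun y z =>
    Subtype.ext (comm_mul_right (comm_of_le_cent hc y.2 (hd _ hx _ z.2)))
  have hk : ψ.ker ≤ (C ⊓ 𝒞[x]).subgroupOf C := fun y hy => mem_subgroupOf.2 ⟨y.2,
    mem_centralizer_singleton_iff.2 (commutatorElement_eq_one_iff_mul_comm.1 (congrArg Subtype.val hy)).symm⟩
  calc _ ≤ ψ.ker.index := Nat.le_of_dvd (index_pos _) (index_dvd_of_le hk)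
    _ = Nat.card ψ.range := index_ker ψ
    _ ≤ _ := card_le_card_group _

theorem exists_not_mem_of_relIndex_lt {D E U : Subgroup G} (h : D.relIndex E < D.relIndex U) : ∃ y ∈ U, y ∉ E := by
  by_contra hn
  push Not at hn
  exact h.not_ge (relIndex_le_of_le_right hn (relIndex_pos _ _).ne')

theorem relIndex_le_32 {C V : Subgroup G} (hVC : V ≤ C) (hc : C ≤ 𝒞(V)) (h2 : ∀ x ∈ C, x * x ∈ V)
    (hd : ∀ x ∈ C, ∀ y ∈ C, ⁅x, y⁆ ∈ V) (h4 : Nat.card V = 4) (sq : ∀ v ∈ V, v * v = 1)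
    (inv : ∀ x ∈ C, x * x = 1 → x ∈ V) : V.relIndex C ≤ 32 := by
  by_cases hCV : C ≤ V
  · rw [relIndex_eq_one.2 hCV]; norm_num
  obtain ⟨x, hx, hxV⟩ := SetLike.not_le_iff_exists.1 hCV
  have nrm : ∀ X, V ≤ X → X ≤ C → C ≤ 𝒩(X) := fun X h1 h2 =>
    norm_of_comm_le h2 ((commutator_le.2 hd).trans h1)
  have i1 := relIndex_sup_zpowers_le (nrm V le_rfl hVC hx) (h2 x hx)
  have i3 := cent_index hc hd hx
  obtain ⟨D, hD⟩ : ∃ D, D = V ⊔ zpowers x := ⟨_, rfl⟩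
  rw [← hD] at i1
  have VD : V ≤ D := hD ▸ le_sup_left
  have xD : x ∈ D := hD ▸ mem_sup_right (mem_zpowers x)
  have sD : D ≤ C ⊓ 𝒞[x] := hD ▸ sup_le (le_inf hVC (mem_cent_iff_le_cent_singleton.1 (hc hx)))
    (zpowers_le.2 ⟨hx, mem_cent_singleton_self x⟩)
  have i2 : D.relIndex (C ⊓ 𝒞[x]) ≤ 4 := by
    by_contra hn
    have hM : (zpowers (x * x)).relIndex V = 2 := by
      have := card_mul_relIndex (zpowers_le.2 (h2 x hx))
      rw [Nat.card_zpowers, orderOf_two (sq _ (h2 x hx)) fun e => hxV (inv x hx e), h4] at this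
      omega
    have k1 : ∀ y ∈ C ⊓ 𝒞[x], y ∉ D → y * y ∉ zpowers (x * x) := fun y hy hyD hm => by
      rcases mem_zpowers_two (sq _ (h2 x hx)) hm with e | e
      · exact hyD (VD (inv y hy.1 e))
      · have := VD (inv _ (mul_mem hx hy.1) (by
          rw [sq_mul_eq, commutatorElement_eq_one_iff_mul_comm.2
            (Commute.inv_left (mem_centralizer_singleton_iff.1 hy.2).symm), mul_one, e]
          exact sq _ (h2 x hx)))
        exact hyD ((mul_mem_cancel_left xD).1 this)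
    have k2 : ∀ y ∈ C ⊓ 𝒞[x], ∀ z ∈ C ⊓ 𝒞[x], y ∉ D → z ∉ D → y * z ∉ D → ⁅y⁻¹, z⁆ ∉ zpowers (x * x) :=
      fun y hy z hz h1 h2' h3 hm => by
        refine k1 _ (mul_mem hy hz) h3 ?_
        rw [sq_mul_eq, mul_assoc, ← comm_of_le_cent hc (mul_mem hz.1 hz.1) (hd _ (inv_mem hy.1) _ hz.1),
          ← mul_assoc]
        exact mul_mem (mul_mem_of_relIndex_two hM (h2 y hy.1) (h2 z hz.1) (k1 y hy h1) (k1 z hz h2')) hm
    obtain ⟨y, hy, yD⟩ := exists_not_mem_of_relIndex_lt (D := D) (E := D) (U := C ⊓ 𝒞[x])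
      (by rw [relIndex_self]; omega)
    have sC := sD.trans inf_le_left
    have j1 := relIndex_sup_zpowers_le (nrm D VD sC hy.1) (VD (h2 y hy.1))
    obtain ⟨z, hz, zD⟩ := exists_not_mem_of_relIndex_lt (D := D) (E := D ⊔ zpowers y) (U := C ⊓ 𝒞[x]) (by omega)
    have j2 := relIndex_sup_zpowers_le (nrm (D ⊔ zpowers y) (VD.trans le_sup_left) (sup_le sC (zpowers_le.2 hy.1)) hz.1)
      (mem_sup_left (VD (h2 z hz.1)))
    have j3 := relIndex_mul_relIndex D (D ⊔ zpowers y) (D ⊔ zpowers y ⊔ zpowers z) le_sup_left le_sup_left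
    obtain ⟨w, hw, wD⟩ := exists_not_mem_of_relIndex_lt (D := D) (E := D ⊔ zpowers y ⊔ zpowers z)
      (U := C ⊓ 𝒞[x]) (by rw [← j3]; exact (Nat.mul_le_mul j1 j2).trans_lt (by omega))
    have my : y ∈ D ⊔ zpowers y := mem_sup_right (mem_zpowers y)
    have mz : z ∈ D ⊔ zpowers y ⊔ zpowers z := mem_sup_right (mem_zpowers z)
    refine k2 y hy _ (mul_mem hz hw) yD (fun h => wD ((mul_mem_cancel_left mz).1 (mem_sup_left (mem_sup_left h))))
      (fun h => wD ((mul_mem_cancel_left mz).1 ((mul_mem_cancel_left (mem_sup_left my)).1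
        (mem_sup_left (mem_sup_left h))))) ?_
    rw [comm_mul_right (comm_of_le_cent hc hz.1 (hd _ (inv_mem hy.1) _ hw.1))]
    exact mul_mem_of_relIndex_two hM (hd _ (inv_mem hy.1) _ hz.1) (hd _ (inv_mem hy.1) _ hw.1)
      (k2 y hy z hz yD (fun h => zD (mem_sup_left h)) fun h => zD ((mul_mem_cancel_left my).1 (mem_sup_left h)))
      (k2 y hy w hw yD (fun h => wD (mem_sup_left (mem_sup_left h))) fun h =>
        wD (mem_sup_left ((mul_mem_cancel_left my).1 (mem_sup_left h))))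
  rw [← relIndex_mul_relIndex V (C ⊓ 𝒞[x]) C (VD.trans sD) inf_le_left, ← relIndex_mul_relIndex V D _ VD sD]
  rw [h4] at i3
  exact Nat.mul_le_mul (Nat.mul_le_mul i1 i2) i3

end CA.Dih
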