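/-
2-groups with exactly three involutions, permuted by an automorphism of odd order (G. Higman), II.
-/
import Cfsg.Agent.Dih.Rk2A
import Cfsg.Agent.BG.P02b
import Cfsg.Agent.BG.P04b

set_option autoImplicit false
set_option linter.unusedSectionVars false

namespace CA.Dih

open Subgroup Cfsg CA.FG CA.BG MulAction
open scoped commutatorElement IsMulCommutative

universe u v

variable {G : Type u} [Group G] [Finite G]

/-- a 3-element acting on a 2-group all of whose involutions lie in a central four-group -/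
structure H4 (T V : Subgroup G) (ρ : G) : Prop where
  pT : IsPGrp 2 T
  VT : V ≤ T
  cV : T ≤ 𝒞(V)
  h4 : Nat.card V = 4
  sq : ∀ v ∈ V, v * v = 1
  inv : ∀ x ∈ T, x * x = 1 → x ∈ V
  nT : ρ ∈ 𝒩(T)
  p3 : IsPiElt {3} ρ
  fpf : ∀ v ∈ V, MulAut.conj ρ v = v → v = 1

theorem nine_dvd {K : Subgroup G} {ρ : G} (nK : ρ ∈ 𝒩(K)) (p3 : IsPiElt {3} ρ) :
    9 ∣ Nat.card K - Nat.card (K ⊓ 𝒞[ρ ^ 3] : Subgroup G) := by
  letI : MulAction G (ConjAct G) := MulAction.compHom G (MulAut.conj (G := G))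
  haveI : Finite (ConjAct G) := ‹Finite G›
  have sm : ∀ (a : G) (x : ConjAct G), a • x = (a * ConjAct.ofConjAct x * a⁻¹ : G) := fun _ _ => rfl
  have h := dvd_ncard_of_orbits (G := G) (Ω := ConjAct G) (A := zpowers ρ)
    (S := ((K : Set G) \ (𝒞[ρ ^ 3] : Subgroup G) : Set G)) (d := 9)
    (fun a ha x hx => ⟨conj_mem_of_mem_norm (zpowers_le.2 nK ha) hx.1, fun h => hx.2 (by
      have := conj_mem_of_mem_norm' (le_normalizer (cent_singleton_le_pow ρ 3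
          (mem_cent_singleton_comm.1 (cent_singleton_le_of_mem_zpowers ha (mem_cent_singleton_self ρ))))) h
      rwa [sm, show a⁻¹ * (a * ConjAct.ofConjAct x * a⁻¹) * a = ConjAct.ofConjAct x by group] at this)⟩)
    fun x hx => by
    obtain ⟨n, hn⟩ := (pGrp_iff_card Nat.prime_three).1 (piGrp_zpowers_iff.2 p3)
    obtain ⟨k, -, hk⟩ := (Nat.dvd_prime_pow Nat.prime_three).1 (hn ▸ relIndex_dvd_card (stabilizer G x) (zpowers ρ))
    rw [hk]
    refine pow_dvd_pow 3 (show 2 ≤ k from not_lt.1 fun h2 => hx.2 ?_)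
    have h1 : ρ ^ (stabilizer G x).relIndex (zpowers ρ) ∈ stabilizer G x :=
      ((stabilizer G x).subgroupOf (zpowers ρ)).pow_index_mem ⟨ρ, mem_zpowers ρ⟩
    have h3 : ρ ^ 3 ∈ stabilizer G x := by
      obtain ⟨c, hc⟩ : 3 ^ k ∣ 3 ^ 1 := pow_dvd_pow 3 (by omega)
      rw [← pow_one 3, hc, pow_mul, ← hk]
      exact pow_mem h1 c
    exact mem_centralizer_singleton_iff.2 (mul_inv_eq_iff_eq_mul.1 h3).symm
  have h1 := ncard_diff_add (Ω := G) K (𝒞[ρ ^ 3] : Subgroup G)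
  change 9 ∣ (K : Set G).ncard - ((K : Set G) ∩ (𝒞[ρ ^ 3] : Subgroup G)).ncard
  rw [← h1, Nat.add_sub_cancel]
  exact h

namespace H4

variable {T V : Subgroup G} {ρ : G}

theorem mapT (h : H4 T V ρ) {x : G} (hx : x ∈ T) : MulAut.conj ρ x ∈ T := conj_mem_of_mem_norm h.nT hx

theorem mapV (h : H4 T V ρ) {x : G} (hx : x ∈ V) : MulAut.conj ρ x ∈ V :=
  h.inv _ (h.mapT (h.VT hx)) (by rw [← map_mul, h.sq x hx, map_one])

theorem fpfT (h : H4 T V ρ) {x : G} (hx : x ∈ T) (e : MulAut.conj ρ x = x) : x = 1 := by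
  by_contra h1
  obtain ⟨y, ⟨k, rfl⟩, y2, y1⟩ := exists_inv_of_piElt (h.pT.piElt hx) h1
  exact y1 (h.fpf _ (h.inv _ (zpow_mem hx k) y2) (by rw [map_zpow, e]))

theorem inf_cent (h : H4 T V ρ) : T ⊓ 𝒞[ρ] = ⊥ :=
  eq_bot_iff.2 fun _ hx => h.fpfT hx.1 (mul_inv_eq_iff_eq_mul.2 (mem_centralizer_singleton_iff.1 hx.2).symm)

theorem commV (h : H4 T V ρ) {x v : G} (hx : x ∈ T) (hv : v ∈ V) : x * v = v * x := comm_of_le_cent h.cV hx hv

theorem cases (h : H4 T V ρ) {v w : G} (hv : v ∈ V) (v1 : v ≠ 1) (hw : w ∈ V) :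
    w = 1 ∨ w = v ∨ w = MulAut.conj ρ v ∨ w = v * MulAut.conj ρ v :=
  four_cases h.h4 h.sq hv (h.mapV hv) v1 (fun e => v1 ((MulAut.conj ρ).map_eq_one_iff.1 e))
    (fun e => v1 (h.fpf v hv e.symm)) hw

theorem ssV (h : H4 T V ρ) {v : G} (hv : v ∈ V) : MulAut.conj ρ (MulAut.conj ρ v) = v * MulAut.conj ρ v := by
  by_cases v1 : v = 1
  · simp only [v1, map_one, mul_one]
  rcases h.cases hv v1 (h.mapV (h.mapV hv)) with e | e | e | e
  · exact absurd ((MulAut.conj ρ).map_eq_one_iff.1 ((MulAut.conj ρ).map_eq_one_iff.1 e)) v1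
  · have := h.fpf _ (mul_mem hv (h.mapV hv)) (by rw [map_mul, e, h.commV (h.VT hv) (h.mapV hv)])
    exact absurd (h.fpf v hv (mul_left_cancel (this.trans (h.sq v hv).symm))) v1
  · exact absurd (h.fpf v hv ((MulAut.conj ρ).injective e)) v1
  · exact e

theorem conj3 (ρ x : G) : MulAut.conj ρ (MulAut.conj ρ (MulAut.conj ρ x)) = ρ ^ 3 * x * (ρ ^ 3)⁻¹ := by
  simp only [MulAut.conj_apply]; rw [pow_three']; group

theorem cubeV (h : H4 T V ρ) : ρ ^ 3 ∈ 𝒞(V) := mem_centralizer_iff.2 fun v hv => by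
  refine (mul_inv_eq_iff_eq_mul.1 ?_).symm
  rw [← conj3, h.ssV hv, map_mul, h.ssV hv, ← mul_assoc, ← h.commV (h.VT hv) (h.mapV hv), mul_assoc,
    h.sq _ (h.mapV hv), mul_one]

theorem sq_all (h : H4 T V ρ) {Z : Subgroup G} (hZ : Z ≤ T) (nZ : ρ ∈ 𝒩(Z)) (hn : ¬ Z ≤ V) :
    ∀ v ∈ V, ∃ w ∈ Z, w * w = v := by
  obtain ⟨x, hx, xV⟩ := SetLike.not_le_iff_exists.1 hn
  obtain ⟨y, ⟨k, rfl⟩, y2, y1⟩ := exists_inv_of_piElt (h.pT.piElt (hZ (mul_mem hx hx))) fun e => xV (h.inv x (hZ hx) e)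
  have e : (x * x) ^ k = x ^ k * x ^ k := (Commute.refl x).mul_zpow k
  have hy := h.inv _ (hZ (zpow_mem (mul_mem hx hx) k)) y2
  have m := conj_mem_of_mem_norm nZ (zpow_mem hx k)
  intro v hv
  rcases h.cases hy y1 hv with rfl | rfl | rfl | rfl
  · exact ⟨1, one_mem _, mul_one _⟩
  · exact ⟨_, zpow_mem hx k, e.symm⟩
  · exact ⟨MulAut.conj ρ (x ^ k), m, by rw [← map_mul, ← e]⟩
  · exact ⟨MulAut.conj ρ (MulAut.conj ρ (x ^ k)), conj_mem_of_mem_norm nZ m, by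
      rw [← map_mul, ← map_mul, ← e, h.ssV hy]⟩

theorem co (h : H4 T V ρ) {H : Subgroup G} (hH : H ≤ T) : (Nat.card H).Coprime (Nat.card (zpowers (ρ ^ 3))) :=
  (h.pT.of_le hH).coprime_of_ne (piGrp_zpowers_iff.2 (h.p3.pow 3)) (by norm_num)

theorem cube (h : H4 T V ρ) : ρ ^ 3 ∈ 𝒞(T) := by
  obtain ⟨K, chK, hΦ, hT, hC⟩ := Thompson_critical h.pT
  have KT := chK.le
  have pK := h.pT.of_le KT
  have nK : ρ ∈ 𝒩(K) := chK.norm_le h.nT
  have nZ : ρ ∈ 𝒩(𝒵(K)) := (charIn_center K).norm_le nK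
  have VZ : V ≤ 𝒵(K) := hC ▸ le_inf h.VT (le_cent_symm (KT.trans h.cV))
  have ZT : 𝒵(K) ≤ T := inf_le_left.trans KT
  have cZ : zpowers (ρ ^ 3) ≤ 𝒞(𝒵(K)) :=
    coprime_abelian_pgroup_faithful_Ohm1 (h.pT.of_le ZT) (zpowers_le.2 (pow_mem nZ 3)) (h.co ZT) (abelian_inf_cent K)
      (zpowers_le.2 (cent_anti (ohm1_le_iff.2 fun x hx e => h.inv x (ZT hx) (by rw [← pow_two, e])) h.cubeV))
  have h2 : ∀ x ∈ K, x * x ∈ 𝒵(K) := fun x hx => hΦ (pow_two x ▸ pow_mem_Phi pK hx)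
  have c2 : ⁅K, K⁆ ≤ 𝒞(K) := ((commutator_mono KT le_rfl).trans hT).trans inf_le_right
  have hd : ∀ x ∈ K, ∀ y ∈ K, ⁅x, y⁆ ∈ V := fun x hx y hy => h.inv _ (KT (comm_mem hx hy)) (by
    rw [← pow_two, ← mul_one 2, ← P02.comm_pow_pow_of_central c2 hx hy, pow_one, pow_two,
      commutatorElement_eq_one_iff_mul_comm]
    exact (mem_centralizer_iff.1 (h2 x hx).2 y hy).symm)
  have hi : (𝒵(K)).relIndex K ≤ 32 := by
    by_cases hn : 𝒵(K) ≤ V
    · rw [le_antisymm hn VZ]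
      exact relIndex_le_32 (VZ.trans inf_le_left) (KT.trans h.cV) (fun x hx => hn (h2 x hx)) hd h.h4 h.sq
        fun x hx => h.inv x (KT hx)
    · exact (sq_index VZ inf_le_left (le_cent_symm inf_le_right) h2 hd h.h4 (fun x hx => h.inv x (KT hx))
        (h.sq_all ZT nZ hn)).trans (by norm_num)
  have hD : K ≤ 𝒞[ρ ^ 3] := by
    have h9 := nine_dvd nK h.p3
    have hi' : (K ⊓ 𝒞[ρ ^ 3]).relIndex K ≤ 32 := (relIndex_le_of_le_left (le_inf inf_le_left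
      (mem_cent_iff_le_cent_singleton.1 (zpowers_le.1 cZ))) (relIndex_pos _ _).ne').trans hi
    have e := card_mul_relIndex (inf_le_left : K ⊓ 𝒞[ρ ^ 3] ≤ K)
    obtain ⟨n, hn⟩ := (pGrp_iff_card Nat.prime_two).1 pK
    obtain ⟨j, -, hj⟩ := (Nat.dvd_prime_pow Nat.prime_two).1 (hn ▸ relIndex_dvd_card (K ⊓ 𝒞[ρ ^ 3]) K)
    rw [← e, ← Nat.mul_sub_one] at h9
    have h9' := Nat.Coprime.dvd_of_dvd_mul_left (IsPGrp.coprime_of_not_dvd (pK.inf_left _) (by norm_num)).symm h9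
    rw [hj] at h9' hi'
    have : j ≤ 5 := (Nat.pow_le_pow_iff_right one_lt_two).1 hi'
    refine le_trans (relIndex_eq_one.1 ?_) (inf_le_right (a := K))
    rw [hj]
    interval_cases j <;> simp_all
  exact zpowers_le.1 (critical_p_stab KT (hC ▸ inf_le_left) chK.normalIn.2 (zpowers_le.2 (pow_mem h.nT 3))
    (h.co le_rfl) (zpowers_le.2 (mem_cent_iff_le_cent_singleton.2 hD)))

theorem neu (h : H4 T V ρ) : (∀ x ∈ T, x * MulAut.conj ρ x * MulAut.conj ρ (MulAut.conj ρ x) = 1) ∧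
    (∀ x ∈ T, Commute x (MulAut.conj ρ x)) ∧ ⁅T, T⁆ ≤ 𝒞(T) :=
  neumann h.nT h.cube h.inf_cent fun e =>
    (Nat.Prime.coprime_iff_not_dvd Nat.prime_three).1 (h.pT.coprime_of_not_dvd (by norm_num)).symm e

theorem cenc (h : H4 T V ρ) {x y z : G} (hx : x ∈ T) (hy : y ∈ T) (hz : z ∈ T) : z * ⁅x, y⁆ = ⁅x, y⁆ * z :=
  mem_centralizer_iff.1 (h.neu.2.2 (commutator_mem_commutator hx hy)) z hz

theorem cmr (h : H4 T V ρ) {x y z : G} (hx : x ∈ T) (hy : y ∈ T) (hz : z ∈ T) : ⁅x, y * z⁆ = ⁅x, y⁆ * ⁅x, z⁆ :=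
  comm_mul_right (h.cenc hx hz hy)

theorem cml (h : H4 T V ρ) {x y z : G} (hx : x ∈ T) (hy : y ∈ T) (hz : z ∈ T) : ⁅x * y, z⁆ = ⁅x, z⁆ * ⁅y, z⁆ := by
  rw [comm_mul_left (h.cenc hy hz hx), h.cenc hx hz (comm_mem hy hz)]

theorem cil (h : H4 T V ρ) {x y : G} (hx : x ∈ T) (hy : y ∈ T) : ⁅x⁻¹, y⁆ = ⁅x, y⁆⁻¹ :=
  eq_inv_of_mul_eq_one_left (by rw [← h.cml (inv_mem hx) hx hy, inv_mul_cancel, commutatorElement_one_left])

theorem c0 (h : H4 T V ρ) {x : G} (hx : x ∈ T) : ⁅x, MulAut.conj ρ x⁆ = 1 :=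
  commutatorElement_eq_one_iff_commute.2 (h.neu.2.1 x hx)

theorem sss (h : H4 T V ρ) {x : G} (hx : x ∈ T) : MulAut.conj ρ (MulAut.conj ρ (MulAut.conj ρ x)) = x := by
  rw [conj3, ← mem_centralizer_iff.1 h.cube x hx, mul_inv_cancel_right]

theorem c1 (h : H4 T V ρ) {x y : G} (hx : x ∈ T) (hy : y ∈ T) : ⁅MulAut.conj ρ x, y⁆ = ⁅x, MulAut.conj ρ y⁆ := by
  have e := h.c0 (mul_mem hx hy)
  rw [map_mul, h.cml hx hy (mul_mem (h.mapT hx) (h.mapT hy)), h.cmr hx (h.mapT hx) (h.mapT hy),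
    h.cmr hy (h.mapT hx) (h.mapT hy), h.c0 hx, h.c0 hy, one_mul, mul_one] at e
  rw [eq_inv_of_mul_eq_one_left e, commutatorElement_inv]

theorem c2 (h : H4 T V ρ) {x y : G} (hx : x ∈ T) (hy : y ∈ T) :
    ⁅x, MulAut.conj ρ y⁆ = MulAut.conj ρ (MulAut.conj ρ ⁅x, y⁆) := by
  have hd := comm_mem hx (h.mapT hy)
  have e := congrArg (fun w => ⁅MulAut.conj ρ x, w⁆) (h.neu.1 y hy)
  simp only [commutatorElement_one_right] at e
  rw [h.cmr (h.mapT hx) (mul_mem hy (h.mapT hy)) (h.mapT (h.mapT hy)), h.cmr (h.mapT hx) hy (h.mapT hy), h.c1 hx hy,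
    ← map_commutatorElement, ← map_commutatorElement, mul_assoc, ← map_mul, h.cenc hx hy hd |>.symm,
    map_mul, ← mul_assoc, ← h.neu.1 _ hd, mul_right_inj, (MulAut.conj ρ).apply_eq_iff_eq] at e
  rw [e, h.sss hd]

theorem fpf2 (h : H4 T V ρ) {x : G} (hx : x ∈ T) (e : MulAut.conj ρ (MulAut.conj ρ x) = x) : x = 1 :=
  h.fpfT hx (by rw [← e, h.sss hx, e])

theorem no_beta (h : H4 T V ρ) {a b : G} (ha : a ∈ T) (hb : b ∈ T) (e1 : a * a = ⁅a, b⁆) (e2 : b * b = ⁅a, b⁆) :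
    ⁅a, b⁆ = 1 := by
  have hv : ⁅a, b⁆ ∈ V := h.inv _ (comm_mem ha hb) (by
    rw [← h.cml ha ha hb, e1, ← e2]; exact commutatorElement_eq_one_iff_mul_comm.2 (mul_assoc _ _ _))
  have h1 := h.inv _ (mul_mem ha (h.mapT hb)) (by
    rw [sq_mul_eq, h.cil ha (h.mapT hb), h.c2 ha hb, ← map_mul, e1, e2, h.ssV hv, mul_inv_rev,
      ← h.commV (h.VT (inv_mem hv)) (inv_mem (h.mapV hv))]
    group)
  have h2 := commutatorElement_eq_one_iff_mul_comm.2 (h.commV ha h1)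
  rw [h.cmr ha ha (h.mapT hb), commutatorElement_self, one_mul, h.c2 ha hb] at h2
  exact (MulAut.conj ρ).map_eq_one_iff.1 ((MulAut.conj ρ).map_eq_one_iff.1 h2)

end H4

theorem mem_sup_zpowers_two {H : Subgroup G} {x y : G} (hx : x ∈ 𝒩(H)) (h2 : x * x ∈ H) (hy : y ∈ H ⊔ zpowers x) :
    y ∈ H ∨ x⁻¹ * y ∈ H := by
  by_cases xH : x ∈ H
  · exact Or.inl (sup_le le_rfl (zpowers_le.2 xH) hy)
  refine or_iff_not_imp_left.2 fun yH => mul_mem_of_relIndex_two (le_antisymm (relIndex_sup_zpowers_le hx h2)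
    (one_lt_relIndex fun e => xH (e (mem_sup_right (mem_zpowers x))))) (inv_mem (mem_sup_right (mem_zpowers x))) hy
    (fun e => xH (inv_mem_iff.1 e)) yH

theorem le_of_relIndex_four {Z W : Subgroup G} {x y : G} (ZW : Z ≤ W) (hx : x ∈ W) (hy : y ∈ W) (nx : x ∈ 𝒩(Z))
    (x2 : x * x ∈ Z) (xZ : x ∉ Z) (yZ : y ∉ Z) (xy : x⁻¹ * y ∉ Z) (h : Z.relIndex W ≤ 4) :
    W ≤ Z ⊔ zpowers x ⊔ zpowers y := by
  have s1 : Z ⊔ zpowers x ≤ W := sup_le ZW (zpowers_le.2 hx)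
  have i1 := one_lt_relIndex (A := Z) (B := Z ⊔ zpowers x) fun e => xZ (e (mem_sup_right (mem_zpowers x)))
  have i2 := one_lt_relIndex (A := Z ⊔ zpowers x) (B := Z ⊔ zpowers x ⊔ zpowers y) fun e =>
    (mem_sup_zpowers_two nx x2 (e (mem_sup_right (mem_zpowers y)))).elim yZ xy
  by_contra hn
  have i3 := one_lt_relIndex hn
  rw [← relIndex_mul_relIndex Z (Z ⊔ zpowers x) W le_sup_left s1, ← relIndex_mul_relIndex (Z ⊔ zpowers x)
    (Z ⊔ zpowers x ⊔ zpowers y) W le_sup_left (sup_le s1 (zpowers_le.2 hy))] at h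
  have := Nat.mul_le_mul i1 (Nat.mul_le_mul i2 i3)
  omega

namespace H4

variable {T V : Subgroup G} {ρ : G}

theorem abelian_of_center (h : H4 T V ρ) (hn : ¬ 𝒵(T) ≤ V) : IsMulCommutative T := by
  have c2 := h.neu.2.2
  have VZ : V ≤ 𝒵(T) := le_inf h.VT (le_cent_symm h.cV)
  have nZ : ρ ∈ 𝒩(𝒵(T)) := (charIn_center T).norm_le h.nT
  have cZ : ∀ x ∈ T, ∀ y ∈ T, ⁅x, y⁆ ∈ 𝒵(T) := fun x hx y hy =>
    ⟨comm_mem hx hy, c2 (commutator_mem_commutator hx hy)⟩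
  let W : Subgroup G :=
    { carrier := {w | w ∈ T ∧ w * w ∈ 𝒵(T)}
      one_mem' := ⟨one_mem _, mul_mem (one_mem _) (one_mem _)⟩
      mul_mem' := fun {x y} hx hy => ⟨mul_mem hx.1 hy.1, by
        rw [sq_mul_eq]; exact mul_mem (mul_mem hx.2 (cZ _ (inv_mem hx.1) _ hy.1)) hy.2⟩
      inv_mem' := fun {x} hx => ⟨inv_mem hx.1, by rw [← mul_inv_rev]; exact inv_mem hx.2⟩ }
  have ZW : 𝒵(T) ≤ W := fun x hx => ⟨hx.1, mul_mem hx hx⟩
  have c1 : ∀ z ∈ 𝒵(T), ∀ y ∈ T, ⁅z, y⁆ = 1 := fun z hz y hy =>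
    commutatorElement_eq_one_iff_mul_comm.2 (mem_centralizer_iff.1 hz.2 y hy).symm
  have hi : (𝒵(T)).relIndex W ≤ 4 := sq_index VZ ZW (fun x hx => le_cent_symm inf_le_right hx.1) (fun x hx => hx.2)
    (fun x hx y hy => h.inv _ (comm_mem hx.1 hy.1) (by rw [← h.cml hx.1 hx.1 hy.1, c1 _ hx.2 _ hy.1])) h.h4
    (fun x hx => h.inv x hx.1) (h.sq_all inf_le_left nZ hn)
  have key : ∀ e : ℕ, (∀ a ∈ T, ∀ b ∈ T, ⁅a, b⁆ ^ 2 ^ e = 1) → IsMulCommutative T := fun e => by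
    induction e with
    | zero => exact fun H => abelian_iff_forall.2 fun a ha b hb =>
        commutatorElement_eq_one_iff_mul_comm.1 (by simpa using H a ha b hb)
    | succ e ih =>
    refine fun H => ih fun a ha b hb => by_contra fun hc => ?_
    have l : ∀ a ∈ T, ∀ b ∈ T, ∀ k, ⁅a ^ k, b⁆ = ⁅a, b⁆ ^ k := fun a ha b hb k => by
      simpa using P02.comm_pow_pow_of_central c2 ha hb k 1
    have mW : ∀ a ∈ T, a ^ 2 ^ e ∈ W := fun a ha => ⟨pow_mem ha _, mul_mem (pow_mem ha _) (pow_mem ha _),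
      mem_centralizer_iff.2 fun t ht => (commutatorElement_eq_one_iff_mul_comm.1 (by
        rw [← pow_add, ← mul_two, ← pow_succ, l a ha t ht, H a ha t ht])).symm⟩
    have xZ : a ^ 2 ^ e ∉ 𝒵(T) := fun hz => hc (by rw [← l a ha b hb, c1 _ hz b hb])
    have hx := pow_mem ha (2 ^ e)
    have := le_of_relIndex_four (y := MulAut.conj ρ (a ^ 2 ^ e)) ZW (mW a ha) (map_pow (MulAut.conj ρ) a _ ▸ mW _ (h.mapT ha))
      ((center_normalIn T).2 hx) (mW a ha).2 xZ (fun hz => xZ ((mem_normalizer_iff.1 nZ _).2 hz)) (fun hz => hc (by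
        have e1 := c1 _ hz b hb
        rw [h.cml (inv_mem hx) (h.mapT hx) hb, h.cil hx hb, inv_mul_eq_one, h.c1 hx hb, h.c2 hx hb] at e1
        rw [← l a ha b hb, h.fpf2 (comm_mem hx hb) e1.symm])) hi
    have c3 := sup_le (sup_le (inf_le_right.trans (cent_le_cent_singleton ha)) (zpowers_le.2 (pow_mem
      (mem_cent_singleton_self a) _))) (zpowers_le.2 (show MulAut.conj ρ (a ^ 2 ^ e) ∈ 𝒞[a] from
        map_pow (MulAut.conj ρ) a _ ▸ pow_mem (mem_centralizer_singleton_iff.2 (h.neu.2.1 a ha).symm.eq) _))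
      (this (mW b hb))
    refine hc ?_
    rw [← inv_inj, ← inv_pow, commutatorElement_inv, ← l b hb a ha, inv_one]
    exact commutatorElement_eq_one_iff_mul_comm.2 (mem_centralizer_singleton_iff.1 c3)
  obtain ⟨n, hn⟩ := (pGrp_iff_card Nat.prime_two).1 h.pT
  exact key n fun a ha b hb => hn ▸ pow_card_eq_one_of_mem (comm_mem ha hb)

theorem commV_of (h : H4 T V ρ) (hn : ¬ IsMulCommutative T) {x y : G} (hx : x ∈ T) (hy : y ∈ T) : ⁅x, y⁆ ∈ V :=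
  of_not_not (mt h.abelian_of_center hn) ⟨comm_mem hx hy, h.neu.2.2 (commutator_mem_commutator hx hy)⟩

theorem sqV_of (h : H4 T V ρ) (hn : ¬ IsMulCommutative T) {x : G} (hx : x ∈ T) : x * x ∈ V :=
  of_not_not (mt h.abelian_of_center hn) ⟨mul_mem hx hx, mem_centralizer_iff.2 fun y hy =>
    (commutatorElement_eq_one_iff_mul_comm.1 (by rw [h.cml hx hx hy, h.sq _ (h.commV_of hn hx hy)])).symm⟩

/-- move a nontrivial element of `V` to a given one -/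
theorem rot (h : H4 T V ρ) {u v : G} (hu : u ∈ V) (u1 : u ≠ 1) (hv : v ∈ V) (v1 : v ≠ 1) :
    v = u ∨ v = MulAut.conj ρ u ∨ v = MulAut.conj ρ (MulAut.conj ρ u) := by
  rw [h.ssV hu]
  exact (h.cases hu u1 hv).resolve_left v1

theorem abelian_of_swap (h : H4 T V ρ) {s z : G} (ns : s ∈ 𝒩(T)) (s2 : s * s ∈ T) (hz : z ∈ V) (z1 : z ≠ 1)
    (sz : MulAut.conj s z = z) (hs : s ∉ 𝒞(V)) : IsMulCommutative T := by
  by_contra hn
  have fx : ∀ c ∈ V, MulAut.conj s c = c → c = 1 ∨ c = z := fun c hc e => by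
    by_contra H
    push Not at H
    refine hs (mem_centralizer_iff.2 fun w hw => (mul_inv_eq_iff_eq_mul.1 (show MulAut.conj s w = w from ?_)).symm)
    rcases four_cases h.h4 h.sq hc hz H.1 z1 H.2 hw with rfl | rfl | rfl | rfl
    exacts [map_one _, e, sz, by rw [map_mul, e, sz]]
  have cv : ∀ x ∈ T, ∀ y ∈ T, ∀ w ∈ V, ⁅x, y * w⁆ = ⁅x, y⁆ := fun x hx y hy w hw => by
    rw [h.cmr hx hy (h.VT hw), commutatorElement_eq_one_iff_mul_comm.2 (h.commV hx hw), mul_one]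
  have F : ∀ y ∈ T, y * y = z → ∃ w ∈ V, MulAut.conj s y = y * w := fun y hy e => by
    have hy' : MulAut.conj s y ∈ T := conj_mem_of_mem_norm ns hy
    have e' : MulAut.conj s y * MulAut.conj s y = z := by rw [← map_mul, e, sz]
    have hc := h.commV_of hn hy hy'
    rcases fx _ hc (by
      rw [map_commutatorElement, show MulAut.conj s (MulAut.conj s y) = y * ⁅y⁻¹, s * s⁆ by
        simp only [MulAut.conj_apply, commutatorElement_def]; group, cv _ hy' _ hy _ (h.commV_of hn (inv_mem hy) s2),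
        ← commutatorElement_inv]
      exact inv_eq_of_mul_eq_one_left (h.sq _ hc)) with c | c
    · refine ⟨y⁻¹ * MulAut.conj s y, h.inv _ (mul_mem (inv_mem hy) hy') ?_, by group⟩
      rw [sq_mul_eq, inv_inv, c, mul_one, ← mul_inv_rev, e, e', inv_mul_cancel]
    · exact absurd (c.symm.trans (h.no_beta hy hy' (e.trans c.symm) (e'.trans c.symm))) z1
  have R : ∀ a ∈ T, ∀ b ∈ T, ⁅a, b⁆ ≠ 1 → ∃ c ∈ T, c * c = z ∧ ⁅b, c⁆ ≠ 1 := fun a ha b hb hc => by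
    have hc' : ⁅b, a⁆ ≠ 1 := by rwa [← commutatorElement_inv, inv_ne_one]
    rcases h.rot (h.sqV_of hn ha) (fun e => hc' (commutatorElement_eq_one_iff_mul_comm.2
      (h.commV hb (h.inv a ha e)))) hz z1 with e | e | e
    · exact ⟨a, ha, e.symm, hc'⟩
    · exact ⟨_, h.mapT ha, by rw [e, map_mul], by simpa only [h.c2 hb ha, ne_eq, EmbeddingLike.map_eq_one_iff]⟩
    · exact ⟨_, h.mapT (h.mapT ha), by rw [e, map_mul, map_mul], by
        simpa only [h.c2 hb ha, h.c2 hb (h.mapT ha), ne_eq, EmbeddingLike.map_eq_one_iff]⟩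
  refine hn (abelian_iff_forall.2 fun a ha b hb => commutatorElement_eq_one_iff_mul_comm.1 (by_contra fun hc => ?_))
  obtain ⟨c, hc1, c2, hc⟩ := R a ha b hb hc
  obtain ⟨d, hd1, d2, hd⟩ := R b hb c hc1 hc
  obtain ⟨w, hw, e⟩ := F c hc1 c2
  obtain ⟨w', hw', e'⟩ := F d hd1 d2
  rcases fx _ (h.commV_of hn hc1 hd1) (by
    rw [map_commutatorElement, e, e', cv _ (mul_mem hc1 (h.VT hw)) _ hd1 _ hw', ← commutatorElement_inv,
      cv _ hd1 _ hc1 _ hw, commutatorElement_inv]) with k | k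
  · exact hd k
  · exact hd (h.no_beta hc1 hd1 (c2.trans k.symm) (d2.trans k.symm))

theorem card_le_pow (h : H4 T V ρ) (cT : IsMulCommutative T) (n : ℕ) :
    ∀ H ≤ T, (∀ x ∈ H, x ^ 2 ^ n = 1) → Nat.card H ≤ 4 ^ n := by
  induction n with
  | zero => exact fun H _ e => (card_eq_one.2 (eq_bot_iff.2 fun x hx => by simpa using e x hx)).le
  | succ n ih =>
    intro H hH e
    obtain ⟨P, hP, hc⟩ := P04.card_pow_image (p := 2) (H := H) fun x hx y hy =>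
      Commute.mul_pow (abelian_iff_forall.1 cT x (hH hx) y (hH hy)) 2
    rw [← hc, pow_succ]
    refine Nat.mul_le_mul (ih P (fun y hy => ?_) fun y hy => ?_) (h.h4 ▸ card_le_of_le (ohm1_le_iff.2 fun x hx e =>
      h.inv x (hH hx) (by rw [← pow_two, e])))
    · obtain ⟨x, hx, rfl⟩ := (hP y).1 hy
      exact hH (pow_mem hx 2)
    · obtain ⟨x, hx, rfl⟩ := (hP y).1 hy
      rw [← pow_mul, ← pow_succ', e x hx]

theorem exists_gen (h : H4 T V ρ) (cT : IsMulCommutative T) {v : G} (hv : v ∈ V) (v1 : v ≠ 1) :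
    ∃ n, ∃ x ∈ T, orderOf x = 2 ^ n ∧ Nat.card T ≤ 4 ^ n ∧ v ∈ zpowers x := by
  classical
  have ex : ∃ n, ∀ y ∈ T, y ^ 2 ^ n = 1 := by
    obtain ⟨n, hn⟩ := (pGrp_iff_card Nat.prime_two).1 h.pT
    exact ⟨n, fun a ha => hn ▸ pow_card_eq_one_of_mem ha⟩
  have H := Nat.find_spec ex
  obtain ⟨m, hm⟩ := Nat.exists_eq_succ_of_ne_zero (n := Nat.find ex) fun e => v1 (by simpa [e] using H v (h.VT hv))
  have H' := Nat.find_min ex (m := m) (by omega)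
  push Not at H'
  obtain ⟨x, hx, x1⟩ := H'
  rw [hm] at H
  have o : ∀ y : G, orderOf (MulAut.conj ρ y) = orderOf y := fun y => (MulAut.conj ρ).orderOf_eq y
  have ox : orderOf x = 2 ^ (m + 1) := orderOf_eq_prime_pow x1 (H x hx)
  refine ⟨m + 1, ?_⟩
  have hc := h.card_le_pow cT _ T le_rfl H
  rcases h.rot (h.inv _ (pow_mem hx (2 ^ m)) (by rw [← pow_add, ← mul_two, ← pow_succ, H x hx])) x1 hv v1
    with rfl | rfl | rfl
  · exact ⟨x, hx, ox, hc, pow_mem (mem_zpowers _) _⟩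
  · exact ⟨_, h.mapT hx, by rw [o, ox], hc, by rw [map_pow]; exact pow_mem (mem_zpowers _) _⟩
  · exact ⟨_, h.mapT (h.mapT hx), by rw [o, o, ox], hc, by rw [map_pow, map_pow]; exact pow_mem (mem_zpowers _) _⟩

end H4

/-- defining relations of a Sylow 2-subgroup of `U₃(4)` -/
structure URel {G : Type u} [Group G] (a₀ a₁ b₀ b₁ : G) : Prop where
  r1 : a₀ * a₀ * (a₀ * a₀) = 1
  r2 : a₁ * a₁ * (a₁ * a₁) = 1
  r3 : b₀ * b₀ = a₀ * a₀ * (a₁ * a₁)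
  r4 : b₁ * b₁ = a₀ * a₀
  r5 : ⁅a₁, a₀⁆ = 1
  r6 : ⁅b₁, b₀⁆ = 1
  r7 : ⁅b₀, a₀⁆ = a₀ * a₀
  r8 : ⁅b₀, a₁⁆ = a₀ * a₀ * (a₁ * a₁)
  r9 : ⁅b₁, a₀⁆ = a₀ * a₀ * (a₁ * a₁)
  r10 : ⁅b₁, a₁⁆ = a₁ * a₁

/-- the subgroup generated by the four elements -/
def ugen {G : Type u} [Group G] (a₀ a₁ b₀ b₁ : G) : Subgroup G :=
  zpowers (a₀ * a₀) ⊔ zpowers (a₁ * a₁) ⊔ zpowers a₀ ⊔ zpowers a₁ ⊔ zpowers b₀ ⊔ zpowers b₁

theorem norm_sup_zp {H : Subgroup G} {x g : G} (hx : x ∈ 𝒩(H)) (hc : ⁅x, g⁆ ∈ H) : x ∈ 𝒩(H ⊔ zpowers g) := by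
  refine mem_norm_of_conjg_le ?_
  rw [conjg_sup, conjg_zpowers, conjg_of_mem_norm hx]
  refine sup_le le_sup_left (zpowers_le.2 ?_)
  rw [show x * g * x⁻¹ = ⁅x, g⁆ * g by rw [commutatorElement_def]; group]
  exact mul_mem (mem_sup_left hc) (mem_sup_right (mem_zpowers g))

theorem URel.card_le {a₀ a₁ b₀ b₁ : G} (h : URel a₀ a₁ b₀ b₁) : Nat.card (ugen a₀ a₁ b₀ b₁) ≤ 64 := by
  have ca : Commute a₁ a₀ := commutatorElement_eq_one_iff_commute.1 h.r5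
  have cb : Commute b₁ b₀ := commutatorElement_eq_one_iff_commute.1 h.r6
  have n : ∀ x, Commute x (a₀ * a₀) → Commute x (a₀ * a₀ * (a₁ * a₁)) →
      x ∈ 𝒩(zpowers (a₀ * a₀) ⊔ zpowers (a₁ * a₁)) := fun x c0 c1 =>
    norm_of_cent (A := ⊤ ⊓ zpowers x) (inf_le_right.trans (zpowers_le.2 (by
      rw [cent_sup, cent_zpowers, cent_zpowers]
      exact ⟨mem_centralizer_singleton_iff.2 c0.eq, mem_centralizer_singleton_iff.2
        (by simpa only [inv_mul_cancel_left] using c0.inv_right.mul_right c1 : Commute x (a₁ * a₁)).eq⟩))) ⟨trivial, mem_zpowers x⟩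
  have m0 : a₀ * a₀ ∈ zpowers (a₀ * a₀) ⊔ zpowers (a₁ * a₁) := mem_sup_left (mem_zpowers _)
  have m1 : a₁ * a₁ ∈ zpowers (a₀ * a₀) ⊔ zpowers (a₁ * a₁) := mem_sup_right (mem_zpowers _)
  have r0 := (Commute.refl a₀).mul_right (Commute.refl a₀)
  have r1 := (Commute.refl a₁).mul_right (Commute.refl a₁)
  have nb0 := n b₀ (h.r4 ▸ cb.symm.mul_right cb.symm) (h.r3 ▸ (Commute.refl b₀).mul_right (Commute.refl b₀))
  have nb1 := n b₁ (h.r4 ▸ (Commute.refl b₁).mul_right (Commute.refl b₁)) (h.r3 ▸ cb.mul_right cb)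
  have k0 : Nat.card (zpowers (a₀ * a₀)) ≤ 2 := by
    rw [Nat.card_zpowers]; exact orderOf_le_of_pow_eq_one two_pos (by rw [pow_two, h.r1])
  have k1 := card_sup_zpowers_le (H := zpowers (a₀ * a₀)) (x := a₁ * a₁) (cent_le_norm _ (by
    rw [cent_zpowers]; exact mem_centralizer_singleton_iff.2 ((ca.mul_right ca).mul_left (ca.mul_right ca)).eq))
    (h.r2 ▸ one_mem _)
  have k2 := card_sup_zpowers_le (n a₀ r0 (r0.mul_right (ca.symm.mul_right ca.symm))) m0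
  have k3 := card_sup_zpowers_le (norm_sup_zp (n a₁ (ca.mul_right ca) ((ca.mul_right ca).mul_right r1))
    (h.r5 ▸ one_mem _)) (mem_sup_left m1)
  have k4 := card_sup_zpowers_le (norm_sup_zp (g := a₁) (norm_sup_zp (g := a₀) nb0 (by rw [h.r7]; exact m0))
    (by rw [h.r8]; exact mem_sup_left (mul_mem m0 m1))) (by rw [h.r3]; exact mem_sup_left (mem_sup_left (mul_mem m0 m1)))
  have k5 := card_sup_zpowers_le (norm_sup_zp (g := b₀) (norm_sup_zp (g := a₁) (norm_sup_zp (g := a₀) nb1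
    (by rw [h.r9]; exact mul_mem m0 m1)) (by rw [h.r10]; exact mem_sup_left m1)) (by rw [h.r6]; exact one_mem _))
    (by rw [h.r4]; exact mem_sup_left (mem_sup_left (mem_sup_left m0)))
  unfold ugen
  omega

theorem URel.prod {G' : Type v} [Group G'] {a₀ a₁ b₀ b₁ : G} {c₀ c₁ d₀ d₁ : G'} (h : URel a₀ a₁ b₀ b₁)
    (h' : URel c₀ c₁ d₀ d₁) : URel (a₀, c₀) (a₁, c₁) (b₀, d₀) (b₁, d₁) :=
  ⟨Prod.ext h.r1 h'.r1, Prod.ext h.r2 h'.r2, Prod.ext h.r3 h'.r3, Prod.ext h.r4 h'.r4, Prod.ext h.r5 h'.r5,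
    Prod.ext h.r6 h'.r6, Prod.ext h.r7 h'.r7, Prod.ext h.r8 h'.r8, Prod.ext h.r9 h'.r9, Prod.ext h.r10 h'.r10⟩

theorem URel.map {G : Type u} [Group G] {G' : Type v} [Group G'] {a₀ a₁ b₀ b₁ : G} (h : URel a₀ a₁ b₀ b₁)
    (f : G →* G') : URel (f a₀) (f a₁) (f b₀) (f b₁) := by
  constructor <;> simp only [← map_mul, ← map_commutatorElement, h.r1, h.r2, h.r3, h.r4, h.r5, h.r6, h.r7, h.r8,
    h.r9, h.r10, map_one]

theorem URel.exists_hom {G' : Type v} [Group G'] [Finite G'] {a₀ a₁ b₀ b₁ : G} {c₀ c₁ d₀ d₁ : G'}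
    (h : URel a₀ a₁ b₀ b₁) (h' : URel c₀ c₁ d₀ d₁) (hc : Nat.card (ugen a₀ a₁ b₀ b₁) = 64) :
    ∃ f : ugen a₀ a₁ b₀ b₁ →* G', (∀ x : ugen a₀ a₁ b₀ b₁, (x : G) = a₀ → f x = c₀) ∧
      ∀ x : ugen a₀ a₁ b₀ b₁, (x : G) = a₁ → f x = c₁ := by
  let E := ugen (a₀, c₀) (a₁, c₁) (b₀, d₀) (b₁, d₁)
  have hm : E.map (MonoidHom.fst G G') = ugen a₀ a₁ b₀ b₁ := by
    simp only [E, ugen, Subgroup.map_sup, MonoidHom.map_zpowers]; rfl
  let p : E →* ugen a₀ a₁ b₀ b₁ := ((MonoidHom.fst G G').comp E.subtype).codRestrict _ fun x =>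
    hm ▸ mem_map_of_mem _ x.2
  have ps : Function.Surjective p := fun y => by
    obtain ⟨x, hx, e⟩ := hm.ge y.2
    exact ⟨⟨x, hx⟩, Subtype.ext e⟩
  let e := MulEquiv.ofBijective p (ps.bijective_of_nat_card_le (hc ▸ (h.prod h').card_le))
  have key : ∀ (w : G × G') (hw : w ∈ E) (x : ugen a₀ a₁ b₀ b₁), (x : G) = w.1 → (e.symm x : G × G').2 = w.2 :=
    fun w hw x hx => by rw [show x = e ⟨w, hw⟩ from Subtype.ext hx, e.symm_apply_apply]
  exact ⟨((MonoidHom.snd G G').comp E.subtype).comp e.symm.toMonoidHom,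
    key (a₀, c₀) (mem_sup_left (mem_sup_left (mem_sup_left (mem_sup_right (mem_zpowers _))))),
    key (a₁, c₁) (mem_sup_left (mem_sup_left (mem_sup_right (mem_zpowers _))))⟩

namespace H4

variable {T V : Subgroup G} {ρ : G}

theorem exists_rel (h : H4 T V ρ) (hn : ¬ IsMulCommutative T) :
    ∃ a ∈ T, ∃ b ∈ T, a * a ≠ 1 ∧ URel a (MulAut.conj ρ a) b (MulAut.conj ρ b) := by
  obtain ⟨a, ha, b, hb, hc⟩ : ∃ a ∈ T, ∃ b ∈ T, ⁅a, b⁆ ≠ 1 := by
    by_contra H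
    push Not at H
    exact hn (abelian_iff_forall.2 fun a ha b hb => commutatorElement_eq_one_iff_mul_comm.1 (H a ha b hb))
  have a1 : a * a ≠ 1 := fun e => hc (commutatorElement_eq_one_iff_mul_comm.2 (h.commV hb (h.inv a ha e)).symm)
  have hv := h.sqV_of hn ha
  obtain ⟨b, hb, hc⟩ : ∃ b ∈ T, ⁅a, b⁆ = a * a := by
    rcases h.rot (h.commV_of hn ha hb) hc hv a1 with e | e | e
    · exact ⟨b, hb, e.symm⟩
    · exact ⟨_, h.mapT (h.mapT hb), by rw [h.c2 ha (h.mapT hb), h.c2 ha hb, h.sss (h.mapT (comm_mem ha hb)), e]⟩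
    · exact ⟨_, h.mapT hb, by rw [h.c2 ha hb, e]⟩
  obtain ⟨b, hb, hc, b2⟩ : ∃ b ∈ T, ⁅a, b⁆ = a * a ∧ b * b = a * a * MulAut.conj ρ (a * a) := by
    rcases h.cases hv a1 (h.sqV_of hn hb) with e | e | e | e
    · exact absurd (hc.symm.trans (commutatorElement_eq_one_iff_mul_comm.2 (h.commV ha (h.inv b hb e)))) a1
    · exact absurd (hc.symm.trans (h.no_beta ha hb hc.symm (e.trans hc.symm))) a1
    · refine ⟨_, mul_mem (h.mapT ha) hb, by rw [h.cmr ha (h.mapT ha) hb, h.c0 ha, one_mul, hc], ?_⟩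
      rw [sq_mul_eq, h.cil (h.mapT ha) hb, h.c1 ha hb, h.c2 ha hb, hc, e, ← map_mul, h.ssV hv, mul_inv_rev,
        mul_inv_cancel_left, inv_eq_of_mul_eq_one_left (h.sq _ hv)]
    · exact ⟨b, hb, hc, e⟩
  have iv : ∀ x ∈ T, ∀ y ∈ T, ⁅x, y⁆ = ⁅y, x⁆ := fun x hx y hy => by
    rw [← commutatorElement_inv]; exact inv_eq_of_mul_eq_one_left (h.sq _ (h.commV_of hn hy hx))
  have e1 : ⁅a, MulAut.conj ρ b⁆ = a * a * MulAut.conj ρ (a * a) := by rw [h.c2 ha hb, hc, h.ssV hv]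
  refine ⟨a, ha, b, hb, a1, h.sq _ hv, h.sq _ (h.sqV_of hn (h.mapT ha)), by rw [b2, map_mul], ?_,
    by rw [iv _ (h.mapT ha) _ ha, h.c0 ha], by rw [iv _ (h.mapT hb) _ hb, h.c0 hb], by rw [iv _ hb _ ha, hc],
    by rw [iv _ hb _ (h.mapT ha), h.c1 ha hb, e1, map_mul], by rw [iv _ (h.mapT hb) _ ha, e1, map_mul],
    by rw [← map_commutatorElement, iv _ hb _ ha, hc, map_mul]⟩
  rw [← map_mul, b2, ← h.ssV hv, h.sss (h.VT hv)]

theorem card_pow (h : H4 T V ρ) {X : Subgroup G} (hX : X ≤ T) (nX : ρ ∈ 𝒩(X)) (h1 : 16 < Nat.card X)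
    (h2 : Nat.card X ≤ 128) : Nat.card X = 64 := by
  have e := dvd_card_sub_cent Nat.prime_three nX h.p3
  rw [eq_bot_iff.2 ((inf_le_inf_right _ hX).trans h.inf_cent.le), card_bot] at e
  obtain ⟨n, hn⟩ := (pGrp_iff_card Nat.prime_two).1 (h.pT.of_le hX)
  rw [hn] at e h1 h2 ⊢
  have : n ≤ 7 := (Nat.pow_le_pow_iff_right one_lt_two).1 h2
  interval_cases n <;> simp_all

/-- the nonabelian case: a Sylow 2-subgroup of `U₃(4)` -/
theorem exists_inj (h : H4 T V ρ) (hn : ¬ IsMulCommutative T) {G' : Type v} [Group G'] [Finite G'] {c₀ c₁ d₀ d₁ : G'}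
    (h' : URel c₀ c₁ d₀ d₁) (n0 : c₀ * c₀ ≠ 1) (n1 : c₁ * c₁ ≠ 1) (n2 : c₀ * c₀ * (c₁ * c₁) ≠ 1) :
    Nat.card T = 64 ∧ ∃ f : T →* G', Function.Injective f := by
  obtain ⟨a, ha, b, hb, a1, r⟩ := h.exists_rel hn
  have hv := h.sqV_of hn ha
  have ha' := h.mapT ha
  have hT : Nat.card T ≤ 128 := by
    rw [← card_mul_relIndex h.VT, h.h4]
    exact Nat.mul_le_mul_left 4 (relIndex_le_32 h.VT h.cV (fun x => h.sqV_of hn) (fun x hx y => h.commV_of hn hx)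
      h.h4 h.sq h.inv)
  obtain ⟨X, hX⟩ : ∃ X, X = ugen a (MulAut.conj ρ a) b (MulAut.conj ρ b) := ⟨_, rfl⟩
  have XT : X ≤ T := hX ▸ sup_le (sup_le (sup_le (sup_le (sup_le (zpowers_le.2 (mul_mem ha ha))
    (zpowers_le.2 (mul_mem ha' ha'))) (zpowers_le.2 ha)) (zpowers_le.2 ha')) (zpowers_le.2 hb))
    (zpowers_le.2 (h.mapT hb))
  have ma : a ∈ X := hX ▸ mem_sup_left (mem_sup_left (mem_sup_left (mem_sup_right (mem_zpowers _))))
  have ma' : MulAut.conj ρ a ∈ X := hX ▸ mem_sup_left (mem_sup_left (mem_sup_right (mem_zpowers _)))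
  have mb : b ∈ X := hX ▸ mem_sup_left (mem_sup_right (mem_zpowers _))
  have mb' : MulAut.conj ρ b ∈ X := hX ▸ mem_sup_right (mem_zpowers _)
  have ss : ∀ x ∈ X, MulAut.conj ρ x ∈ X → MulAut.conj ρ (MulAut.conj ρ x) ∈ X := fun x h1 h2 =>
    eq_inv_of_mul_eq_one_right (h.neu.1 x (XT h1)) ▸ inv_mem (mul_mem h1 h2)
  have nX : ρ ∈ 𝒩(X) := mem_norm_of_conjg_le (by
    nth_rewrite 1 [hX]
    simp only [ugen, conjg_sup, conjg_zpowers, sup_le_iff, zpowers_le, ← MulAut.conj_apply, map_mul]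
    exact ⟨⟨⟨⟨⟨mul_mem ma' ma', mul_mem (ss a ma ma') (ss a ma ma')⟩, ma'⟩, ss a ma ma'⟩, mb'⟩, ss b mb mb'⟩)
  have VX : V ≤ X := fun w hw => by
    rcases h.cases hv a1 hw with rfl | rfl | rfl | rfl
    exacts [one_mem _, mul_mem ma ma, map_mul (MulAut.conj ρ) a a ▸ mul_mem ma' ma',
      mul_mem (mul_mem ma ma) (map_mul (MulAut.conj ρ) a a ▸ mul_mem ma' ma')]
  have aV : ∀ x, x * x ≠ 1 → x ∉ V := fun x e hx => e (h.sq x hx)
  have h16 : 16 < Nat.card X := by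
    rw [← card_mul_relIndex VX, h.h4]
    by_contra H
    have := le_of_relIndex_four VX ma ma' (cent_le_norm _ (h.cV ha)) hv (aV a a1)
      (aV _ (by rwa [← map_mul, ne_eq, EmbeddingLike.map_eq_one_iff])) (aV _ (by
        rw [sq_mul_eq, inv_inv, h.c0 ha, mul_one, ← mul_inv_rev, ← map_mul, ne_eq, inv_mul_eq_one]
        exact fun e => a1 (h.fpf _ hv e.symm))) (by omega)
    have c := sup_le (sup_le (mem_cent_iff_le_cent_singleton.1 (h.cV ha)) (zpowers_le.2 (mem_cent_singleton_self a)))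
      (zpowers_le.2 (mem_centralizer_singleton_iff.2 (h.neu.2.1 a ha).symm.eq)) (this mb)
    exact a1 (r.r7.symm.trans (commutatorElement_eq_one_iff_mul_comm.2 (mem_centralizer_singleton_iff.1 c)))
  have cX := h.card_pow XT nX h16 ((card_le_of_le XT).trans hT)
  have cT := h.card_pow le_rfl h.nT (h16.trans_le (card_le_of_le XT)) hT
  obtain rfl : X = T := eq_of_le_of_card_ge XT (by omega)
  subst hX
  obtain ⟨f, f0, f1⟩ := r.exists_hom h' cX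
  refine ⟨cT, f, (injective_iff_map_eq_one f).2 fun x hx => by_contra fun x1 => ?_⟩
  obtain ⟨y, ⟨k, rfl⟩, y2, y1⟩ := exists_inv_of_piElt (h.pT.piElt x.2) fun e => x1 (Subtype.ext e)
  have e : f (x ^ k) = 1 := by rw [map_zpow, hx, one_zpow]
  have g0 := f0 ⟨_, ma⟩ rfl
  have g1 := f1 ⟨_, ma'⟩ rfl
  rcases h.cases hv a1 (h.inv _ (zpow_mem x.2 k) y2) with c | c | c | c
  · exact y1 c
  · exact n0 (by rw [← g0, ← map_mul, ← e]; exact congrArg f (Subtype.ext c.symm))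
  · exact n1 (by rw [← g1, ← map_mul, ← e]; exact congrArg f (Subtype.ext ((map_mul _ a a).symm.trans c.symm)))
  · refine n2 ?_
    rw [← g0, ← g1, ← map_mul, ← map_mul, ← map_mul, ← e]
    rw [map_mul] at c
    exact congrArg f (Subtype.ext c.symm)

end H4

end CA.Dih

theorem CA.Dih.realizeEqnsRk2B : True := by
  have := @CA.Dih.ugen.eq_1.{0}
  have := @CA.Dih.ugen.eq_def.{0}
  have := @CA.Dih.ugen.congr_simp.{0}
  trivial
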