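/-
Brauer: a simple group whose Sylow 2-subgroup is abelian of rank two has a Sylow four-group.
-/
import Cfsg.Agent.Dih.Rk2B
import Cfsg.Agent.Blk.ZCor

set_option autoImplicit false
set_option linter.unusedSectionVars false

namespace CA.Dih

open Subgroup Cfsg CA.FG CA.BG CA.Chr CA.Blk MulAction Finset
open scoped commutatorElement IsMulCommutative ComplexConjugate Classical

universe u v

variable {G : Type u} [Group G] [Fintype G]

theorem odd_act_four {V : Subgroup G} (h4 : Nat.card V = 4) {q : ℕ} (hq : q.Prime) (q2 : q ≠ 2) {a : G}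
    (ha : a ∈ 𝒩(V)) (qa : IsPiElt {q} a) : a ∈ 𝒞(V) ∨ (q = 3 ∧ V ⊓ 𝒞[a] = ⊥) := by
  have h := dvd_card_sub_cent hq ha qa
  have h1 : Nat.card (V ⊓ 𝒞[a] : Subgroup G) ∣ 2 ^ 2 := (card_dvd_of_le inf_le_left).trans h4.dvd
  obtain ⟨k, hk, e⟩ := (Nat.dvd_prime_pow Nat.prime_two).1 h1
  rw [h4, e] at h
  interval_cases k
  · exact Or.inr ⟨(Nat.prime_dvd_prime_iff_eq hq Nat.prime_three).1 h, card_eq_one.1 e⟩
  · exact absurd ((Nat.prime_dvd_prime_iff_eq hq Nat.prime_two).1 h) q2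
  · exact Or.inl (mem_cent_iff_le_cent_singleton.2 (inf_eq_left.1 (eq_of_le_of_card_ge inf_le_left (by omega))))

theorem common_two {B : Finset (G → ℂ)} (hB : 5 ≤ B.card) (hZ : ∀ θ ∈ B, θ ∈ ZIrr G) (h1 : ∀ θ ∈ B, θ 1 = -1)
    (h3 : ∀ θ ∈ B, ⟪θ, θ⟫ = 3) (h2 : ∀ θ ∈ B, ∀ φ ∈ B, θ ≠ φ → ⟪θ, φ⟫ = 2) :
    ∃ a b, Dirr a ∧ Dirr b ∧ ⟪a, b⟫ = 0 ∧ ∀ θ ∈ B, ⟪θ, a⟫ = 1 ∧ ⟪θ, b⟫ = 1 := by
  obtain ⟨θ₀, h0⟩ := card_pos.1 (show 0 < B.card by omega)
  have n3 : ∀ θ ∈ B, nrm θ = 3 := fun θ hθ => nrm_eq_of_dot (by simpa using h3 θ hθ)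
  have m : ∀ θ ∈ B.erase θ₀, θ ∈ B := fun θ => mem_of_mem_erase
  have d2 : ∀ θ ∈ B.erase θ₀, ⟪θ₀ - θ, θ₀ - θ⟫ = 2 := fun θ hθ => by
    rw [dot_sub_left, dot_sub_right, dot_sub_right, h3 _ h0, h3 _ (m θ hθ), h2 _ h0 _ (m θ hθ) (ne_of_mem_erase hθ).symm,
      h2 _ (m θ hθ) _ h0 (ne_of_mem_erase hθ)]; norm_num
  have d1 : ∀ θ ∈ B.erase θ₀, ∀ φ ∈ B.erase θ₀, θ ≠ φ → ⟪θ₀ - θ, θ₀ - φ⟫ = 1 := fun θ hθ φ hφ e => by
    rw [dot_sub_left, dot_sub_right, dot_sub_right, h3 _ h0, h2 _ (m θ hθ) _ (m φ hφ) e,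
      h2 _ h0 _ (m φ hφ) (ne_of_mem_erase hφ).symm, h2 _ (m θ hθ) _ h0 (ne_of_mem_erase hθ)]; norm_num
  obtain ⟨ν, hν, e⟩ := exists_common_point_of_nrm_two (fun θ : B.erase θ₀ => θ₀ - θ.1)
    (fun θ => sub_mem (hZ _ h0) (hZ _ (m _ θ.2))) (fun θ => by rw [Pi.sub_apply, h1 _ h0, h1 _ (m _ θ.2), sub_self])
    (fun θ => d2 _ θ.2) fun θ φ hne => d1 _ θ.2 _ φ.2 fun e => hne (Subtype.ext e)
  replace e : ∀ θ ∈ B.erase θ₀, ⟪θ₀ - θ, ν⟫ = 1 := fun θ hθ => e ⟨θ, hθ⟩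
  have cB : 4 ≤ (B.erase θ₀).card := by rw [card_erase_of_mem h0]; omega
  have c4 : ∀ θ ∈ B, ∀ x, Dirr x → _ := fun θ hθ x hx =>
    ZIrr.dot_cases_of_nrm_lt_four (hZ θ hθ) (by rw [n3 θ hθ]; norm_num) hx
  rcases c4 _ h0 ν hν with r | r | r
  · obtain ⟨θ, hθ⟩ := card_pos.1 (show 0 < (B.erase θ₀).card by omega)
    have := e θ hθ
    rw [dot_sub_left, r] at this
    rcases c4 _ (m θ hθ) ν hν with s | s | s <;> rw [s] at this <;> norm_num at this
  · have e' : ∀ θ ∈ B.erase θ₀, ⟪ν, θ₀ - θ⟫ = 1 := fun θ hθ => dot_comm_of_int (n := 1) (by simpa using e θ hθ) |>.trans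
      Int.cast_one
    have := bessel_le (B.erase θ₀) (fun θ => θ₀ - θ - ν) (fun θ hθ => by
      rw [dot_sub_left, dot_sub_right _ _ ν, dot_sub_right _ _ ν, d2 θ hθ, e θ hθ, e' θ hθ, hν.dot_self]; norm_num)
      (fun θ hθ φ hφ hne => by
        rw [dot_sub_left, dot_sub_right _ _ ν, dot_sub_right _ _ ν, d1 θ hθ φ hφ hne, e θ hθ, e' φ hφ, hν.dot_self]
        norm_num) θ₀
    rw [sum_congr rfl (g := fun _ => 1) fun θ hθ => by
      rw [dot_sub_right, dot_sub_right, h3 _ h0, h2 _ h0 _ (m θ hθ) (ne_of_mem_erase hθ).symm, r]; norm_num,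
      n3 _ h0, sum_const, nsmul_one] at this
    have : (B.erase θ₀).card ≤ 3 := by exact_mod_cast this
    omega
  · obtain ⟨a, b, ha, hb, hab, e2⟩ := ZIrr.exists_of_nrm_two (sub_mem (hZ _ h0) hν.mem_ZIrr)
      (by rw [nrm_sub_of_dot_one hν.dot_self r, n3 _ h0]; norm_num)
    refine ⟨a, b, ha, hb, hab, fun θ hθ => ?_⟩
    have : ⟪θ, a⟫ + ⟪θ, b⟫ = 2 := by
      rw [← dot_add_right, ← e2, dot_sub_right]
      by_cases h : θ = θ₀
      · rw [h, h3 _ h0, r]; norm_num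
      · have := e θ (mem_erase.2 ⟨h, hθ⟩)
        rw [dot_sub_left, r, sub_eq_self] at this
        rw [this, h2 _ hθ _ h0 h, sub_zero]
    rcases c4 _ hθ a ha with s | s | s <;> rcases c4 _ hθ b hb with s' | s' | s' <;> rw [s, s'] at this ⊢ <;>
      revert this <;> norm_num

theorem int_brauer {x y n c d : ℤ} (hn : 16 ≤ n) (hx : x = 1 + c * n) (hy : y = 1 + d * n) (x1 : x ≠ 1) (y1 : y ≠ 1)
    (h : (x * y + x + y) * (1 + x + y) = 9 * (x * y)) : False := by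
  have k : ∀ c : ℤ, c * n ≤ -16 ∨ c * n = 0 ∨ 16 ≤ c * n := fun c => by
    rcases lt_trichotomy c 0 with h | h | h
    · left; nlinarith
    · simp [h]
    · right; right; nlinarith
  have k1 := k c
  have k2 := k d
  have k3 := k (c + d)
  rw [add_mul] at k3
  have a1 : 15 ≤ |x| := le_abs.2 (by omega)
  have a2 : 15 ≤ |y| := le_abs.2 (by omega)
  have a3 : 2 * |1 + (x + y)| < 15 * |8 - (x + y)| := by
    rcases abs_cases (1 + (x + y)) with e | e <;> rcases abs_cases (8 - (x + y)) with e' | e' <;> omega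
  have e : |x| * |y| * |8 - (x + y)| = |x + y| * |1 + (x + y)| := by
    rw [← abs_mul, ← abs_mul, ← abs_mul]; congr 1; linear_combination -h
  have b : 15 * |x + y| ≤ 2 * (|x| * |y|) := by nlinarith [abs_add_le x y]
  nlinarith [abs_nonneg (1 + (x + y)), mul_pos (show 0 < |x| by omega) (show 0 < |y| by omega)]

theorem dot_proj_proj {B : Finset (G → ℂ)} (hB : B ⊆ irr G) (f g : G → ℂ) : ⟪proj B f, proj B g⟫ = ⟪proj B f, g⟫ := by
  rw [proj_def B f, dot_sum_left, dot_sum_left]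
  refine sum_congr rfl fun χ hχ => ?_
  rw [dot_smul_left, dot_smul_left, ← conj_dot (proj B g), dot_proj hB g (mem_irr.1 (hB hχ)), if_pos hχ, conj_dot]

theorem dot_proj_dirr {B : Finset (G → ℂ)} (hB : B ⊆ irr G) {f a : G → ℂ} (ha : Dirr a) (h : ⟪proj B f, a⟫ ≠ 0) :
    ⟪f, a⟫ = ⟪proj B f, a⟫ := by
  have key : ∀ a, IsIrrCharacter G a → ⟪proj B f, a⟫ ≠ 0 → ⟪f, a⟫ = ⟪proj B f, a⟫ := fun a ha h => by
    rw [dot_proj hB f ha] at h ⊢
    rw [if_pos (by_contra fun e => h (if_neg e))]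
  rcases ha with ha | ha
  · exact key a ha h
  · have := key _ ha (by rwa [dot_neg_right, neg_ne_zero])
    rwa [dot_neg_right, dot_neg_right, neg_inj] at this

theorem proj_ZIrr {B : Finset (G → ℂ)} (hB : B ⊆ irr G) {f : G → ℂ} (hf : f ∈ ZIrr G) : proj B f ∈ ZIrr G :=
  mem_ZIrr_of_dot_int (proj_mem_CF hB f) fun χ hχ => by
    rw [dot_proj hB f hχ]
    split_ifs
    exacts [ZIrr.dot_int hf (IsIrr.mem_ZIrr hχ), ⟨0, by simp⟩]

theorem ind_apply_class {S : Subgroup G} (α : S → ℂ) (x : G) :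
    ind S.subtype α x = (Nat.card S : ℂ)⁻¹ * (Nat.card 𝒞[x] * ∑ y ∈ univ.filter fun y : S => IsConj x y, α y) := by
  rw [Chr.ind_apply, sum_comm]
  congr 1
  rw [sum_filter, mul_sum]
  refine sum_congr rfl fun y _ => ?_
  rw [← sum_filter, sum_const, nsmul_eq_mul]
  split_ifs with h
  · rw [← card_conjugators h, ← Fintype.card_subtype, ← Nat.card_eq_fintype_card]
    congr 2
    exact Nat.card_congr (Equiv.subtypeEquiv (Equiv.inv G) fun g => by simp [eq_comm])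
  · rw [filter_eq_empty_iff.2 fun g _ e => h (isConj_iff.2 ⟨g⁻¹, by rw [inv_inv]; exact e.symm⟩)]
    simp

section

variable {S : Sylow 2 G} {V : Subgroup G} {ρ : G} (h : H4 (S : Subgroup G) V ρ)
  (cS : IsMulCommutative (S : Subgroup G))
include h cS

theorem H4.normV {n : G} (hn : n ∈ 𝒩((S : Subgroup G))) : n ∈ 𝒩(V) := mem_norm_of_forall fun v hv =>
  h.inv _ (conj_mem_of_mem_norm hn (h.VT hv)) (by
    rw [show n * v * n⁻¹ * (n * v * n⁻¹) = n * (v * v) * n⁻¹ by group, h.sq v hv]; group)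

theorem H4.norm_cent_le {x : G} (hx : x ∈ (S : Subgroup G)) (x1 : x ≠ 1) :
    𝒩((S : Subgroup G)) ⊓ 𝒞[x] ≤ 𝒞((S : Subgroup G)) := by
  refine le_of_forall_sylow fun q Q hq hQ a ha => ?_
  have qa := hQ.pGrp.piElt ha
  have ha' := hQ.le ha
  by_cases q2 : q = 2
  · subst q2
    exact abelian_iff_le_cent.1 cS (mem_of_mem_norm_sylow (sylow_top Nat.prime_two S) trivial ha'.1 qa)
  obtain ⟨z, hz, z2, z1⟩ := exists_inv_of_piElt (h.pT.piElt hx) x1
  rcases odd_act_four h.h4 hq q2 (h.normV cS ha'.1) qa with c | ⟨-, c⟩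
  · exact zpowers_le.1 (coprime_abelian_pgroup_faithful_Ohm1 h.pT (zpowers_le.2 ha'.1)
      (h.pT.coprime_of_ne (piGrp_zpowers_iff.2 qa) (Ne.symm q2)) cS (zpowers_le.2 (cent_anti
        (ohm1_le_iff.2 fun y hy e => h.inv y hy (by rw [← pow_two, e])) c)))
  · exact absurd (c.le ⟨h.inv z (zpowers_le.2 hx hz) z2, mem_cent_singleton_comm.1
      (cent_singleton_le_of_mem_zpowers hz ha'.2)⟩) z1

theorem H4.fusion {x y : G} (hx : x ∈ (S : Subgroup G)) (hy : y ∈ (S : Subgroup G)) (c : IsConj x y) :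
    y = x ∨ y = MulAut.conj ρ x ∨ y = MulAut.conj ρ (MulAut.conj ρ x) := by
  obtain ⟨g, rfl⟩ := isConj_iff.1 c
  obtain ⟨n, hn, e⟩ := S.conj_eq_normalizer_conj_of_mem x g⁻¹ hx (by rwa [inv_inv])
  rw [inv_inv] at e
  rw [e]
  obtain ⟨v, hv, v1⟩ := exists_mem_ne_one (ne_bot_of_prime_dvd_card (H := V) Nat.prime_two (by rw [h.h4]; norm_num))
  have key : ∀ r ∈ 𝒩((S : Subgroup G)), n⁻¹ * v * n = r * v * r⁻¹ → n⁻¹ * x * n = r * x * r⁻¹ := fun r hr e => by
    have := mem_centralizer_iff.1 (h.norm_cent_le cS (h.VT hv) v1 ⟨mul_mem hn hr,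
      mem_centralizer_singleton_iff.2 (show n * r * v = v * (n * r) by
        calc _ = n * (r * v * r⁻¹) * r := by group
          _ = _ := by rw [← e]; group)⟩) x hx
    calc _ = n⁻¹ * (x * (n * r)) * r⁻¹ := by group
      _ = _ := by rw [this]; group
  rcases h.rot hv v1 (conj_mem_of_mem_norm' (h.normV cS hn) hv) (by
    rw [show n⁻¹ * v * n = n⁻¹ * v * n⁻¹⁻¹ by rw [inv_inv]]; rwa [ne_eq, conj_eq_one_iff]) with e | e | e
  · exact Or.inl (by simpa using key 1 (one_mem _) (by simpa using e))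
  · exact Or.inr (Or.inl (key ρ h.nT e))
  · exact Or.inr (Or.inr ((key (ρ * ρ) (mul_mem h.nT h.nT) (e.trans (by simp [mul_assoc]))).trans
      (by simp [mul_assoc])))

theorem H4.npc {x : G} (hx : x ∈ (S : Subgroup G)) (x1 : x ≠ 1) : ∃ K : Subgroup 𝒞[x], K.Normal ∧
    ¬ 2 ∣ Nat.card K ∧ K.index = Nat.card (S : Subgroup G) ∧ ∀ y, y ∈ K ↔ ¬ 2 ∣ orderOf y := by
  have hle : (S : Subgroup G) ≤ 𝒞[x] := mem_cent_iff_le_cent_singleton.1 (abelian_iff_le_cent.1 cS hx)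
  obtain ⟨K, h1, h2, h3, h4⟩ := exists_npc Nat.prime_two (S.subtype hle) fun n hn =>
    subgroupOf_cent_eq hle ▸ mem_subgroupOf.2 (h.norm_cent_le cS hx x1 ⟨zpowers_le.1
      ((subgroupOf_norm_iff (zpowers_le.2 n.2) hle).1 fun m hm => by
        obtain ⟨k, hk⟩ := mem_subgroupOf.1 hm
        rw [show m = n ^ k from Subtype.ext hk.symm]
        exact zpow_mem hn k), n.2⟩)
  exact ⟨K, h1, h2, h3.trans (card_subgroupOf hle), h4⟩

omit cS in
/-- conjugation by `ρ` -/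
def H4.tau : (S : Subgroup G) →* (S : Subgroup G) :=
  ((MulAut.conj ρ).toMonoidHom.comp (S : Subgroup G).subtype).codRestrict _ fun x => h.mapT x.2

theorem H4.res (l : (S : Subgroup G) →* ℂˣ) : proj (B0 2 G) (th S l) ∘ (S : Subgroup G).subtype =
    (1 - lin l) + (1 - lin (l.comp h.tau)) + (1 - lin ((l.comp h.tau).comp h.tau)) := by
  funext x
  have odd : ∀ g : G, th (S : Subgroup G) l g ≠ 0 → 2 ^ 1 ∣ orderOf g := fun g hg => by
    have : g ∈ cjs (S : Subgroup G) := by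
      by_contra e
      rw [th_eq_zero l e] at hg
      exact hg rfl
    obtain ⟨g1, k, hk⟩ := mem_cjs.1 this
    have := IsPGrp.dvd_card (piGrp_zpowers_iff.2 (h.pT.piElt hk)) (by simpa using g1)
    rwa [Nat.card_zpowers, orderOf_conj] at this
  by_cases x1 : x = 1
  · rw [x1, Function.comp_apply, map_one, proj0_zero (g := 1) Nat.prime_two fun g hg =>
      (sep_of_orderOf (h := 1) Nat.prime_two (odd g hg) (by rw [orderOf_one]; norm_num)).symm]
    simp [lin_apply]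
  have x1' : (x : G) ≠ 1 := fun e => x1 (Subtype.ext e)
  obtain ⟨K, nK, h2, h3, h4⟩ := h.npc cS x.2 x1'
  obtain ⟨k, hk⟩ := (pElt_iff Nat.prime_two).1 (h.pT.piElt x.2)
  have hf := ZIrr.mem_CF (th_ZIrr l)
  have e := second_main Nat.prime_two hk rfl hf ⟨x, mem_cent_singleton_self _⟩ (mem_zpowers _)
  rw [proj0_of_npc Nat.prime_two h2 h4 (CF_comp hf _), sum_eq_single 1 (fun y _ y1 => by
    refine th_eq_zero l fun hy => y1 ?_
    obtain ⟨-, g, hg⟩ := mem_cjs.1 hy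
    have c : Commute (x : G) (y : 𝒞[(x : G)]) := (mem_centralizer_singleton_iff.1 y.1.2).symm
    have p1 : IsPiElt {2} ((x : G) * (y : 𝒞[(x : G)])) := by
      have := (h.pT.piElt hg).conj g⁻¹
      rwa [show ∀ w : G, g⁻¹ * (g * w * g⁻¹) * g⁻¹⁻¹ = w from fun w => by group] at this
    have p2 := (h.pT.piElt x.2).inv.mul p1 ((Commute.refl _).mul_right c).inv_left.eq
    rw [inv_mul_cancel_left] at p2
    by_contra y1
    refine (h4 y).1 y.2 ?_
    rw [← Subgroup.orderOf_coe, ← Nat.card_zpowers]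
    exact IsPGrp.dvd_card (piGrp_zpowers_iff.2 p2) fun e => y1 (Subtype.ext (Subtype.ext (zpowers_eq_bot.1 e))))
    (by simp)] at e
  have n1 : h.tau x ≠ x := fun e => x1' (h.fpfT x.2 (congrArg Subtype.val e))
  have n2 : h.tau (h.tau x) ≠ x := fun e => x1' (h.fpf2 x.2 (congrArg Subtype.val e))
  have n3 : h.tau (h.tau x) ≠ h.tau x := fun e => n1 (Subtype.ext ((MulAut.conj ρ).injective (congrArg Subtype.val e)))
  have e2 : (univ.filter fun y : (S : Subgroup G) => IsConj (x : G) y) = {x, h.tau x, h.tau (h.tau x)} := by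
    ext y
    simp only [mem_filter, mem_univ, true_and, mem_insert, Finset.mem_singleton, Subtype.ext_iff]
    refine ⟨h.fusion cS x.2 y.2, ?_⟩
    rintro (e | e | e) <;> rw [e]
    exacts [isConj_iff.2 ⟨ρ, rfl⟩, (isConj_iff.2 ⟨ρ, rfl⟩).trans (isConj_iff.2 ⟨ρ, rfl⟩)]
  refine e.trans ?_
  change _ * ind _ _ ((x : G) * 1) = _
  rw [mul_one, ind_apply_class, e2, sum_insert (by simp [n1.symm, n2.symm]), sum_pair n3.symm, ← K.card_mul_index, h3]
  have := card_ne_zero (G := K)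
  have := card_ne_zero (G := (S : Subgroup G))
  simp only [Pi.add_apply, Pi.sub_apply, Pi.one_apply, lin_apply, MonoidHom.comp_apply]
  push_cast
  field_simp
  ring

theorem H4.comp_ne {l : (S : Subgroup G) →* ℂˣ} (hl : l ≠ 1) : l.comp h.tau ≠ l := fun e => hl (by
  ext y
  obtain ⟨w, hw, e'⟩ := P03.fpf_surj h.nT h.inf_cent y.2
  have : y = ⟨w, hw⟩ * (h.tau ⟨w, hw⟩)⁻¹ := Subtype.ext (by rw [← e']; change _ = w * (ρ * w * ρ⁻¹)⁻¹; group)
  rw [this, map_mul, map_inv, ← MonoidHom.comp_apply, e, mul_inv_cancel]; rfl)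

theorem H4.comp3 (l : (S : Subgroup G) →* ℂˣ) : ((l.comp h.tau).comp h.tau).comp h.tau = l :=
  MonoidHom.ext fun y => congrArg l (Subtype.ext (h.sss y.2))

theorem H4.comp_ne_one {l : (S : Subgroup G) →* ℂˣ} (hl : l ≠ 1) : l.comp h.tau ≠ 1 := fun e =>
  hl (by rw [← h.comp3 cS l, e]; rfl)

theorem H4.dot_one {l : (S : Subgroup G) →* ℂˣ} (hl : l ≠ 1) : ⟪proj (B0 2 G) (th S l), 1⟫ = 1 := by
  rw [dot_proj (B0_subset 2) _ one_irr, if_pos (one_mem_B0 Nat.prime_two), dot_th_one hl]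

theorem H4.dot_pp {l m : (S : Subgroup G) →* ℂˣ} (hl : l ≠ 1) (hm : m ≠ 1) :
    ⟪proj (B0 2 G) (th S l) - 1, proj (B0 2 G) (th S m) - 1⟫ =
      if m ∈ ({l, l.comp h.tau, (l.comp h.tau).comp h.tau} : Finset _) then 3 else 2 := by
  have n1 := h.comp_ne cS hl
  have l1 := h.comp_ne_one cS hl
  have n2 := h.comp_ne cS l1
  have n3 := h.comp_ne cS (h.comp_ne_one cS l1)
  rw [h.comp3 cS] at n3
  rw [dot_sub_left, dot_sub_right, dot_sub_right, h.dot_one cS hl, dot_one_one,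
    dot_comm_of_int (ψ := 1) (n := 1) (by simpa using h.dot_one cS hm), dot_proj_proj (B0_subset 2),
    dot_th (proj_mem_CF (B0_subset 2) _), h.res cS]
  simp only [dot_add_left, dot_sub_left, ← lin_one, dot_lin, if_neg hl, if_neg l1, if_neg (h.comp_ne_one cS l1),
    if_neg hm.symm, mem_insert, Finset.mem_singleton]
  by_cases e1 : l = m
  · subst e1; simp [n1, n3.symm]; norm_num
  by_cases e2 : l.comp h.tau = m
  · subst e2; simp [e1, n2]; norm_num
  by_cases e3 : (l.comp h.tau).comp h.tau = m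
  · subst e3; simp [e1, e2]; norm_num
  · simp [e1, e2, e3, Ne.symm e1, Ne.symm e2, Ne.symm e3]; norm_num

theorem H4.brauer [IsSimpleGroup G] (hG : ¬ IsMulCommutative G) : (S : Subgroup G) ≤ V := by
  by_contra hn
  have h16 : 16 ≤ Nat.card (S : Subgroup G) := by
    have e := dvd_card_sub_cent Nat.prime_three h.nT h.p3
    have := card_lt_of_lt (lt_of_le_not_ge h.VT hn)
    obtain ⟨n, hn⟩ := (pGrp_iff_card Nat.prime_two).1 h.pT
    rw [h.inf_cent, card_bot, hn] at e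
    rw [hn, h.h4] at this
    rw [hn]
    by_contra h4
    have : n < 4 := (Nat.pow_lt_pow_iff_right one_lt_two).1 (not_le.1 h4)
    interval_cases n <;> omega
  have := Nat.finite_of_card_ne_zero (α := (S : Subgroup G) →* ℂˣ) (by rw [card_lin]; exact Nat.card_pos.ne')
  have := Fintype.ofFinite ((S : Subgroup G) →* ℂˣ)
  obtain ⟨Θ, hΘ⟩ : ∃ Θ : ((S : Subgroup G) →* ℂˣ) → G → ℂ, ∀ l, Θ l = proj (B0 2 G) (th S l) - 1 := ⟨_, fun _ => rfl⟩
  have Z : ∀ l, Θ l ∈ ZIrr G := fun l => hΘ l ▸ sub_mem (proj_ZIrr (B0_subset 2) (th_ZIrr l)) (one_mem _)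
  have d3 : ∀ l ≠ 1, ⟪Θ l, Θ l⟫ = 3 := fun l hl => by rw [hΘ, h.dot_pp cS hl hl, if_pos (mem_insert_self _ _)]
  have D1 : ∀ l, Θ l 1 = -1 := fun l => by
    have := congrFun (h.res cS l) 1
    simp only [Function.comp_apply, map_one, Pi.add_apply, Pi.sub_apply, lin_apply] at this
    rw [hΘ, Pi.sub_apply, this]; simp
  obtain ⟨a, b, ha, hb, hab, e⟩ := common_two (B := (univ.erase 1).image Θ) (by
      have := card_le_mul_card_image (f := Θ) (univ.erase 1) 3 fun θ hθ => by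
        obtain ⟨l, hl, rfl⟩ := mem_image.1 hθ
        refine (card_le_card fun m hm => ?_).trans (card_le_three (a := l) (b := l.comp h.tau)
          (c := (l.comp h.tau).comp h.tau))
        have := h.dot_pp cS (ne_of_mem_erase hl) (ne_of_mem_erase (mem_filter.1 hm).1)
        rw [← hΘ, ← hΘ, (mem_filter.1 hm).2, d3 l (ne_of_mem_erase hl)] at this
        by_contra hc
        rw [if_neg hc] at this
        norm_num at this
      rw [card_erase_of_mem (mem_univ _), card_univ, ← Nat.card_eq_fintype_card, card_lin] at this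
      omega)
    (forall_mem_image.2 fun l _ => Z l) (forall_mem_image.2 fun l _ => D1 l)
    (forall_mem_image.2 fun l hl => d3 l (ne_of_mem_erase hl))
    (forall_mem_image.2 fun l hl => forall_mem_image.2 fun m hm hne => by
      have := h.dot_pp cS (ne_of_mem_erase hl) (ne_of_mem_erase hm)
      rw [← hΘ, ← hΘ] at this
      rw [this, if_neg fun hc => hne (sub_eq_zero.1 (dot_self_eq_zero.1 ?_))]
      rw [if_pos hc] at this
      rw [dot_sub_left, dot_sub_right, dot_sub_right, d3 l (ne_of_mem_erase hl), d3 m (ne_of_mem_erase hm), this,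
        ZIrr.dot_comm (Z m) (Z l), this]
      norm_num)
  replace e : ∀ l ≠ 1, ⟪Θ l, a⟫ = 1 ∧ ⟪Θ l, b⟫ = 1 := fun l hl => e _ (mem_image_of_mem Θ (mem_erase.2 ⟨hl, mem_univ l⟩))
  obtain ⟨l, l1, hl⟩ := exists_lin_ne_one_of_ne_top (N := V.subgroupOf (S : Subgroup G))
    (by rw [(commutator_eq_bot_iff _).2 cS]; exact bot_le) fun e => hn (subgroupOf_eq_top.1 e)
  have Z1 : ⟪Θ l, 1⟫ = 0 := by rw [hΘ, dot_sub_left, h.dot_one cS l1, dot_one_one, sub_self]
  have val : ∀ a, Dirr a → (∀ m ≠ 1, ⟪Θ m, a⟫ = 1) → ∀ y ∈ cjs (S : Subgroup G), a y = 1 := fun a ha e y hy => by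
    have a1 := dirr_orth_one ha (e l l1) Z1
    obtain ⟨y1, g, hg⟩ := mem_cjs.1 hy
    have hC := ZIrr.mem_CF ha.mem_ZIrr
    rw [← CF_conj hC y g, apply_eq_sum' cS hC (s := univ.erase 1) (x := ⟨_, hg⟩) (fun m => by
      by_cases hm : m = 1
      · simp [hm, th, dot_zero_right]
      have := e m hm
      rw [hΘ, dot_sub_left, dot_comm_zero a1, sub_zero] at this
      rw [if_pos (by simpa using hm), ZIrr.dot_comm ha.mem_ZIrr (th_ZIrr m),
        dot_proj_dirr (B0_subset 2) ha (by rw [this]; exact one_ne_zero), this])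
      (fun e => y1 (by simpa using congrArg Subtype.val e)), sum_erase_eq_sub (mem_univ _), sum_lin_apply,
      if_neg fun e => y1 (by simpa using congrArg Subtype.val e)]
    simp
  have va := val a ha fun m hm => (e m hm).1
  have vb := val b hb fun m hm => (e m hm).2
  have hc : Dirr (Θ l - a - b) := dirr_sub (sub_mem (Z l) ha.mem_ZIrr) (by
    rw [nrm_sub_of_dot_one ha.dot_self (e l l1).1, nrm_eq_of_dot (r := 3) (by simpa using d3 l l1)]; norm_num) hb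
    (by rw [dot_sub_left, (e l l1).2, hab, sub_zero])
  have z4 : ∀ g, ¬ 2 ^ 2 ∣ orderOf g → Θ l g = -1 := fun g hg => by
    rw [hΘ, Pi.sub_apply, proj0_zero Nat.prime_two fun w hw => (sep_of_orderOf Nat.prime_two ?_ hg).symm]
    · simp
    by_contra h4
    refine hw (ind_eq_zero fun x hx => ?_)
    obtain ⟨k, hk⟩ := (pGrp_iff_card Nat.prime_two).1 (piGrp_zpowers_iff.2 (h.pT.piElt x.2))
    rw [Nat.card_zpowers] at hk
    rw [← orderOf_eq_of_isConj hx, coe_subtype, hk] at h4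
    have : l x = 1 := hl (mem_subgroupOf.2 (h.inv _ x.2 (by
      rw [← pow_two, ← orderOf_dvd_iff_pow_eq_one, hk]
      exact pow_dvd_pow 2 (show k ≤ 1 from Nat.le_of_lt_succ (not_le.1 fun e => h4 (pow_dvd_pow 2 e))))))
    simp [lin_apply, this]
  obtain ⟨t, ht, t1⟩ := exists_mem_ne_one (ne_bot_of_prime_dvd_card (H := V) Nat.prime_two (by rw [h.h4]; norm_num))
  have cj : ∀ u : G, u * u = 1 → u ≠ 1 → IsConj t u := fun u u2 u1 => by
    obtain ⟨g, -, hg⟩ := sylow_Jsub Nat.prime_two (sylow_top Nat.prime_two S)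
      (piGrp_zpowers_iff.2 (pElt_of_pow_eq_one Nat.prime_two (by rw [pow_two, u2]))) le_top
    refine IsConj.trans ?_ (isConj_iff.2 ⟨g, rfl⟩ : IsConj u _).symm
    rcases h.rot ht t1 (h.inv _ (hg (conj_mem_conjg g (mem_zpowers u))) (by
      rw [show g * u * g⁻¹ * (g * u * g⁻¹) = g * (u * u) * g⁻¹ by group, u2]; group))
      (by rwa [ne_eq, conj_eq_one_iff]) with e | e | e <;> rw [e]
    exacts [isConj_iff.2 ⟨ρ, rfl⟩, (isConj_iff.2 ⟨ρ, rfl⟩).trans (isConj_iff.2 ⟨ρ, rfl⟩)]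
  have P0 : Phi (Θ l) = - (invs G).card ^ 2 := by
    rw [← Phi_one, ← Phi_neg]
    refine sum_congr rfl fun u hu => sum_congr rfl fun v hv => z4 _ fun h4 => ?_
    obtain ⟨x, hx⟩ : ∃ x, x = (u * v) ^ (orderOf (u * v) / 2 ^ 2) := ⟨_, rfl⟩
    have o : orderOf x = 2 ^ 2 := hx ▸ orderOf_pow_orderOf_div (orderOf_pos _).ne' h4
    have i : u * x * u⁻¹ = x⁻¹ := by
      rw [hx, ← conj_pow, inv_of_mem_invs hu (by rwa [← mul_assoc, (mem_invs.1 hu).1, one_mul]), inv_pow]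
    obtain ⟨g, -, hg⟩ := sylow_Jsub Nat.prime_two (sylow_top Nat.prime_two S)
      (pGrp_of_card_eq_pow Nat.prime_two ((Nat.card_zpowers x).trans o)) le_top
    have m := hg (conj_mem_conjg g (mem_zpowers x))
    rw [← orderOf_conj x g] at o
    have ci : IsConj (g * x * g⁻¹) (g * x * g⁻¹)⁻¹ := isConj_iff.2 ⟨g * u * g⁻¹, by
      calc _ = g * (u * x * u⁻¹) * g⁻¹ := by group
        _ = _ := by rw [i]; group⟩
    generalize g * x * g⁻¹ = y at m o ci
    have y1 : y ≠ 1 := fun e => by simp [e] at o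
    rcases h.fusion cS m (inv_mem m) ci with e | e | e
    · have := orderOf_dvd_of_pow_eq_one (show y ^ 2 = 1 by rw [pow_two]; exact mul_eq_one_iff_eq_inv.2 e.symm)
      rw [o] at this
      norm_num at this
    · exact y1 (h.fpf2 m (by rw [← e, map_inv, ← e, inv_inv]))
    · refine y1 (h.fpfT m ?_)
      rw [← h.sss (h.mapT m), ← e, map_inv, map_inv, ← e, inv_inv]
  have tc := mem_cjs_of_mem (h.VT ht) t1
  have p1 := Phi_dirr cj ha
  have p2 := Phi_dirr cj hb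
  have p3 := Phi_dirr cj hc
  obtain ⟨c, e1⟩ := exists_deg_eq ha.mem_ZIrr va
  obtain ⟨d, e2⟩ := exists_deg_eq hb.mem_ZIrr vb
  rw [Phi_sub, Phi_sub, P0, Pi.sub_apply, Pi.sub_apply, Pi.sub_apply, Pi.sub_apply, D1, va t tc, vb t tc,
    z4 t (by rw [orderOf_two (h.sq t ht) t1]; norm_num)] at p3
  rw [va t tc] at p1
  rw [vb t tc] at p2
  have N0 : ((invs G).card : ℂ) ≠ 0 := Nat.cast_ne_zero.2 (card_pos.2 ⟨t, mem_invs.2 ⟨h.sq t ht, t1⟩⟩).ne'
  refine int_brauer (n := Nat.card (S : Subgroup G)) (c := c) (d := d) (by exact_mod_cast h16) rfl rfl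
    (fun e' => (dirr_deg (der_top_eq hG) ha (dirr_orth_one ha (e l l1).1 Z1)).1 (by rw [e1]; exact_mod_cast e'))
    (fun e' => (dirr_deg (der_top_eq hG) hb (dirr_orth_one hb (e l l1).2 Z1)).1 (by rw [e2]; exact_mod_cast e')) ?_
  have : (a 1 * b 1 + a 1 + b 1) * (1 + a 1 + b 1) = 9 * (a 1 * b 1) := mul_left_cancel₀ (pow_ne_zero 2 N0) (by
    linear_combination a 1 * b 1 * p3 - (1 + a 1 + b 1) * b 1 * p1 - (1 + a 1 + b 1) * a 1 * p2)
  rw [e1, e2] at this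
  exact_mod_cast this

end

end CA.Dih

theorem CA.Dih.realizeEqnsRk2C : True := by
  have := @CA.Dih.H4.tau.eq_1.{0}
  have := @CA.Dih.H4.tau.eq_def.{0}
  have := @CA.Dih.H4.tau.congr_simp.{0}
  trivial
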