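/-
A Sylow 2-subgroup of `U₃(4)`.
-/
import Cfsg.Agent.Dih.Rk2B
import Cfsg.Agent.Unit.Order
import Cfsg.Agent.Lin.GL2

set_option autoImplicit false
set_option linter.unusedSectionVars false

namespace CA.Dih

open Subgroup Cfsg CA.FG Cfsg.Agent.Unit
open scoped commutatorElement

universe u v

theorem URel.of_inj {G : Type u} [Group G] {G' : Type v} [Group G'] {a₀ a₁ b₀ b₁ : G} (f : G →* G')
    (hf : Function.Injective f) (h : URel (f a₀) (f a₁) (f b₀) (f b₁)) : URel a₀ a₁ b₀ b₁ := by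
  constructor <;> apply hf <;> simp only [map_mul, map_commutatorElement, map_one]
  exacts [h.r1, h.r2, h.r3, h.r4, h.r5, h.r6, h.r7, h.r8, h.r9, h.r10]

theorem exists_urel_SUG {K : Type u} [Field K] [StarRing K] (hq : FQ K 4) :
    ∃ c₀ c₁ d₀ d₁ : SUG (std K 3), URel c₀ c₁ d₀ d₁ ∧ c₀ * c₀ ≠ 1 ∧ c₁ * c₁ ≠ 1 ∧ c₀ * c₀ * (c₁ * c₁) ≠ 1 := by
  classical
  have := hq.finite
  have h2 : (2 : K) = 0 := by
    have : ((2 ^ 4 : ℕ) : K) = 0 := by
      letI := Fintype.ofFinite K
      rw [show 2 ^ 4 = 4 ^ 2 from rfl, ← hq.card, Nat.card_eq_fintype_card, FiniteField.cast_card_eq_zero]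
    exact pow_eq_zero_iff (by norm_num) |>.1 (by exact_mod_cast this : (2 : K) ^ 4 = 0)
  have hs := hq.exists_star_ne
  obtain ⟨θ, hθ⟩ := exists_trace_one hs
  obtain ⟨e, f, H⟩ := exists_HP_std hq (n := 3) (by norm_num)
  obtain ⟨v₀, h1, -, h3⟩ := H.exists_orth hs (nondeg_std 3) (by simp)
  obtain ⟨y, hy⟩ := hq.exists_norm_eq (c := (std K 3 v₀ v₀)⁻¹) (by rw [star_inv₀, Herm.star_apply])
  obtain ⟨v, ev, vv⟩ : ∃ v, std K 3 e v = 0 ∧ std K 3 v v = 1 :=
    ⟨y • v₀, by simp [h1], by rw [Herm.smul_left, Herm.smul_right, ← mul_assoc, hy, inv_mul_cancel₀ h3]⟩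
  have ex : ∀ x : K, ∃ a, a + star a + std K 3 (x • v) (x • v) = 0 := fun x => by
    obtain ⟨a, ha⟩ := exists_trace_eq hs (c := - std K 3 (x • v) (x • v)) (by rw [star_neg, Herm.star_apply])
    exact ⟨a, by rw [ha, neg_add_cancel]⟩
  choose a ha using ex
  let E : K → UG (std K 3) := fun x => eich e (x • v) (a x) H.he (by simp [ev]) (ha x)
  let z : K → UG (std K 3) := fun c => if hc : c + star c + std K 3 0 0 = 0 then eich e 0 c H.he (by simp) hc else 1
  have hz : ∀ c hv hc, eich e 0 c H.he hv hc = z c := fun c hv hc => (dif_pos hc).symm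
  have sq : ∀ x, E x * E x = z (x * star x) := fun x => by
    rw [eich_mul, ← hz _ (by simp) (by simp; linear_combination x * star x * h2)]
    exact eich_congr _ _ _ rfl (by rw [← add_smul, ← two_mul, h2, zero_mul, zero_smul])
      (by simp [vv]; linear_combination (a x - x * star x) * h2)
  have cm : ∀ x y, ⁅E x, E y⁆ = z (x * star y + y * star x) := fun x y => by
    rw [commutator_eich, hz]
    congr 1
    simp [vv]; linear_combination - y * star x * h2
  have zz : ∀ c d, star c = c → star d = d → z c * z d = z (c + d) := fun c d hc hd => by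
    rw [← hz c (by simp) (by simp [hc]; linear_combination c * h2), ← hz d (by simp) (by simp [hd]; linear_combination d * h2),
      eich_mul, ← hz _ (by simp) (by simp [hc, hd]; linear_combination (c + d) * h2)]
    exact eich_congr _ _ _ rfl (by simp) (by simp)
  have z0 : z 0 = 1 := by rw [← hz _ (by simp) (by simp), eich_zero]
  have z1 : ∀ c, star c = c → c ≠ 0 → z c ≠ 1 := fun c hc c0 h => by
    rw [← hz c (by simp) (by simp [hc]; linear_combination c * h2)] at h
    have := congrArg (fun g : UG (std K 3) => g.1 f) h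
    simp only [eich_apply, H.hfe] at this
    exact H.ne_zero (by simpa [c0] using this)
  obtain ⟨ω, hω⟩ : ∃ ω, ω = θ * star θ := ⟨_, rfl⟩
  have sω : star ω = ω := by rw [hω, star_mul', star_star, mul_comm]
  have qω : ω * ω + ω + 1 = 0 := by
    have e1 : star θ = θ ^ 4 := hq.star_eq θ
    have e2 : star θ = 1 - θ := by linear_combination hθ
    rw [hω, e2]
    linear_combination e2 - e1 + (θ - θ ^ 3 + 1 - θ) * h2
  have ω0 : ω ≠ 0 := fun e => by simp [e] at qω
  have s2 : star (ω * ω) = ω * ω := by rw [star_mul', sω]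
  have n0 : E 1 * E 1 = z 1 := by rw [sq, star_one, mul_one]
  have n1 : E ω * E ω = z (ω * ω) := by rw [sq, sω]
  have n2 : E 1 * E 1 * (E ω * E ω) = z ω := by
    rw [n0, n1, zz _ _ (star_one _) s2]; congr 1; linear_combination qω - ω * h2
  refine ⟨⟨E 1, eich_mem_SUG ..⟩, ⟨E ω, eich_mem_SUG ..⟩, ⟨E θ, eich_mem_SUG ..⟩, ⟨E (ω * θ), eich_mem_SUG ..⟩,
    URel.of_inj (SUG _).subtype Subtype.val_injective ?_, fun h => z1 1 (star_one _) one_ne_zero
      (n0 ▸ congrArg Subtype.val h), fun h => z1 _ s2 (mul_ne_zero ω0 ω0) (n1 ▸ congrArg Subtype.val h),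
      fun h => z1 _ sω ω0 (n2 ▸ congrArg Subtype.val h)⟩
  change URel (E 1) (E ω) (E θ) (E (ω * θ))
  constructor
  · rw [n0, zz _ _ (star_one _) (star_one _), ← z0]; congr 1; linear_combination h2
  · rw [n1, zz _ _ s2 s2, ← z0]; congr 1; linear_combination ω * ω * h2
  · rw [n2, sq, hω]
  · rw [n0, sq, star_mul', sω]; congr 1; linear_combination (ω - 1) * qω - ω * ω * hω
  · rw [cm, ← z0, star_one, sω]; congr 1; linear_combination ω * h2
  · rw [cm, ← z0, star_mul', sω]; congr 1; linear_combination ω * θ * star θ * h2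
  · rw [cm, n0, star_one]; congr 1; linear_combination hθ
  · rw [cm, n2, sω]; congr 1; linear_combination ω * hθ
  · rw [cm, n2, star_mul', sω, star_one]; congr 1; linear_combination ω * hθ
  · rw [cm, n1, star_mul', sω]; congr 1; linear_combination ω * ω * hθ

theorem H4.equiv_PSU {G : Type u} [Group G] [Finite G] {T V : Subgroup G} {ρ : G} (h : H4 T V ρ)
    (hn : ¬ IsMulCommutative T) {F : Type v} [Field F] [Fintype F] (hF : Fintype.card F = 16)
    (P : Sylow 2 (PSU 3 F 4)) : Nonempty (T ≃* (P : Subgroup (PSU 3 F 4))) := by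
  letI := frobStar (q := 4) hF
  have hq := fq_frobStar (q := 4) hF
  have h1 := hq.card_PSU (n := 3) (by norm_num)
  have h2 : Nat.card (PSU 3 F 4) = 62400 := by
    generalize Nat.card (PSU 3 F 4) = N at h1
    norm_num [Finset.prod_range_succ] at h1
    omega
  haveI : Finite (PSU 3 F 4) := Nat.finite_of_card_ne_zero (by rw [h2]; norm_num)
  obtain ⟨c₀, c₁, d₀, d₁, r, n0, n1, n2⟩ := exists_urel_SUG hq
  let φ : SUG (std F 3) →* PSU 3 F 4 := (QuotientGroup.mk' _).comp (hq.su 3).symm.toMonoidHom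
  have hφ : Function.Injective φ := ((MonoidHom.ker_eq_bot_iff (QuotientGroup.mk' _)).1 (by
    rw [QuotientGroup.ker_mk', ← card_eq_one, hq.card_center_SU (by norm_num)]; rfl)).comp (hq.su 3).symm.injective
  obtain ⟨hc, f, hf⟩ := h.exists_inj hn (r.map φ) (by rwa [← map_mul, ne_eq, map_eq_one_iff φ hφ])
    (by rwa [← map_mul, ne_eq, map_eq_one_iff φ hφ])
    (by rwa [← map_mul, ← map_mul, ← map_mul, ne_eq, map_eq_one_iff φ hφ])
  have c : Nat.card f.range = 2 ^ 6 := by rw [← Nat.card_congr (MonoidHom.ofInjective hf).toEquiv, hc]; rfl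
  obtain ⟨Q, hQ⟩ := Cfsg.Agent.Lin.exists_sylow_coe_eq_of_card (p := 2) (IsPGroup.of_card c) fun Q => by
    rw [c, Sylow.card_eq_multiplicity, h2]
    refine Nat.pow_le_pow_right two_pos (Nat.le_of_lt_succ (not_le.1 fun h => ?_))
    have := (Nat.prime_two.pow_dvd_iff_le_factorization (by norm_num)).2 h
    norm_num at this
  exact ⟨((MonoidHom.ofInjective hf).trans (MulEquiv.subgroupCongr hQ.symm)).trans (Sylow.equiv Q P)⟩

end CA.Dih
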