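/-
Sylow 2-subgroups of simple groups of 2-rank two (Alperin).
-/
import Cfsg.Agent.Dih.Rk2C
import Cfsg.Agent.Dih.Rk2M
import Cfsg.Agent.TG.Cyc
import Cfsg.Agent.Lin.Quat

set_option autoImplicit false
set_option linter.unusedSectionVars false

namespace CA.Dih

open Subgroup Cfsg CA.FG CA.BG MulAction
open scoped commutatorElement IsMulCommutative

universe u v

variable {G : Type u} [Group G] [Finite G]

theorem mem_four_of_cent (h2 : PRankLE 2 2 G) {V : Subgroup G} (h4 : Nat.card V = 4) (sq : ∀ v ∈ V, v * v = 1)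
    {x : G} (x2 : x * x = 1) (hx : x ∈ 𝒞(V)) : x ∈ V := by
  have sq' : ∀ v ∈ V, v ^ 2 = 1 := fun v hv => by rw [pow_two, sq v hv]
  have ab := abelem_sup (p := 2) (A := V) ⟨abelian_iff_forall.2 fun a ha b hb => CA.TG.Four.comm_of_sq sq' ha hb,
    sq'⟩ (abelem_zpowers (x := x) (by rw [pow_two, x2])) (le_cent_symm (zpowers_le.2 hx))
  have := h2 _ ab.1 ab.2
  exact (eq_of_le_of_card_ge le_sup_left (by omega) : V = V ⊔ zpowers x).ge (mem_sup_right (mem_zpowers x))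

theorem dih8 {S : Subgroup G} (pS : IsPGrp 2 S) (h8 : Nat.card S ≤ 8) {a b : G} (ha : a ∈ S) (hb : b ∈ S)
    (a2 : a * a = 1) (b2 : b * b = 1) (hab : a * b ≠ b * a) : ∃ n : ℕ, 2 ≤ n ∧ Nonempty (S ≃* DihedralGroup n) := by
  have ia := inv_eq_of_mul_eq_one_left a2
  have ib := inv_eq_of_mul_eq_one_left b2
  have aN : a ∉ zpowers (a * b) := fun e => hab (by
    have := mem_centralizer_singleton_iff.1 (cent_singleton_le_of_mem_zpowers e (mem_cent_singleton_self _))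
    rwa [mul_assoc, mul_right_inj, eq_comm] at this)
  have o : 4 ≤ orderOf (a * b) := by
    obtain ⟨k, hk⟩ := (pGrp_iff_card Nat.prime_two).1 (piGrp_zpowers_iff.2 (pS.piElt (mul_mem ha hb)))
    rw [Nat.card_zpowers] at hk
    rw [hk]
    refine Nat.pow_le_pow_right two_pos (show 2 ≤ k from not_lt.1 fun h => hab ?_)
    have : (a * b) ^ 2 = 1 := orderOf_dvd_iff_pow_eq_one.1 (hk ▸ pow_dvd_pow 2 (show k ≤ 1 by omega))
    rw [← inv_eq_of_mul_eq_one_left ((pow_two _).symm.trans this), mul_inv_rev, ia, ib]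
  have i : (zpowers (a * b)).relIndex S = 2 := by
    have h1 := one_lt_relIndex (A := zpowers (a * b)) (B := S) fun e => aN (e ha)
    have h2 := card_mul_relIndex (zpowers_le.2 (mul_mem ha hb))
    rw [Nat.card_zpowers] at h2
    nlinarith
  have mz : ∀ {x c : S}, x ∈ zpowers c ↔ (x : G) ∈ zpowers (c : G) := fun {x c} =>
    ⟨fun ⟨k, e⟩ => ⟨k, congrArg Subtype.val e⟩, fun ⟨k, e⟩ => ⟨k, Subtype.ext e⟩⟩
  refine ⟨orderOf (a * b), by omega, Cfsg.Agent.Lin.nonempty_equiv_dihedral _ (⟨a * b, mul_mem ha hb⟩ : S) ⟨a, ha⟩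
    (orderOf_mk _ _) (Subtype.ext ?_) (Subtype.ext a2) (fun e => aN (mz.1 e)) fun g => or_iff_not_imp_left.2
      fun hg => mz.2 (mul_mem_of_relIndex_two i (inv_mem ha) g.2 (fun e => aN (inv_mem_iff.1 e)) fun e => hg (mz.2 e))⟩
  change a * b * a = a * (a * b)⁻¹
  rw [mul_inv_rev, ia, ib, mul_assoc]

theorem exists_extremal {S : Subgroup G} (hS : IsSylowOf 2 S ⊤) {z u : G} (hz : S ≤ 𝒞[z]) (c : IsConj u z) :
    ∃ h, h * u * h⁻¹ = z ∧ (S ⊓ 𝒞[u]) :^ h ≤ S := by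
  obtain ⟨g, rfl⟩ := isConj_iff.1 c
  obtain ⟨x, hx, e⟩ := sylow_Jsub Nat.prime_two (hS.of_le hz le_top) ((hS.pGrp.inf_left 𝒞[u]).conjg g)
    (conjg_cent1 u g ▸ conjg_mono g inf_le_right)
  refine ⟨x * g, ?_, conjg_mul _ g x ▸ e⟩
  calc _ = x * (g * u * g⁻¹) * x⁻¹ := by group
    _ = _ := by rw [mem_centralizer_singleton_iff.1 hx, mul_inv_cancel_right]

theorem exists_H4 (h2 : PRankLE 2 2 G) {S V : Subgroup G} (hS : IsSylowOf 2 S ⊤) (h4 : Nat.card V = 4)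
    (sq : ∀ v ∈ V, v * v = 1) (VS : V ≤ S) (nV : S ≤ 𝒩(V)) {z n : G} (hz : z ∈ V) (cz : S ≤ 𝒞[z])
    (hn : n ∈ 𝒩(S ⊓ 𝒞(V))) (nz : n ∉ 𝒞[z]) : ∃ ρ, H4 (S ⊓ 𝒞(V)) V ρ := by
  cases nonempty_fintype G
  have VT : V ≤ S ⊓ 𝒞(V) := le_inf VS (le_cent_iff_forall.2 fun a ha b hb =>
    CA.TG.Four.comm_of_sq (fun v hv => by rw [pow_two, sq v hv]) ha hb)
  have inv : ∀ x ∈ S ⊓ 𝒞(V), x * x = 1 → x ∈ V := fun x hx e => mem_four_of_cent h2 h4 sq e hx.2
  obtain ⟨q, hq, hd⟩ := Nat.exists_prime_and_dvd (one_lt_relIndex (A := 𝒞[z]) (B := 𝒩(S ⊓ 𝒞(V))) fun e => nz (e hn)).ne'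
  obtain ⟨ρ, nρ, qρ, cρ⟩ := P04.exists_not_le_of_dvd_relIndex hq hd
  have q2 : q ≠ 2 := by
    rintro rfl
    exact IsSylowOf.not_dvd_index (hS.of_le (norm_inf le_normalizer (norm_cent nV)) le_top) Nat.prime_two
      (hd.trans (relIndex_dvd_of_le_left _ cz))
  rcases odd_act_four h4 hq q2 (mem_norm_of_forall fun v hv => inv _ (conj_mem_of_mem_norm nρ (VT hv)) (by
    rw [show ρ * v * ρ⁻¹ * (ρ * v * ρ⁻¹) = ρ * (v * v) * ρ⁻¹ by group, sq v hv]; group)) qρ with c | ⟨rfl, c⟩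
  · exact absurd (cent_le_cent_singleton hz c) cρ
  · exact ⟨ρ, hS.pGrp.inf_left _, VT, inf_le_right, h4, sq, inv, nρ, qρ, fun v hv e =>
      c.le ⟨hv, mem_centralizer_singleton_iff.2 (mul_inv_eq_iff_eq_mul.1 e).symm⟩⟩

theorem H4.wreathed {S T V : Subgroup G} {ρ s v : G} (h : H4 T V ρ) (cT : IsMulCommutative T) (pS : IsPGrp 2 S)
    (TS : T ≤ S) (i : T.relIndex S = 2) (hs : s ∈ S) (sT : s ∉ T) (hv : v ∈ V) (sv : s * v * s⁻¹ ≠ v) :
    (∃ n : ℕ, 2 ≤ n ∧ Nonempty (S ≃* DihedralGroup n)) ∨ IsWreathed S := by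
  cases nonempty_fintype G
  have v1 : v ≠ 1 := fun e => sv (by simp [e])
  obtain ⟨n, x, hx, ox, hc, vx⟩ := h.exists_gen cT hv v1
  have cm := abelian_iff_forall.1 cT
  have nT := norm_of_relIndex_le_two TS i.le hs
  obtain ⟨y, ey⟩ : ∃ y, y = s * x * s⁻¹ := ⟨_, rfl⟩
  have hy : y ∈ T := ey ▸ conj_mem_of_mem_norm nT hx
  have s2 := mul_mem_of_relIndex_two i hs hs sT sT
  have ex : s * y * s⁻¹ = x := by
    rw [ey, show s * (s * x * s⁻¹) * s⁻¹ = s * s * x * (s * s)⁻¹ by group, cm _ s2 _ hx, mul_inv_cancel_right]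
  have dj : zpowers x ⊓ zpowers y = ⊥ := eq_bot_iff.2 fun w hw => by_contra fun w1 => by
    obtain ⟨u, hu, u2, u1⟩ := exists_inv_of_piElt (h.pT.piElt (zpowers_le.2 hx hw.1)) w1
    have e1 := eq_of_cyclic_inv (cyclic_zpowers x) (zpowers_le.2 hw.1 hu) vx u2 u1 (h.sq v hv) v1
    refine sv (e1 ▸ eq_of_cyclic_inv (cyclic_zpowers y) ?_ (zpowers_le.2 hw.2 hu) ?_ (by simpa using u1) u2 u1)
    · rw [ey, ← conjg_zpowers, e1]; exact conj_mem_conjg s vx
    · rw [show s * u * s⁻¹ * (s * u * s⁻¹) = s * (u * u) * s⁻¹ by group, u2]; group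
  have nxy : zpowers x ≤ 𝒩(zpowers y) := norm_of_cent (zpowers_le.2 (by
    rw [cent_zpowers]; exact mem_centralizer_singleton_iff.2 (cm x hx y hy)))
  have c1 := card_sup_of_inf_eq_bot (Or.inl nxy) dj
  rw [Nat.card_zpowers, Nat.card_zpowers, ey, orderOf_conj, ← ey, ox, ← mul_pow] at c1
  have eT : zpowers x ⊔ zpowers y = T := eq_of_le_of_card_ge (sup_le (zpowers_le.2 hx) (zpowers_le.2 hy)) (hc.trans c1.ge)
  obtain ⟨_, ⟨i₁, rfl⟩, _, ⟨j, rfl⟩, e⟩ := (mem_sup_of_left_le_norm nxy).1 (eT.ge s2)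
  simp only at e
  have cxy : Commute x y := cm x hx y hy
  have e' : y ^ i₁ * x ^ j = x ^ i₁ * y ^ j := by
    rw [e, show s * s = s * (s * s) * s⁻¹ by group, ← e, ← conj_mul, ← conj_zpow, ← conj_zpow, ← ey, ex]
  have e'' : y ^ j = y ^ i₁ := by
    have : (y ^ i₁)⁻¹ * y ^ j = (x ^ i₁)⁻¹ * x ^ j := by
      rw [inv_mul_eq_iff_eq_mul, ← mul_assoc, ← (cxy.zpow_zpow i₁ i₁).inv_left.eq, mul_assoc, e', inv_mul_cancel_left]
    refine (inv_mul_eq_one.1 (dj.le (mem_inf.2 ⟨?_, (zpowers y).mul_mem (inv_mem (zpow_mem_zpowers _ _)) (zpow_mem_zpowers _ _)⟩))).symm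
    rw [this]
    exact (zpowers x).mul_mem (inv_mem (zpow_mem_zpowers _ _)) (zpow_mem_zpowers _ _)
  obtain ⟨w, ew⟩ : ∃ w, w = (x ^ i₁)⁻¹ * s := ⟨_, rfl⟩
  have hw : w ∈ S := ew ▸ mul_mem (inv_mem (zpow_mem (TS hx) _)) hs
  have w2 : w * w = 1 := by
    calc _ = (x ^ i₁)⁻¹ * ((s * x * s⁻¹) ^ i₁)⁻¹ * (s * s) := by rw [ew, conj_zpow]; group
      _ = _ := by rw [← ey, ← e, e'', ← mul_inv_rev, (cxy.zpow_zpow i₁ i₁).eq, inv_mul_cancel]
  have wx : w * x * w⁻¹ = y := by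
    calc _ = (x ^ i₁)⁻¹ * (s * x * s⁻¹) * x ^ i₁ := by rw [ew]; group
      _ = _ := by rw [← ey, (cxy.zpow_left i₁).inv_left.eq, inv_mul_cancel_right]
  have xy : x ≠ y := fun e => v1 (dj.le ⟨vx, e ▸ vx⟩)
  have cS : Nat.card S = 2 ^ (2 * n + 1) := by rw [← card_mul_relIndex TS, i, ← eT, c1, pow_succ, pow_mul, pow_two]
  by_cases hn : 2 ≤ n
  · refine Or.inr ⟨n, hn, cS, ⟨x, TS hx⟩, ⟨y, TS hy⟩, ⟨w, hw⟩, (orderOf_mk _ _).trans ox, Subtype.ext cxy.eq,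
      eq_bot_iff.2 fun a ⟨⟨k, e1⟩, ⟨l, e2⟩⟩ => Subtype.ext (dj.le ⟨⟨k, congrArg Subtype.val e1⟩,
        ⟨l, congrArg Subtype.val e2⟩⟩), (orderOf_mk _ _).trans (orderOf_two w2 fun e => xy ?_), Subtype.ext wx⟩
    simpa [e] using wx
  · refine Or.inl (dih8 pS (cS ▸ Nat.pow_le_pow_right two_pos (show 2 * n + 1 ≤ 3 by omega)) hw (TS hx) w2 ?_
      fun e => xy (by rw [← wx, e, mul_inv_cancel_right]))
    rw [← pow_two, ← orderOf_dvd_iff_pow_eq_one, ox]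
    exact pow_dvd_pow 2 (show n ≤ 1 by omega)

theorem exists_fused [IsSimpleGroup G] (hG : ¬ IsMulCommutative G) {S : Subgroup G} (hS : IsSylowOf 2 S ⊤) {t : G}
    (ht : t ∈ S) (t2 : t * t = 1) (t1 : t ≠ 1) : ∃ u ∈ S, u ≠ t ∧ IsConj u t := by
  obtain ⟨P, rfl⟩ := hS.exists_sylow_top Nat.prime_two
  obtain ⟨g, c, e⟩ := CA.Blk.exists_fused_of_simple hG (orderOf_two t2 t1)
  by_contra H
  push Not at H
  exact e (CA.Blk.isolated_of_sylow (orderOf_two t2 t1) P ht (fun g hg => by_contra fun e =>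
    H _ hg e (isConj_iff.2 ⟨g, rfl⟩ : IsConj t _).symm) g c)

theorem noncentral_four [IsSimpleGroup G] (hG : ¬ IsMulCommutative G) (h2 : PRankLE 2 2 G) {S V : Subgroup G}
    (hS : IsSylowOf 2 S ⊤) (h4 : Nat.card V = 4) (sq : ∀ v ∈ V, v * v = 1) (VS : V ≤ S) (nV : S ≤ 𝒩(V))
    (hn : ¬ S ≤ 𝒞(V)) : (∃ n : ℕ, 2 ≤ n ∧ Nonempty (S ≃* DihedralGroup n)) ∨ IsWreathed S := by
  have pS := hS.pGrp
  obtain ⟨z, ⟨hz, -, cz⟩, z1⟩ := exists_mem_ne_one (meet_center_nil (IsPGrp.nil pS) ⟨VS, nV⟩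
    (ne_bot_of_prime_dvd_card Nat.prime_two (by rw [h4]; norm_num)))
  replace cz : S ≤ 𝒞[z] := mem_cent_iff_le_cent_singleton.1 cz
  have cV : ∀ a ∈ V, ∀ b ∈ V, a * b = b * a := fun a ha b hb =>
    CA.TG.Four.comm_of_sq (fun v hv => by rw [pow_two, sq v hv]) ha hb
  obtain ⟨T, hT⟩ : ∃ T, T = S ⊓ 𝒞(V) := ⟨_, rfl⟩
  have TS : T ≤ S := hT ▸ inf_le_left
  have TC : T ≤ 𝒞(V) := hT ▸ inf_le_right
  have VT : V ≤ T := hT ▸ le_inf VS (le_cent_iff_forall.2 cV)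
  have inv : ∀ x ∈ T, x * x = 1 → x ∈ V := fun x hx e => mem_four_of_cent h2 h4 sq e (TC hx)
  have fx : ∀ v ∈ V, v ≠ 1 → v ≠ z → ∀ s ∈ S, s * v * s⁻¹ = v → s ∈ T := fun v hv v1 vz s hs e =>
    hT ▸ ⟨hs, mem_centralizer_iff.2 fun w hw => by
      have e1 := mul_inv_eq_iff_eq_mul.1 e
      have e2 := mem_centralizer_singleton_iff.1 (cz hs)
      rcases four_cases h4 sq hv hz v1 z1 vz hw with rfl | rfl | rfl | rfl
      exacts [by simp, e1.symm, e2.symm, by rw [mul_assoc, ← e2, ← mul_assoc, ← e1, mul_assoc]]⟩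
  have cjz : ∀ s ∈ S, s * z * s⁻¹ = z := fun s hs => mul_inv_eq_iff_eq_mul.2 (mem_centralizer_singleton_iff.1 (cz hs))
  have sw : ∀ v ∈ V, v ≠ 1 → v ≠ z → ∀ s ∈ S, s ∉ T → s * v * s⁻¹ = v * z := fun v hv v1 vz s hs sT => by
    rcases four_cases h4 sq hv hz v1 z1 vz (conj_mem_of_mem_norm (nV hs) hv) with e | e | e | e
    · exact absurd (conj_eq_one_iff.1 e) v1
    · exact absurd (fx v hv v1 vz s hs e) sT
    · exact absurd (by simpa using e.trans (cjz s hs).symm) vz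
    · exact e
  obtain ⟨s, hs, sT⟩ : ∃ s ∈ S, s ∉ T := SetLike.not_le_iff_exists.1 fun e => hn (e.trans TC)
  obtain ⟨v, hv, v1, vz⟩ : ∃ v ∈ V, v ≠ 1 ∧ v ≠ z := by
    by_contra! H
    have := card_le_of_le (show V ≤ zpowers z from fun v hv => by
      by_cases e : v = 1
      exacts [e ▸ one_mem _, H v hv e ▸ mem_zpowers _])
    rw [Nat.card_zpowers, orderOf_two (sq z hz) z1] at this
    omega
  have i : T.relIndex S = 2 := index_eq_two_iff.2 ⟨⟨s, hs⟩, fun b => by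
    by_cases hb : (b : G) ∈ T
    · exact Or.inr ⟨hb, fun e => sT ((mul_mem_cancel_left hb).1 e)⟩
    · refine Or.inl ⟨fx v hv v1 vz _ (mul_mem b.2 hs) ?_, hb⟩
      change b * s * v * (b * s)⁻¹ = v
      rw [show b * s * v * (b * s)⁻¹ = b * (s * v * s⁻¹) * (b : G)⁻¹ by group, sw v hv v1 vz s hs sT, ← conj_mul,
        sw v hv v1 vz b b.2 hb, cjz b b.2, mul_assoc, sq z hz, mul_one]⟩
  have cjsq : ∀ g x : G, g * x * g⁻¹ * (g * x * g⁻¹) = g * (x * x) * g⁻¹ := fun g x => by group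
  have cz2 : ∀ X ≤ T, (∀ x ∈ X, x * x = 1) → ∀ s ∈ S, s ∉ T → X ≤ 𝒞[s] → X ≤ zpowers z := fun X hX h1 s hs sT h3 x hx => by
    by_contra H
    exact sT (fx x (inv x (hX hx) (h1 x hx)) (fun e => H (e ▸ one_mem _)) (fun e => H (e ▸ mem_zpowers _)) s hs
      (mul_inv_eq_iff_eq_mul.2 (mem_centralizer_singleton_iff.1 (h3 hx)).symm))
  have sqz : ∀ X ≤ T, ∀ s ∈ S, s ∉ T → X ≤ 𝒞[s] → (∀ x ∈ X, x * x ≠ z) → ∀ x ∈ X, x * x = 1 :=
    fun X hX s hs sT h3 h1 x hx => by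
    by_contra H
    obtain ⟨y, ⟨k, rfl⟩, y2, y1⟩ := exists_inv_of_piElt (pS.piElt (TS (hX (mul_mem hx hx)))) H
    have m := zpow_mem (mul_mem hx hx) k
    refine h1 _ (zpow_mem hx k) (((Commute.refl x).mul_zpow k).symm.trans (by_contra fun e => sT ?_))
    exact fx _ (inv _ (hX m) y2) y1 e s hs (mul_inv_eq_iff_eq_mul.2 (mem_centralizer_singleton_iff.1 (h3 m)).symm)
  by_cases hb : ∃ v ∈ V, v ≠ z ∧ IsConj v z
  · clear hv v1 vz v
    obtain ⟨v, hv, vz, c⟩ := hb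
    have v1 : v ≠ 1 := fun e => z1 (by simpa [e] using c.symm)
    obtain ⟨h, e, hh⟩ := exists_extremal hS cz c
    have TT : T :^ h ≤ S := (conjg_mono h (le_inf TS (TC.trans (cent_le_cent_singleton hv)))).trans hh
    have TC' : T :^ h ≤ 𝒞(V :^ h) := conjg_le_cent_iff.2 TC
    by_cases hW : V :^ h ≤ V
    · have hh' : h ∈ 𝒩(T) := mem_norm_of_conjg_le (hT ▸ le_inf (hT ▸ TT)
        (by rw [← hT, ← conjg_of_mem_norm (mem_norm_of_conjg_le hW)]; exact TC'))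
      obtain ⟨ρ, H⟩ := exists_H4 h2 hS h4 sq VS nV hz cz (hT ▸ hh') fun c => vz (by
        rw [← mul_left_inj h⁻¹, ← mul_right_inj h, ← mul_assoc, ← mul_assoc, e, mem_centralizer_singleton_iff.1 c,
          mul_inv_cancel_right])
      rw [← hT] at H
      exact H.wreathed (H.abelian_of_swap (norm_of_relIndex_le_two TS i.le hs) (mul_mem_of_relIndex_two i hs hs sT sT)
        hz z1 (cjz s hs) fun c => sT (hT ▸ ⟨hs, c⟩)) pS TS i hs sT hv fun e => sT (fx v hv v1 vz s hs e)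
    obtain ⟨w, hw, wV⟩ := SetLike.not_le_iff_exists.1 hW
    have sqW : ∀ w ∈ V :^ h, w * w = 1 := fun w hw => by
      obtain ⟨y, hy, rfl⟩ := mem_conjg'.1 hw
      rw [cjsq, sq y hy]; group
    have wS := TT (conjg_mono h VT hw)
    have wT : w ∉ T := fun e => wV (inv w e (sqW w hw))
    have vT : v ∉ T :^ h := fun e => wT (fx v hv v1 vz w wS
      (mul_inv_eq_iff_eq_mul.2 (mem_centralizer_iff.1 (TC' e) w hw)))
    have i' : (T :^ h).relIndex S = 2 := by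
      have h1 := card_mul_relIndex TT
      rw [card_conjg, ← card_mul_relIndex TS, i] at h1
      exact Nat.eq_of_mul_eq_mul_left Nat.card_pos h1
    have Cw : T ⊓ T :^ h ≤ 𝒞[w] := inf_le_right.trans (TC'.trans (cent_le_cent_singleton hw))
    have := card_le_of_le (cz2 _ inf_le_left (sqz _ inf_le_left w wS wT Cw fun c hc e' => by
      obtain ⟨t, ht, rfl⟩ := mem_conjg'.1 hc.2
      rw [cjsq, ← e, mul_left_inj, mul_right_inj] at e'
      refine vT (e' ▸ ?_)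
      by_cases h1 : t ∈ T :^ h
      · exact mul_mem h1 h1
      · exact mul_mem_of_relIndex_two i' (TS ht) (TS ht) h1 h1) w wS wT Cw)
    rw [Nat.card_zpowers, orderOf_two (sq z hz) z1] at this
    have h1 := card_inf_mul_relIndex (T :^ h) T
    have h3 : (T :^ h).relIndex T ≤ 2 := i' ▸ relIndex_le_of_le_right TS (relIndex_pos _ _).ne'
    have h5 := card_mul_relIndex TS
    rw [inf_comm] at h1
    exact Or.inl (dih8 pS (by nlinarith) wS (VS hv) (sqW w hw) (sq v hv) fun e =>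
      wT (fx v hv v1 vz w wS (mul_inv_eq_iff_eq_mul.2 e)))
  push Not at hb
  obtain ⟨u, hu, uz, c⟩ := exists_fused hG hS (VS hz) (sq z hz) z1
  obtain ⟨h, e, hh⟩ := exists_extremal hS cz c
  have u2 : u * u = 1 := by
    have := sq z hz
    rwa [← e, cjsq, conj_eq_one_iff] at this
  have uT : u ∉ T := fun e => hb u (inv u e u2) uz c
  have C2 := cz2 (T ⊓ 𝒞[u]) inf_le_left (sqz _ inf_le_left u hu uT inf_le_right fun x hx e' => by
    have m := hh (conj_mem_conjg h ⟨TS hx.1, hx.2⟩)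
    have m2 : h * x * h⁻¹ * (h * x * h⁻¹) ∈ T := by
      by_cases h1 : h * x * h⁻¹ ∈ T
      · exact mul_mem h1 h1
      · exact mul_mem_of_relIndex_two i m m h1 h1
    rw [cjsq, e'] at m2
    refine hb _ (inv _ m2 (by rw [cjsq, sq z hz]; group)) (fun e'' => uz ?_) (isConj_iff.2 ⟨h, rfl⟩ : IsConj z _).symm
    simpa using e.trans e''.symm) u hu uT inf_le_right
  have zV : zpowers z ≤ V := zpowers_le.2 hz
  have TV : T ≤ V := by
    by_contra H
    obtain ⟨L, h1, h3, h5, -, h6⟩ := exists_normal_between_succ pS (pS.of_le TS) (norm_of_relIndex_le_two TS i.le) nV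
      (TS.trans nV) (lt_of_le_not_ge VT H)
    have i1 : V.relIndex L = 2 := Nat.eq_of_mul_eq_mul_left Nat.card_pos ((card_mul_relIndex h1).trans h6)
    obtain ⟨w, hw, wV⟩ := SetLike.not_le_iff_exists.1 (show ¬ L ≤ V from fun e => by
      rw [relIndex_eq_one.2 e] at i1; omega)
    have a := comm_le_of_relIndex_le_two i1.le nV h5 (commutator_mem_commutator (inv_mem hw) hu)
    have iu := inv_eq_of_mul_eq_one_left u2
    have ca : ⁅w⁻¹, u⁆ ∈ 𝒞[u] := mem_centralizer_singleton_iff.2 (mul_inv_eq_iff_eq_mul.1 (Eq.trans (by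
      simp only [commutatorElement_def, mul_inv_rev, inv_inv, iu, mul_assoc, u2, mul_one])
      (inv_eq_of_mul_eq_one_left (sq _ a)))).symm
    rcases mem_zpowers_two (sq z hz) (C2 ⟨VT a, ca⟩) with e1 | e1
    · exact wV (zV (C2 ⟨h3 hw, mem_centralizer_singleton_iff.2
        (Commute.inv_left_iff.1 (commutatorElement_eq_one_iff_commute.1 e1)).eq⟩))
    · refine wV ((mul_mem_cancel_right hv).1 (zV (C2 ⟨mul_mem (h3 hw) (VT hv), mem_centralizer_singleton_iff.2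
        (mul_inv_eq_iff_eq_mul.1 ?_).symm⟩)))
      rw [← conj_mul, sw v hv v1 vz u hu uT, show u * w * u⁻¹ = w * ⁅w⁻¹, u⁆ by rw [commutatorElement_def]; group, e1,
        ← cV z hz v hv, mul_assoc, ← mul_assoc z, sq z hz, one_mul]
  have h5 := card_mul_relIndex TS
  have h6 := card_le_of_le TV
  exact Or.inl (dih8 pS (by rw [i] at h5; omega) hu (VS hv) u2 (sq v hv) fun e =>
    uT (fx v hv v1 vz u hu (mul_inv_eq_iff_eq_mul.2 e)))

theorem rank_two_sylow [IsSimpleGroup G] (hG : ¬ IsMulCommutative G) (h2 : PRankLE 2 2 G) (S : Sylow 2 G)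
    {F : Type v} [Field F] [Fintype F] (hF : Fintype.card F = 16) (P : Sylow 2 (PSU 3 F 4)) :
    (∃ n : ℕ, 2 ≤ n ∧ Nonempty ((S : Subgroup G) ≃* DihedralGroup n)) ∨ IsQuasiDihedral (S : Subgroup G) ∨
      IsWreathed (S : Subgroup G) ∨ Nonempty ((S : Subgroup G) ≃* (P : Subgroup (PSU 3 F 4))) := by
  cases nonempty_fintype G
  have hS := sylow_top Nat.prime_two S
  have pS := hS.pGrp
  by_cases hn : ∀ A : Subgroup (S : Subgroup G), A.Normal → IsMulCommutative A → IsCyclic A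
  · have ev : 2 ∣ Nat.card (⊤ : Subgroup G) := by
      by_contra e
      exact hG (IsSimpleGroup.comm_iff_isSolvable.2 (sol_top_iff.1 (CA.FT.odd_sol
        (Nat.odd_iff.2 (Nat.two_dvd_ne_zero.1 e))))|> fun h => ⟨⟨h⟩⟩)
    obtain ⟨t, ht, ot⟩ := pS.exists_orderOf_eq (hS.ne_bot' Nat.prime_two ev)
    have t1 := ne_one_of_orderOf Nat.prime_two ot
    have t2 := sq_eq_one_of_orderOf ot
    obtain ⟨u, hu, ut, c⟩ := exists_fused hG hS ht t2 t1
    have ou := (CA.Blk.orderOf_eq_of_isConj c).trans ot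
    have u1 := ne_one_of_orderOf Nat.prime_two ou
    have u2 := sq_eq_one_of_orderOf ou
    obtain h | ⟨m, c, y, -, ho, hy, gen, ⟨h1, h2⟩ | ⟨hm, y2, h | h⟩⟩ := CA.TG.struct_of_normal_cyclic S.2 hn
    · exact absurd (eq_of_cyclic_inv h hu ht u2 u1 t2 t1) ut
    · have k : ∀ g : (S : Subgroup G), g * g = 1 → g ∈ zpowers c := fun g e => (gen g).resolve_right fun ⟨i, hi⟩ => by
        have e1 : y⁻¹ * c ^ i * y = (c ^ i)⁻¹ := by
          rw [← inv_zpow, ← inv_inv y, inv_inv y⁻¹, ← conj_zpow, inv_inv, mul_assoc, h1, inv_mul_cancel_left]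
        have e2 : g * g = y * y * (y⁻¹ * c ^ i * y * c ^ i) := by
          rw [show g = y * c ^ i by rw [show c ^ i = y⁻¹ * g from hi, mul_inv_cancel_left]]; group
        rw [e, e1, inv_mul_cancel, mul_one, h2, eq_comm, ← orderOf_dvd_iff_pow_eq_one, ho,
          Nat.pow_dvd_pow_iff_le_right one_lt_two] at e2
        omega
      letI := Fintype.ofFinite (S : Subgroup G)
      exact absurd (congrArg Subtype.val (eq_of_cyclic_inv (cyclic_zpowers c) (k ⟨u, hu⟩ (Subtype.ext u2))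
        (k ⟨t, ht⟩ (Subtype.ext t2)) (Subtype.ext u2) (fun e => u1 (congrArg Subtype.val e)) (Subtype.ext t2)
        fun e => t1 (congrArg Subtype.val e))) ut
    · exact Or.inl ⟨_, Nat.pow_le_pow_right (n := 2) (i := 1) two_pos (by omega),
        Cfsg.Agent.Lin.nonempty_equiv_dihedral _ c y ho h y2 hy gen⟩
    · exact Or.inr (Or.inl ⟨m + 1, by omega, by rw [CA.TG.card_of_index_two hy gen, ho, ← pow_succ'], c, y, ho,
        orderOf_eq_prime (by rw [sq, y2]) fun e => hy (e ▸ one_mem _), h⟩)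
  push Not at hn
  obtain ⟨A₀, nA, cA, hA⟩ := hn
  have nA' := normalIn_map_subtype A₀
  have cA' := abelian_map (S : Subgroup G).subtype cA
  rw [← cyclic_map_iff_of_inj (S : Subgroup G).subtype_injective] at hA
  generalize A₀.map (S : Subgroup G).subtype = A at nA' cA' hA
  have nV := nA'.ohm1 2
  have ab := ohm1_abelem 2 cA'
  have h4 : Nat.card (ohm1 2 A) = 4 := by
    obtain ⟨E, hE⟩ := (p_rank_geP Nat.prime_two).1 (two_le_pRank_of_abelian Nat.prime_two (pS.of_le nA'.1) cA' hA)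
    exact le_antisymm (h2 _ ab.1 ab.2) (hE.card.ge.trans (card_le_of_le (abelem_le_ohm1 hE.abelem hE.le)))
  have sq : ∀ v ∈ ohm1 2 A, v * v = 1 := fun v hv => by rw [← pow_two, ab.2 v hv]
  generalize ohm1 2 A = V at nV h4 sq
  by_cases hc : (S : Subgroup G) ≤ 𝒞(V)
  swap
  · exact (noncentral_four hG h2 hS h4 sq nV.1 nV.2 hc).imp_right fun h => Or.inr (Or.inl h)
  obtain ⟨t, ht, t1⟩ := exists_mem_ne_one (ne_bot_of_prime_dvd_card (H := V) Nat.prime_two (by rw [h4]; norm_num))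
  obtain ⟨u, hu, ut, c⟩ := exists_fused hG hS (nV.1 ht) (sq t ht) t1
  obtain ⟨g, rfl⟩ := isConj_iff.1 c.symm
  have hu' := mem_four_of_cent h2 h4 sq (by
    rw [show g * t * g⁻¹ * (g * t * g⁻¹) = g * (t * t) * g⁻¹ by group, sq t ht]; group) (hc hu)
  obtain ⟨n, hn, e⟩ := S.conj_eq_normalizer_conj_of_mem_centralizer t g⁻¹ (le_cent_symm hc ht)
    (by rw [inv_inv]; exact le_cent_symm hc hu')
  obtain ⟨ρ, H⟩ := exists_H4 h2 hS h4 sq nV.1 nV.2 ht (hc.trans (cent_le_cent_singleton ht))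
    (n := n) (by rwa [inf_eq_left.2 hc]) fun c => ut (by
      rw [inv_inv] at e
      rw [e, mul_assoc, ← mem_centralizer_singleton_iff.1 c, inv_mul_cancel_left])
  rw [inf_eq_left.2 hc] at H
  by_cases cS : IsMulCommutative (S : Subgroup G)
  · have := CA.TG.Four.kleinFour_iff.2 ⟨h4, fun x hx => by rw [pow_two, sq x hx]⟩
    rw [← le_antisymm (H.brauer cS hG) nV.1] at this
    exact Or.inl ⟨2, le_rfl, IsKleinFour.nonempty_mulEquiv⟩
  · exact Or.inr (Or.inr (Or.inr (H.equiv_PSU cS hF P)))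

end CA.Dih
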