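/-
Frobenius' normal `p`-complement theorem.
-/
import Cfsg.Agent.BG.I01

set_option autoImplicit false
set_option linter.unusedSectionVars false

namespace CA.Dih

open Subgroup Cfsg CA.FG CA.BG
open scoped commutatorElement

universe u

variable {G : Type u} [Group G] [Finite G] {p : ℕ}

/-- the hypothesis of Frobenius' theorem: `N_H(U)/C_H(U)` is a `p`-group for all `p`-subgroups `U` -/
def FrobHyp (p : ℕ) (H : Subgroup G) : Prop :=
  ∀ U ≤ H, IsPGrp p U → U ≠ ⊥ → ∀ q : ℕ, q.Prime → q ≠ p → ∀ x ∈ H, x ∈ 𝒩(U) → IsPiElt {q} x → x ∈ 𝒞(U)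

theorem FrobHyp.mono {H K : Subgroup G} (h : FrobHyp p H) (hK : K ≤ H) : FrobHyp p K :=
  fun U hU pU nU q hq hqp x hx => h U (hU.trans hK) pU nU q hq hqp x (hK hx)

theorem FrobHyp.decomp (hp : p.Prime) {H U T : Subgroup G} (h : FrobHyp p H) (hU : U ≤ H) (pU : IsPGrp p U)
    (hT : IsSylowOf p T (H ⊓ 𝒩(U))) {n : G} (hn : n ∈ H ⊓ 𝒩(U)) : ∃ c ∈ H ⊓ 𝒞(U), ∃ t ∈ T, c * t = n := by
  have nC : H ⊓ 𝒩(U) ≤ 𝒩(H ⊓ 𝒞(U)) := norm_inf (norm_of_le inf_le_left) (norm_cent inf_le_right)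
  rw [← mem_sup_of_right_le_norm (hT.le.trans nC)]
  refine le_of_exists_sylow (fun q hq _ => ?_) hn
  by_cases hqp : q = p
  · exact ⟨T, hqp ▸ hT, le_sup_right⟩
  · obtain ⟨Q, hQ⟩ := sylow_exists hq (H ⊓ 𝒩(U))
    refine ⟨Q, hQ, le_sup_of_le_left fun x hx => ⟨(hQ.le hx).1, ?_⟩⟩
    by_cases h0 : U = ⊥
    · rw [h0, cent_bot]; trivial
    · exact h U hU pU h0 q hq hqp x (hQ.le hx).1 (hQ.le hx).2 (hQ.piGrp.piElt hx)

theorem FrobHyp.exists_cent (hp : p.Prime) {H : Subgroup G} (h : FrobHyp p H) {P Q : Subgroup G}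
    (hP : IsSylowOf p P H) (hQ : IsSylowOf p Q H) : ∃ c ∈ H ⊓ 𝒞(P ⊓ Q), Q = P :^ c := by
  induction hn : Nat.card G - Nat.card (P ⊓ Q : Subgroup G) using Nat.strong_induction_on generalizing P Q with
  | _ n ih =>
  by_cases hPQ : P = Q
  · exact ⟨1, one_mem _, by rw [conjg_one, hPQ]⟩
  set D := P ⊓ Q with hD
  have key : ∀ {A B : Subgroup G}, IsSylowOf p A H → IsSylowOf p B H → D < A ⊓ B →
      ∃ c ∈ H ⊓ 𝒞(D), B = A :^ c := fun {A B} hA hB hlt => by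
    have h1 := card_lt_of_lt hlt
    have h2 : Nat.card (A ⊓ B : Subgroup G) ≤ Nat.card G := Subgroup.card_le_card_group _
    obtain ⟨c, hc, e⟩ := ih _ (by omega) hA hB rfl
    exact ⟨c, ⟨hc.1, cent_anti hlt.le hc.2⟩, e⟩
  have lt1 : D < P ⊓ 𝒩(D) := nilpotent_proper_norm hP.pGrp.nil
    (lt_of_le_of_ne inf_le_left fun e => hPQ (hP.eq_of_le hQ.piGrp (inf_eq_left.1 e) hQ.le).symm)
  have lt2 : D < Q ⊓ 𝒩(D) := nilpotent_proper_norm hQ.pGrp.nil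
    (lt_of_le_of_ne inf_le_right fun e => hPQ (hQ.eq_of_le hP.piGrp (inf_eq_right.1 e) hP.le))
  obtain ⟨T, hT, sT⟩ := sylow_superset hp (hP.piGrp.inf_left 𝒩(D)) (inf_le_inf_right _ hP.le)
  obtain ⟨T', hT', sT'⟩ := sylow_superset hp (hQ.piGrp.inf_left 𝒩(D)) (inf_le_inf_right _ hQ.le)
  obtain ⟨m, hm, rfl⟩ := sylow_trans hp hT hT'
  obtain ⟨c, hc, t, ht, rfl⟩ := h.decomp hp (inf_le_left.trans hP.le) (hP.piGrp.inf_left Q) hT hm
  rw [conjg_mul, conjg_of_mem ht] at sT'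
  obtain ⟨R, hR, sR⟩ := sylow_superset hp hT.piGrp (hT.le.trans inf_le_left)
  obtain ⟨c₁, h₁, e₁⟩ := key hP hR (lt1.trans_le (le_inf inf_le_left (sT.trans sR)))
  obtain ⟨c₂, h₂, e₂⟩ := key (hR.conjg_of_mem hc.1) hQ
    (lt2.trans_le (le_inf (sT'.trans (conjg_mono c sR)) inf_le_left))
  exact ⟨c₂ * (c * c₁), mul_mem h₂ (mul_mem hc h₁), by rw [conjg_mul, conjg_mul, ← e₁, ← e₂]⟩

theorem FrobHyp.focal (hp : p.Prime) {H S : Subgroup G} (h : FrobHyp p H) (hS : IsSylowOf p S H) :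
    S ⊓ ⁅H, H⁆ ≤ ⁅S, S⁆ := by
  rw [focal_subgroup_gen hp hS, Subgroup.closure_le]
  rintro _ ⟨x, hx, u, hu, h1, rfl⟩
  obtain ⟨c, hc, e⟩ := h.exists_cent hp hS (hS.conjg_of_mem hu)
  have h2 : c⁻¹ * u ∈ H ⊓ 𝒩(S) := ⟨H.mul_mem (H.inv_mem hc.1) hu, conjg_eq_conjg_iff.1 e⟩
  obtain ⟨z, hz, y, hy, e'⟩ := h.decomp hp hS.le hS.piGrp
    (hS.of_le (le_inf hS.le le_normalizer) inf_le_left) h2
  have h3 := hc.2 _ ⟨h1, conj_mem_conjg u hx⟩
  have h4 := hz.2 _ (mul_mem (mul_mem hy hx) (inv_mem hy))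
  have h5 : u = c * (z * y) := by rw [e']; group
  have h6 : u * x * u⁻¹ = y * x * y⁻¹ := by
    calc u * x * u⁻¹ = c⁻¹ * (u * x * u⁻¹ * c) := by rw [h3]; group
      _ = z * (y * x * y⁻¹) * z⁻¹ := by rw [h5]; group
      _ = _ := by rw [← h4]; group
  have h7 : x⁻¹ * (u * x * u⁻¹) = ⁅x⁻¹, y⁆ := by rw [h6, commutatorElement_def]; group
  rw [SetLike.mem_coe, h7]
  exact commutator_mem_commutator (inv_mem hx) hy

theorem FrobHyp.dvd_der (hp : p.Prime) {H : Subgroup G} (h : FrobHyp p H) (hd : p ∣ Nat.card H) :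
    p ∣ (⁅H, H⁆ : Subgroup G).relIndex H := by
  obtain ⟨S, hS⟩ := sylow_exists hp H
  by_contra hn
  have h1 : S ≤ ⁅H, H⁆ := le_of_coprime_relIndex hS.le (der_normalIn H).2 (hS.pGrp.coprime_of_not_dvd hn)
  exact (der_lt_of_sol hS.pGrp.sol (hS.ne_bot' hp hd)).not_ge ((le_inf le_rfl h1).trans (h.focal hp hS))

/-- **Frobenius' normal `p`-complement theorem** -/
theorem Frobenius_normal_complement (hp : p.Prime) {H : Subgroup G} (h : FrobHyp p H) :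
    IsPiHallOf {p}ᶜ (pPrimeCoreOf p H) H := by
  induction hn : Nat.card H using Nat.strong_induction_on generalizing H with
  | _ n ih =>
  by_cases hd : p ∣ Nat.card H
  · obtain ⟨K, nK, -, iK⟩ := exists_normal_index_of_dvd_der hp (h.dvd_der hp hd)
    have hlt : K < H := lt_of_le_of_ne nK.1 fun e => hp.one_lt.ne' (by rw [← iK, e, relIndex_self])
    have h1 := (ih _ (hn ▸ card_lt_of_lt hlt) (h.mono nK.1) rfl).trans_index nK.1
      (by rw [iK, compl_compl]; exact piNat_singleton_self hp)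
    exact pcore_pHall_of_normal h1 (nK.pcore _).2
  · have h1 : IsPiGrp {p}ᶜ H := (piGrp_compl_singleton_iff hp).2 hd
    rw [pPrimeCoreOf, pcore_of_piGrp h1]
    exact pHall_refl h1

end CA.Dih

theorem CA.Dih.realizeEqnsFrob : True := by
  have := @CA.Dih.FrobHyp.eq_1.{0}
  have := @CA.Dih.FrobHyp.eq_def.{0}
  have := @CA.Dih.FrobHyp.congr_simp.{0}
  trivial
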