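/-
Consequences of Frobenius' theorem: simple groups of even order, dihedral Sylow 2-subgroups.
-/
import Cfsg.Agent.Dih.Frob
import Cfsg.Agent.BG.P04d

set_option autoImplicit false
set_option linter.unusedSectionVars false

namespace CA.Dih

open Subgroup Cfsg CA.FG CA.BG
open scoped commutatorElement

universe u

variable {G : Type u} [Group G] [Finite G] {p : ℕ}

theorem eq_bot_or_top [IsSimpleGroup G] {N : Subgroup G} (h : ⊤ ≤ 𝒩(N)) : N = ⊥ ∨ N = ⊤ :=
  (normal_of_top_le_norm h).eq_bot_or_eq_top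

theorem der_top_eq [IsSimpleGroup G] (hG : ¬ IsMulCommutative G) : ⁅(⊤ : Subgroup G), (⊤ : Subgroup G)⁆ = ⊤ :=
  (eq_bot_or_top (der_normalIn ⊤).2).resolve_left fun e => hG (abelian_top_iff.1 (der_eq_bot_iff.1 e))

theorem not_frobHyp [IsSimpleGroup G] (hG : ¬ IsMulCommutative G) (hp : p.Prime) (hd : p ∣ Nat.card G) :
    ¬ FrobHyp p (⊤ : Subgroup G) := fun h => by
  have h1 := h.dvd_der hp (by rwa [card_top])
  rw [der_top_eq hG, relIndex_self] at h1
  exact hp.not_dvd_one h1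

/-- a `q`-element `x` normalizing `U`: `|U| ≡ |C_U(x)|` modulo `q` -/
theorem dvd_card_sub_cent {q : ℕ} (hq : q.Prime) {U : Subgroup G} {x : G} (hx : x ∈ 𝒩(U)) (qx : IsPiElt {q} x) :
    q ∣ Nat.card U - Nat.card (U ⊓ 𝒞[x] : Subgroup G) := by
  have h := P04.card_modEq_cent hq ((piGrp_zpowers_iff.2 qx).isPGroup hq) (zpowers_le.2 hx)
  rw [cent_zpowers] at h
  exact (Nat.modEq_iff_dvd' (Subgroup.card_le_of_le inf_le_left)).1 h.symm

theorem card_inf_cent_lt {U : Subgroup G} {x : G} (h : x ∉ 𝒞(U)) :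
    Nat.card (U ⊓ 𝒞[x] : Subgroup G) < Nat.card U :=
  card_lt_of_lt (lt_of_le_of_ne inf_le_left fun e => h (mem_cent_iff_le_cent_singleton.2 (inf_eq_left.1 e)))

theorem prime_dvd_card_of_not_cent {q : ℕ} {U : Subgroup G} {x : G} (qx : IsPiElt {q} x) (h : x ∉ 𝒞(U)) :
    q ∣ Nat.card G := by
  have h1 : zpowers x ≠ ⊥ := fun e => h (by rw [zpowers_eq_bot.1 e]; exact one_mem _)
  exact (IsPGrp.dvd_card (piGrp_zpowers_iff.2 qx) h1).trans (card_subgroup_dvd_card _)

theorem simple_even_order [IsSimpleGroup G] (hG : ¬ IsMulCommutative G) (h2 : 2 ∣ Nat.card G) :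
    12 ∣ Nat.card G ∨ 16 ∣ Nat.card G ∨ 56 ∣ Nat.card G := by
  have h := not_frobHyp hG Nat.prime_two h2
  unfold FrobHyp at h
  push Not at h
  obtain ⟨U, -, pU, -, q, hq, hq2, x, -, hx, qx, hc⟩ := h
  have h1 := dvd_card_sub_cent hq hx qx
  have h3 := card_inf_cent_lt hc
  have h4 := prime_dvd_card_of_not_cent qx hc
  have h5 : Nat.card U ∣ Nat.card G := card_subgroup_dvd_card _
  obtain ⟨a, ha⟩ := (pGrp_iff_card Nat.prime_two).1 pU
  obtain ⟨b, hb⟩ := (pGrp_iff_card Nat.prime_two).1 (pU.inf_left 𝒞[x])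
  rw [ha, hb] at h1 h3
  rw [ha] at h5
  have hab : b < a := (Nat.pow_lt_pow_iff_right (by norm_num)).1 h3
  by_cases h16 : 4 ≤ a
  · exact Or.inr (Or.inl ((pow_dvd_pow 2 h16).trans h5))
  have h7 : q ≤ 7 := (Nat.le_of_dvd (by omega) h1).trans (by
    have : a ≤ 3 := by omega
    interval_cases a <;> interval_cases b <;> norm_num)
  have ha3 : a ≤ 3 := by omega
  have h8 : q = 3 ∨ q = 5 ∨ q = 7 := by
    have := hq.two_le
    have := hq.eq_two_or_odd
    omega
  rcases h8 with rfl | rfl | rfl <;> interval_cases a <;> interval_cases b <;> omega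

/-- `S` is dihedral with cyclic part `⟨c⟩` -/
structure IsDih (S : Subgroup G) (c : G) : Prop where
  mem : c ∈ S
  index : (zpowers c).relIndex S = 2
  sq : ∀ s ∈ S, s ∉ zpowers c → s * s = 1

theorem IsDih.conj {S : Subgroup G} {c : G} (h : IsDih S c) (g : G) : IsDih (S :^ g) (g * c * g⁻¹) where
  mem := conj_mem_conjg g h.mem
  index := by rw [← conjg_zpowers, relIndex_conjg, h.index]
  sq := fun s hs hc => by
    rw [← conjg_zpowers, mem_conjg] at hc
    have := h.sq _ (mem_conjg.1 hs) hc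
    calc s * s = g * (g⁻¹ * s * g * (g⁻¹ * s * g)) * g⁻¹ := by group
      _ = 1 := by rw [this]; group

theorem exists_isDih {S : Subgroup G} {n : ℕ} (hn : n ≠ 0) (hS : Nonempty (S ≃* DihedralGroup n)) :
    ∃ c, IsDih S c ∧ orderOf c = n := by
  obtain ⟨e⟩ := hS
  have : NeZero n := ⟨hn⟩
  have ho : orderOf ((e.symm (.r 1) : S) : G) = n := by
    rw [Subgroup.orderOf_coe, MulEquiv.orderOf_eq, DihedralGroup.orderOf_r_one]
  have hle : zpowers ((e.symm (.r 1) : S) : G) ≤ S := zpowers_le.2 (e.symm (.r 1)).2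
  refine ⟨e.symm (.r 1), ⟨(e.symm (.r 1)).2, ?_, fun s hs hc => ?_⟩, ho⟩
  · have h1 := card_mul_relIndex hle
    rw [Nat.card_zpowers, ho, Nat.card_congr e.toEquiv, DihedralGroup.nat_card, mul_comm 2] at h1
    exact Nat.eq_of_mul_eq_mul_left (Nat.pos_of_ne_zero hn) h1
  · obtain ⟨y, hy⟩ := e.symm.surjective ⟨s, hs⟩
    have hy' : s = (e.symm y : S) := by rw [hy]
    rcases y with i | i
    · refine absurd ⟨(i.val : ℤ), ?_⟩ hc
      simp only [zpow_natCast]
      rw [hy', ← Subgroup.coe_pow, ← map_pow, DihedralGroup.r_one_pow, ZMod.natCast_zmod_val]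
    · rw [hy', ← Subgroup.coe_mul, ← map_mul, DihedralGroup.sr_mul_self, map_one, Subgroup.coe_one]

theorem mul_mem_of_relIndex_two {K H : Subgroup G} (h : K.relIndex H = 2) {a b : G} (ha : a ∈ H) (hb : b ∈ H)
    (ha' : a ∉ K) (hb' : b ∉ K) : a * b ∈ K := by
  have := (Subgroup.mul_mem_iff_of_index_two h (a := ⟨a, ha⟩) (b := ⟨b, hb⟩)).2 (by
    simp [mem_subgroupOf, ha', hb'])
  exact this

theorem norm_of_relIndex_le_two {K H : Subgroup G} (hK : K ≤ H) (h : K.relIndex H ≤ 2) : H ≤ 𝒩(K) := by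
  have h0 := relIndex_pos K H
  obtain e | e : K.relIndex H = 1 ∨ K.relIndex H = 2 := by omega
  · exact norm_of_le (relIndex_eq_one.1 e)
  · have := Subgroup.normal_of_index_eq_two e
    exact (normal_subgroupOf_iff_le_normalizer hK).1 this

theorem comm_le_of_relIndex_le_two {K H A : Subgroup G} (h : K.relIndex H ≤ 2) (nK : A ≤ 𝒩(K)) (nH : A ≤ 𝒩(H)) :
    ⁅H, A⁆ ≤ K := by
  have h0 := relIndex_pos K H
  obtain e | e : K.relIndex H = 1 ∨ K.relIndex H = 2 := by omega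
  · exact (comm_le_left nH).trans (relIndex_eq_one.1 e)
  refine commutator_le.2 fun x hx a ha => ?_
  rw [commutatorElement_def, mul_assoc, mul_assoc, ← mul_assoc a]
  by_cases hK : x ∈ K
  · exact mul_mem hK (conj_mem_of_le_norm nK ha (inv_mem hK))
  · refine mul_mem_of_relIndex_two e hx (conj_mem_of_le_norm nH ha (inv_mem hx)) hK fun h1 => hK ?_
    have := conj_mem_of_le_norm' nK ha h1
    rw [show a⁻¹ * (a * x⁻¹ * a⁻¹) * a = x⁻¹ by group] at this
    exact inv_mem_iff.1 this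

/-- an odd-order element normalizing a cyclic `2`-group centralizes it -/
theorem cent_of_cyclic_two {U A : Subgroup G} (cU : IsCyclic U) (pU : IsPGrp 2 U) (nU : A ≤ 𝒩(U))
    (oA : ¬ 2 ∣ Nat.card A) : A ≤ 𝒞(U) := by
  have h1 := relIndex_cent_dvd_totient cU nU
  obtain ⟨a, ha⟩ := (pGrp_iff_card Nat.prime_two).1 pU
  have h2 : (2 ^ a).totient ∣ 2 ^ a := by
    rcases a with _ | a
    · simp
    · rw [Nat.totient_prime_pow_succ Nat.prime_two]; simp [pow_succ]
  rw [ha] at h1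
  refine relIndex_eq_one.1 (PiNat.eq_one ((piNat_self_pow Nat.prime_two a).of_dvd (h1.trans h2)) ?_)
  exact IsPiGrp.relIndex ((piGrp_compl_singleton_iff Nat.prime_two).2 oA) _

theorem not_two_dvd_card_zpowers {q : ℕ} (hq2 : q ≠ 2) {x : G} (qx : IsPiElt {q} x) :
    ¬ 2 ∣ Nat.card (zpowers x) := fun h => by
  rw [Nat.card_zpowers] at h
  exact hq2 (qx 2 Nat.prime_two h).symm

theorem IsDih.cent_of_fix {S U : Subgroup G} {c t x : G} (h : IsDih S c) (pS : IsPGrp 2 S) (hU : U ≤ S)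
    (ht : t ∈ U) (ht1 : t ≠ 1) {q : ℕ} (hq : q.Prime) (hq2 : q ≠ 2) (qx : IsPiElt {q} x) (hx : x ∈ 𝒩(U))
    (hxt : x ∈ 𝒞[t]) : x ∈ 𝒞(U) := by
  have pU := pS.of_le hU
  have hi : (zpowers c).relIndex U ≤ 2 := h.index ▸ relIndex_le_of_le_right hU (relIndex_pos _ _).ne'
  obtain ⟨z, hz, ez⟩ := cyclic_iff_eq_zpowers.1 (cyclic_of_le (cyclic_zpowers c) (inf_le_left (b := U)))
  have ox := not_two_dvd_card_zpowers hq2 qx
  by_cases hz2 : z * z = 1
  · by_contra hc
    have h1 := dvd_card_sub_cent hq hx qx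
    have h3 := card_inf_cent_lt hc
    have h4 := card_inf_mul_relIndex (zpowers c) U
    have h5 : orderOf z ≤ 2 := orderOf_le_of_pow_eq_one (by norm_num) (by rw [pow_two, hz2])
    rw [ez, Nat.card_zpowers] at h4
    have h6 : Nat.card U ≤ 4 := h4 ▸ Nat.mul_le_mul h5 hi
    have h7 : 2 ∣ Nat.card (U ⊓ 𝒞[x] : Subgroup G) :=
      IsPGrp.dvd_card (pU.inf_left _) (ne_bot_of_mem ⟨ht, mem_cent_singleton_comm.1 hxt⟩ ht1)
    have h8 : 2 ∣ Nat.card U := IsPGrp.dvd_card pU (ne_bot_of_mem ht ht1)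
    have h9 : 0 < Nat.card (U ⊓ 𝒞[x] : Subgroup G) := Nat.card_pos
    rw [show Nat.card U - Nat.card (U ⊓ 𝒞[x] : Subgroup G) = 2 by omega] at h1
    exact hq2 ((Nat.prime_dvd_prime_iff_eq hq Nat.prime_two).1 h1)
  · have h1 : x * z * x⁻¹ ∈ zpowers c ⊓ U := by
      have h2 := conj_mem_of_mem_norm hx hz.2
      refine ⟨by_contra fun h3 => hz2 ?_, h2⟩
      have := h.sq _ (hU h2) h3
      calc z * z = x⁻¹ * (x * z * x⁻¹ * (x * z * x⁻¹)) * x := by group
        _ = 1 := by rw [this]; group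
    have h2 : x ∈ 𝒩(zpowers c ⊓ U) := mem_norm_of_conjg_le (by
      rw [ez, conjg_zpowers, zpowers_le, ← ez]; exact h1)
    have h3 := cent_of_cyclic_two (cyclic_of_le (cyclic_zpowers c) (inf_le_left (b := U))) (pU.inf_right _)
      (zpowers_le.2 h2) ox
    refine zpowers_le.1 (stable_factor_cent h3 inf_le_right ?_ (IsPGrp.coprime_of_not_dvd pU ox))
    exact comm_le_of_relIndex_le_two (by rwa [inf_relIndex_right]) (zpowers_le.2 h2) (zpowers_le.2 hx)

theorem IsDih.frobHyp {S : Subgroup G} {c t : G} (h : IsDih S c) (hS : IsSylowOf 2 S ⊤) (ht : orderOf t = 2) :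
    FrobHyp 2 𝒞[t] := fun U hU pU _ q hq hq2 x hxt hx qx => by
  have pT : IsPGrp 2 (zpowers t) := pGrp_of_card_eq Nat.prime_two (by rw [Nat.card_zpowers, ht])
  have p1 : IsPGrp 2 (U ⊔ zpowers t : Subgroup G) := IsPiGrp.sup pU pT (Or.inl (norm_zpowers_of_cent hU))
  obtain ⟨g, -, hg⟩ := sylow_subJ Nat.prime_two hS p1 le_top
  refine cent_anti le_sup_left ((h.conj g).cent_of_fix (hS.piGrp.conjg g) hg
    (mem_sup_right (mem_zpowers t)) (fun e => by simp [e] at ht) hq hq2 qx ?_ hxt)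
  exact zpowers_le.1 (norm_sup (zpowers_le.2 hx) (norm_zpowers_of_cent (zpowers_le.2 hxt)))

/-- dihedral Sylow 2-subgroups: involution centralizers have normal 2-complements -/
theorem IsDih.hall_core {S : Subgroup G} {c t : G} (h : IsDih S c) (hS : IsSylowOf 2 S ⊤) (ht : orderOf t = 2) :
    IsPiHallOf {2}ᶜ (pPrimeCoreOf 2 𝒞[t]) 𝒞[t] :=
  Frobenius_normal_complement Nat.prime_two (h.frobHyp hS ht)

end CA.Dih
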