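/-
Counting fixed points of group elements; parity; Sylow counting.
-/
import Cfsg.Agent.Dih.Small

set_option autoImplicit false
set_option linter.unusedSectionVars false

namespace CA.Dih

open Subgroup Cfsg CA.FG CA.BG MulAction
open scoped commutatorElement

universe u v

variable {G : Type u} [Group G] [Finite G] {p : ℕ}

section
variable {Ω : Type v} [MulAction G Ω] [Finite Ω]

theorem ncard_orbit (A : Subgroup G) (x : Ω) : (orbit A x).ncard = (stabilizer G x).relIndex A :=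
  (index_stabilizer A x).symm

theorem dvd_ncard_of_orbits {A : Subgroup G} {S : Set Ω} (hS : ∀ a ∈ A, ∀ x ∈ S, a • x ∈ S) {d : ℕ}
    (h : ∀ x ∈ S, d ∣ (stabilizer G x).relIndex A) : d ∣ S.ncard := by
  induction hn : S.ncard using Nat.strong_induction_on generalizing S with
  | _ n ih =>
  rcases S.eq_empty_or_nonempty with rfl | ⟨x, hx⟩
  · rw [← hn]; simp
  have hO : orbit A x ⊆ S := by rintro _ ⟨a, rfl⟩; exact hS a a.2 x hx
  have h1 := Set.ncard_diff_add_ncard_of_subset hO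
  have h2 : 0 < (orbit A x).ncard := (Set.ncard_pos (Set.toFinite _)).2 ⟨x, mem_orbit_self x⟩
  rw [← hn, ← h1]
  refine dvd_add (ih _ (by omega) (S := S \ orbit A x) (fun a ha y hy => ⟨hS a ha y hy.1, fun hc => hy.2 ?_⟩)
    (fun y hy => h y hy.1) rfl) (ncard_orbit A x ▸ h x hx)
  have := mem_orbit_of_mem_orbit (⟨a, ha⟩ : A)⁻¹ hc
  rwa [show (⟨a, ha⟩ : A)⁻¹ • a • y = y from inv_smul_smul a y] at this

/-- an element of prime order `p` on an invariant set -/
theorem dvd_ncard_diff {y : G} (hy : (orderOf y).Prime) {S : Set Ω} (hS : ∀ x ∈ S, y • x ∈ S) :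
    orderOf y ∣ (S \ fixedBy Ω y).ncard := by
  have hp : (Nat.card (zpowers y)).Prime := by rwa [Nat.card_zpowers]
  refine dvd_ncard_of_orbits (A := zpowers y) (fun a ha x hx => ?_) fun x hx => ?_
  · obtain ⟨k, rfl⟩ := mem_powers_iff_mem_zpowers.2 ha
    induction k with
    | zero => simpa using hx
    | succ k ih =>
      have := ih (pow_mem (mem_zpowers y) k)
      simp only [pow_succ', mul_smul]
      exact ⟨hS _ this.1, fun h => this.2 (smul_mem_fixedBy_iff_mem_fixedBy.1 h)⟩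
  · have h1 := card_inf_mul_relIndex (stabilizer G x) (zpowers y)
    rcases inf_eq_bot_or_le_of_card_prime hp (stabilizer G x) with e | e
    · rw [inf_comm, e, card_bot, one_mul, Nat.card_zpowers] at h1
      rw [h1]
    · exact absurd (e (mem_zpowers y)) hx.2

theorem smul_mem_fixedBy_of_comm {y t : G} (h : y * t = t * y) {x : Ω} (hx : x ∈ fixedBy Ω t) :
    y • x ∈ fixedBy Ω t := by
  rw [mem_fixedBy, ← mul_smul, ← h, mul_smul, hx]

theorem ncard_compl_add (S : Set Ω) : Sᶜ.ncard + S.ncard = Nat.card Ω := by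
  rw [add_comm, Set.ncard_add_ncard_compl]

theorem ncard_diff_add (S T : Set Ω) : (S \ T).ncard + (S ∩ T).ncard = S.ncard := by
  rw [add_comm, Set.ncard_inter_add_ncard_diff_eq_ncard]

theorem dvd_ncard_compl {y : G} (hy : (orderOf y).Prime) : orderOf y ∣ (fixedBy Ω y)ᶜ.ncard := by
  rw [Set.compl_eq_univ_diff]
  exact dvd_ncard_diff hy fun _ _ => trivial

theorem sign_eq_one (hG : ⁅(⊤ : Subgroup G), (⊤ : Subgroup G)⁆ = ⊤) {α : Type*} [Fintype α] [DecidableEq α]
    (f : G →* Equiv.Perm α) (g : G) : Equiv.Perm.sign (f g) = 1 := by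
  have h : commutator G ≤ (Equiv.Perm.sign.comp f).ker := Abelianization.commutator_subset_ker _
  rw [← der_top, hG] at h
  exact h (mem_top g)

/-- parity: an element of even order acting semiregularly outside its fixed points -/
theorem two_mul_dvd_ncard_compl (hG : ⁅(⊤ : Subgroup G), (⊤ : Subgroup G)⁆ = ⊤) {y : G} {n : ℕ} (hn : Even n)
    (hy : y ^ n = 1) (n0 : 0 < n) (h : ∀ x : Ω, ∀ k, 0 < k → k < n → y ^ k • x = x → y • x = x) :
    2 * n ∣ (fixedBy Ω y)ᶜ.ncard := by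
  classical
  have := Fintype.ofFinite Ω
  set σ := toPermHom G Ω y with hσ
  have h1 : ∀ k ∈ σ.cycleType, k = n := fun k hk => by
    have h2 : k ∣ n := (Equiv.Perm.dvd_of_mem_cycleType hk).trans
      (orderOf_dvd_of_pow_eq_one (by rw [hσ, ← map_pow, hy, map_one]))
    by_contra hkn
    have h3 := Equiv.Perm.two_le_of_mem_cycleType hk
    simp only [Equiv.Perm.cycleType_def, Multiset.mem_map, Function.comp_apply] at hk
    obtain ⟨c, hc, rfl⟩ := hk
    have hc' := Equiv.Perm.mem_cycleFactorsFinset_iff.1 hc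
    obtain ⟨x, hx⟩ := hc'.1.nonempty_support
    have h4 := Equiv.Perm.pow_mod_card_support_cycleOf_self_apply σ c.support.card x
    rw [← Equiv.Perm.cycle_is_cycleOf hx hc, Nat.mod_self, pow_zero, hσ, ← map_pow] at h4
    have h5 := h x _ (by omega) (lt_of_le_of_ne (Nat.le_of_dvd n0 h2) hkn) h4.symm
    exact Equiv.Perm.mem_support.1 hx ((hc'.2 x hx).trans h5)
  have h2 := Multiset.eq_replicate_card.2 h1
  have h3 := Equiv.Perm.sign_of_cycleType σ
  have h4 : σ.cycleType.sum = σ.cycleType.card * n := by rw [h2]; simp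
  rw [sign_eq_one hG, eq_comm, neg_one_pow_eq_one_iff_even (by decide), h4] at h3
  have h5 : (fixedBy Ω y)ᶜ.ncard = σ.cycleType.card * n := by
    rw [← h4, Equiv.Perm.sum_cycleType, ← Set.ncard_coe_finset]
    congr 1
    ext x
    simp [hσ]
  rw [h5]
  exact Nat.mul_dvd_mul_right ((Nat.even_add.1 h3).1 (hn.mul_left _)).two_dvd n

theorem four_dvd_ncard_compl (hG : ⁅(⊤ : Subgroup G), (⊤ : Subgroup G)⁆ = ⊤) {y : G} (hy : y * y = 1) :
    4 ∣ (fixedBy Ω y)ᶜ.ncard :=
  two_mul_dvd_ncard_compl hG even_two (by rw [pow_two, hy]) two_pos fun x k h0 h2 h => by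
    rwa [show k = 1 by omega, pow_one] at h

end

/-! ### the action on the cosets of a proper subgroup of a simple group -/

theorem smul_coset_iff {H : Subgroup G} {x g : G} : x • (g : G ⧸ H) = g ↔ g⁻¹ * x * g ∈ H := by
  rw [MulAction.Quotient.smul_mk, smul_eq_mul, eq_comm, QuotientGroup.eq, mul_assoc]

theorem mem_fixedBy_coset {H : Subgroup G} {x g : G} : (g : G ⧸ H) ∈ fixedBy (G ⧸ H) x ↔ x ∈ H :^ g := by
  rw [mem_fixedBy, smul_coset_iff, mem_conjg]

theorem stabilizer_coset (H : Subgroup G) (g : G) : stabilizer G (g : G ⧸ H) = H :^ g := by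
  ext x; rw [mem_stabilizer_iff, smul_coset_iff, mem_conjg]

theorem coset_eq_one {H : Subgroup G} {g : G} : (g : G ⧸ H) = (1 : G) ↔ g ∈ H := by
  rw [QuotientGroup.eq, mul_one, inv_mem_iff]

theorem perm_coset_inj [IsSimpleGroup G] {H : Subgroup G} (hH : H ≠ ⊤) :
    Function.Injective (toPermHom G (G ⧸ H)) := by
  rw [← MonoidHom.ker_eq_bot_iff, ← normalCore_eq_ker]
  exact (normalCore_normal H).eq_bot_or_eq_top.resolve_right fun e => hH (top_le_iff.1 (e ▸ normalCore_le H))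

theorem moved_coset_pos [IsSimpleGroup G] {H : Subgroup G} (hH : H ≠ ⊤) {y : G} (hy : y ≠ 1) :
    0 < (fixedBy (G ⧸ H) y)ᶜ.ncard := by
  rw [Set.ncard_pos (Set.toFinite _), Set.nonempty_compl]
  intro e
  refine hy (perm_coset_inj hH ?_)
  rw [map_one]
  exact Equiv.ext fun x => (show x ∈ fixedBy (G ⧸ H) y from e ▸ trivial)

theorem moved_add_fixed (H : Subgroup G) (y : G) :
    (fixedBy (G ⧸ H) y)ᶜ.ncard + (fixedBy (G ⧸ H) y).ncard = H.index := ncard_compl_add _

theorem two_mul_card_dvd_factorial [IsSimpleGroup G] (hG : ¬ IsMulCommutative G) {H : Subgroup G} (hH : H ≠ ⊤) :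
    2 * Nat.card G ∣ H.index.factorial := by
  classical
  have := Fintype.ofFinite (G ⧸ H)
  have : Nontrivial (G ⧸ H) := QuotientGroup.nontrivial_iff.2 hH
  have h1 : (toPermHom G (G ⧸ H)).range ≤ alternatingGroup (G ⧸ H) := by
    rintro _ ⟨g, rfl⟩
    exact Equiv.Perm.mem_alternatingGroup.2 (sign_eq_one (der_top_eq hG) _ g)
  have h2 := card_dvd_of_le h1
  rw [← Nat.card_congr (MonoidHom.ofInjective (perm_coset_inj hH)).toEquiv] at h2
  rw [index_eq_card, ← Nat.card_perm, ← two_mul_nat_card_alternatingGroup]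
  exact Nat.mul_dvd_mul_left 2 h2

/-! ### Sylow counting -/

theorem mem_of_mem_norm_sylow {P M : Subgroup G} (hP : IsSylowOf p P M) {x : G} (hx : x ∈ M) (hn : x ∈ 𝒩(P))
    (px : IsPiElt {p} x) : x ∈ P :=
  zpowers_le.1 (hP.le_of_le_norm (piGrp_zpowers_iff.2 px) (zpowers_le.2 hx) (zpowers_le.2 hn))

theorem inf_norm_conj {P : Subgroup G} (hP : IsSylowOf p P ⊤) (g : G) : 𝒩(P) :^ g ⊓ P = P :^ g ⊓ P := by
  refine le_antisymm (fun x hx => ⟨?_, hx.2⟩) (inf_le_inf_right _ (conjg_mono g le_normalizer))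
  exact mem_of_mem_norm_sylow (hP.conjg_of_mem (mem_top g)) trivial (conjg_norm P g ▸ hx.1) (hP.piGrp.piElt hx.2)

theorem dvd_index_norm_sub {P : Subgroup G} (hP : IsSylowOf p P ⊤) {d : ℕ}
    (h : ∀ g ∉ 𝒩(P), d ∣ (P :^ g).relIndex P) : d ∣ (𝒩(P)).index - 1 := by
  have h1 := ncard_compl_add ({((1 : G) : G ⧸ 𝒩(P))} : Set (G ⧸ 𝒩(P)))
  rw [Set.ncard_singleton, ← index_eq_card] at h1
  rw [← h1, Nat.add_sub_cancel]
  refine dvd_ncard_of_orbits (A := P) (S := ({((1 : G) : G ⧸ 𝒩(P))} : Set (G ⧸ 𝒩(P)))ᶜ)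
    (fun a ha x hx hc => hx ?_) fun x hx => ?_
  · rw [Set.mem_singleton_iff, smul_eq_iff_eq_inv_smul] at hc
    rw [hc, Set.mem_singleton_iff, smul_coset_iff]
    simpa using le_normalizer ha
  · obtain ⟨g, rfl⟩ := QuotientGroup.mk_surjective x
    rw [stabilizer_coset, ← inf_relIndex_right, inf_norm_conj hP, inf_relIndex_right]
    exact h g fun hg => hx (coset_eq_one.2 hg)

theorem relIndex_conj_sylow (hp : p.Prime) {P : Subgroup G} (hP : IsSylowOf p P ⊤) {g : G} (hg : g ∉ 𝒩(P)) :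
    ∃ k, 0 < k ∧ (P :^ g).relIndex P = p ^ k := by
  obtain ⟨k, hk⟩ := (piNat_singleton_iff hp (relIndex_pos _ _).ne').1 (hP.piGrp.relIndex (P :^ g))
  refine ⟨k, Nat.pos_of_ne_zero fun e => hg ?_, hk⟩
  rw [e, pow_zero, relIndex_eq_one] at hk
  exact conjg_eq_self_iff.1 (hP.eq_of_le (hP.piGrp.conjg g) hk le_top)

theorem index_norm_mod (hp : p.Prime) {P : Subgroup G} (hP : IsSylowOf p P ⊤) : p ∣ (𝒩(P)).index - 1 :=
  dvd_index_norm_sub hP fun g hg => by
    obtain ⟨k, h0, hk⟩ := relIndex_conj_sylow hp hP hg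
    exact hk ▸ dvd_pow_self p h0.ne'

theorem relIndex_norm_mod (hp : p.Prime) {P M : Subgroup G} (hP : IsSylowOf p P M) :
    p ∣ (𝒩(P)).relIndex M - 1 := by
  have h := index_norm_mod hp (P := P.subgroupOf M) (by
    rw [← subgroupOf_self M]; exact (pHall_subgroupOf_iff hP.le le_rfl).2 hP)
  rwa [← subgroupOf_normalizer_eq hP.le] at h

/-- if the number of Sylow subgroups is not `1` modulo `p ^ 2`, two of them meet in index `p` -/
theorem exists_conj_index (hp : p.Prime) {P : Subgroup G} (hP : IsSylowOf p P ⊤)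
    (h : ¬ p ^ 2 ∣ (𝒩(P)).index - 1) : ∃ g ∉ 𝒩(P), (P :^ g).relIndex P = p := by
  by_contra hc
  push Not at hc
  refine h (dvd_index_norm_sub hP fun g hg => ?_)
  obtain ⟨k, h0, hk⟩ := relIndex_conj_sylow hp hP hg
  have : k ≠ 1 := fun e => hc g hg (by rw [hk, e, pow_one])
  exact hk ▸ pow_dvd_pow p (by omega)

theorem ne_top_of_pGrp [IsSimpleGroup G] (hG : ¬ IsMulCommutative G) {P : Subgroup G} (hP : IsPGrp p P) :
    P ≠ ⊤ := fun e => by
  have := der_lt_of_sol hP.sol (e ▸ top_ne_bot)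
  rw [e, der_top_eq hG] at this
  exact lt_irrefl _ this

theorem norm_ne_top [IsSimpleGroup G] {P : Subgroup G} (h0 : P ≠ ⊥) (h1 : P ≠ ⊤) : 𝒩(P) ≠ ⊤ := fun e =>
  (eq_bot_or_top e.ge).elim h0 h1

theorem cent1_ne_top [IsSimpleGroup G] (hG : ¬ IsMulCommutative G) {x : G} (hx : x ≠ 1) : 𝒞[x] ≠ ⊤ := fun e => by
  rcases eq_bot_or_top (norm_zpowers_of_cent e.ge) with h | h
  · exact hx (zpowers_eq_bot.1 h)
  · exact hG (abelian_top_iff.1 (h ▸ abelian_zpowers x))

/-- Burnside's transfer theorem in a simple group -/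
theorem not_norm_le_cent [IsSimpleGroup G] (hG : ¬ IsMulCommutative G) (hp : p.Prime) {P : Subgroup G}
    (hP : IsSylowOf p P ⊤) (h0 : P ≠ ⊥) : ¬ 𝒩(P) ≤ 𝒞(P) := fun h => by
  have h1 := Burnside_normal_complement hp hP (inf_le_right.trans h)
  rcases eq_bot_or_top h1.normal.2 with e | e
  · exact ne_top_of_pGrp hG hP.pGrp (by rw [← h1.sup_eq, e, bot_sup_eq])
  · exact h0 (by rw [← h1.inf_eq, e, top_inf_eq])

end CA.Dih
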