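/-
Arithmetic conditions on the order of a non-abelian simple group.
-/
import Cfsg.Agent.Dih.Act

set_option autoImplicit false
set_option linter.unusedSectionVars false

namespace CA.Dih

open Subgroup Cfsg CA.FG CA.BG MulAction
open scoped commutatorElement

universe u v

variable {G : Type u} [Group G] [Finite G] {p : ℕ}

theorem dvd_moved_of_comm {Ω : Type v} [MulAction G Ω] [Finite Ω] {y t : G} (hy : (orderOf y).Prime)
    (h : y * t = t * y) (hf : (fixedBy Ω y).Subsingleton) : orderOf y ∣ (fixedBy Ω t)ᶜ.ncard := by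
  have h1 := dvd_ncard_diff hy (S := (fixedBy Ω t)ᶜ) fun x hx hc => hx (by
    have := smul_mem_fixedBy_of_comm (y := y⁻¹) (show y⁻¹ * t = t * y⁻¹ from (Commute.inv_left h)) hc
    rwa [inv_smul_smul] at this)
  have h2 : Disjoint (fixedBy Ω t)ᶜ (fixedBy Ω y) :=
    Set.disjoint_left.2 fun x hx hc => hx (hf (smul_mem_fixedBy_of_comm h.symm hc) hc)
  rwa [sdiff_eq_left.2 h2] at h1

theorem mul_le_index_of_comm [IsSimpleGroup G] (hG : ¬ IsMulCommutative G) {H : Subgroup G} (hH : H ≠ ⊤)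
    {y t : G} {r : ℕ} (hp : p.Prime) (hr : r.Prime) (hpr : p ≠ r) (hy : orderOf y = p) (ht : orderOf t = r)
    (h : y * t = t * y) (hf : (fixedBy (G ⧸ H) y).Subsingleton) :
    p * r ≤ H.index ∧ (r = 2 → p * 4 ≤ H.index) := by
  have h1 := hy ▸ dvd_moved_of_comm (hy ▸ hp) h hf
  have h2 := ht ▸ dvd_ncard_compl (Ω := G ⧸ H) (ht ▸ hr)
  have h3 := moved_coset_pos hH (y := t) fun e => hr.one_lt.ne' (by rw [← ht, e, orderOf_one])
  have h4 := moved_add_fixed H t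
  have co := (Nat.coprime_primes hp hr).2 hpr
  refine ⟨(Nat.le_of_dvd h3 (co.mul_dvd_of_dvd_of_dvd h1 h2)).trans (by omega), fun e => ?_⟩
  have h5 := four_dvd_ncard_compl (Ω := G ⧸ H) (der_top_eq hG) (y := t) (by
    rw [← pow_two, ← e, ← ht, pow_orderOf_eq_one])
  exact (Nat.le_of_dvd h3 ((e ▸ co).pow_right 2 |>.mul_dvd_of_dvd_of_dvd h1 h5)).trans (by omega)

theorem fixedBy_empty {H : Subgroup G} {y : G} (h : ¬ orderOf y ∣ Nat.card H) : fixedBy (G ⧸ H) y = ∅ := by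
  refine Set.eq_empty_of_forall_notMem fun x hx => h ?_
  obtain ⟨g, rfl⟩ := QuotientGroup.mk_surjective x
  exact card_conjg H g ▸ orderOf_dvd_card_of_mem (mem_fixedBy_coset.1 hx)

theorem fixedBy_sylow {P : Subgroup G} (hP : IsSylowOf p P ⊤) {y : G} (hy : y ∈ P)
    (h : ∀ g, y ∈ P :^ g → g ∈ 𝒩(P)) : (fixedBy (G ⧸ 𝒩(P)) y).Subsingleton := by
  refine Set.subsingleton_singleton.anti (t := {((1 : G) : G ⧸ 𝒩(P))}) fun x hx => ?_
  obtain ⟨g, rfl⟩ := QuotientGroup.mk_surjective x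
  exact coset_eq_one.2 (h g ((inf_norm_conj hP g).le ⟨mem_fixedBy_coset.1 hx, hy⟩).1)

theorem mem_norm_of_card_prime {P : Subgroup G} (hP : (Nat.card P).Prime) {y g : G} (hy : y ∈ P) (h1 : y ≠ 1)
    (h : y ∈ P :^ g) : g ∈ 𝒩(P) := by
  rcases inf_eq_bot_or_le_of_card_prime hP (P :^ g) with e | e
  · exact absurd (mem_bot.1 (e.le ⟨hy, h⟩)) h1
  · exact conjg_eq_self_iff.1 (eq_of_le_of_card_ge e (card_conjg P g).le).symm

theorem exists_smul_of_card {Ω : Type v} [MulAction G Ω] [Finite Ω] {A : Subgroup G} {x : Ω} {S : Set Ω}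
    (hS : ∀ a ∈ A, a • x ∈ S) (h : S.ncard ≤ (stabilizer G x).relIndex A) {b : Ω} (hb : b ∈ S) :
    ∃ u ∈ A, u • x = b := by
  have h4 : orbit A x = S := Set.eq_of_subset_of_ncard_le (by rintro _ ⟨u, rfl⟩; exact hS u u.2)
    (ncard_orbit A x ▸ h)
  obtain ⟨u, hu⟩ : b ∈ orbit A x := h4 ▸ hb
  exact ⟨u, u.2, hu⟩

theorem ncard_compl_base (H : Subgroup G) : ({((1 : G) : G ⧸ H)} : Set (G ⧸ H))ᶜ.ncard + 1 = H.index := by
  have h3 := ncard_compl_add ({((1 : G) : G ⧸ H)} : Set (G ⧸ H))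
  rwa [Set.ncard_singleton, ← index_eq_card] at h3

/-- `P` is regular on the cosets of `H` other than `H` -/
theorem exists_smul_of_reg {H P : Subgroup G} (hPH : P ≤ H) (hreg : ∀ g ∉ H, H :^ g ⊓ P = ⊥)
    (hi : H.index = Nat.card P + 1) {a b : G ⧸ H} (ha : a ≠ (1 : G)) (hb : b ≠ (1 : G)) : ∃ u ∈ P, u • a = b := by
  obtain ⟨g, rfl⟩ := QuotientGroup.mk_surjective a
  have h2 := card_inf_mul_relIndex (H :^ g) P
  rw [hreg g fun h => ha (coset_eq_one.2 h), card_bot, one_mul] at h2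
  have h3 := ncard_compl_base H
  refine exists_smul_of_card (S := ({((1 : G) : G ⧸ H)} : Set (G ⧸ H))ᶜ) (fun u hu hc => ha (coset_eq_one.2 ?_))
    (by rw [stabilizer_coset, h2]; omega) hb
  have : u * g ∈ H := coset_eq_one.1 hc
  exact (H.mul_mem_cancel_left (hPH hu)).1 this

theorem fixed_le_two {H P : Subgroup G} (hPH : P ≤ H) (hreg : ∀ g ∉ H, H :^ g ⊓ P = ⊥)
    (hi : H.index = Nat.card P + 1) {s : G} (hs : s ∈ 𝒩(P)) (hc : P ⊓ 𝒞[s] = ⊥) :
    (fixedBy (G ⧸ H) s).ncard ≤ 2 := by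
  have h1 : (fixedBy (G ⧸ H) s \ {((1 : G) : G ⧸ H)}).Subsingleton := fun a ha b hb => by
    obtain ⟨u, hu, rfl⟩ := exists_smul_of_reg hPH hreg hi ha.2 hb.2
    obtain ⟨g, rfl⟩ := QuotientGroup.mk_surjective a
    have h2 : u⁻¹ * (s * u * s⁻¹) ∈ H :^ g ⊓ P := by
      refine ⟨?_, P.mul_mem (P.inv_mem hu) (conj_mem_of_mem_norm hs hu)⟩
      have e1 : s • (g : G ⧸ H) = g := ha.1
      have e2 : s • u • (g : G ⧸ H) = u • (g : G ⧸ H) := hb.1
      rw [← stabilizer_coset]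
      change _ • _ = _
      rw [mul_smul, mul_smul, mul_smul, inv_smul_eq_iff.2 e1.symm, e2, inv_smul_smul]
    rw [hreg g fun h => ha.2 (coset_eq_one.2 h), mem_bot, inv_mul_eq_one, eq_mul_inv_iff_mul_eq] at h2
    rw [mem_bot.1 (hc.le ⟨hu, mem_centralizer_singleton_iff.2 h2⟩), one_smul]
  have h2 := (Set.ncard_le_one (Set.toFinite _)).2 fun a ha b hb => h1 ha hb
  have h3 := ncard_diff_add (fixedBy (G ⧸ H) s) {((1 : G) : G ⧸ H)}
  have h4 := Set.ncard_le_ncard (Set.inter_subset_right (s := fixedBy (G ⧸ H) s) (t := {((1 : G) : G ⧸ H)}))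
  rw [Set.ncard_singleton] at h4
  omega

theorem fixed_pos {H : Subgroup G} {s : G} (hs : s ∈ H) : 0 < (fixedBy (G ⧸ H) s).ncard :=
  (Set.ncard_pos (Set.toFinite _)).2 ⟨(1 : G), mem_fixedBy_coset.2 (by rwa [conjg_one])⟩

theorem reg_of_TI {P : Subgroup G} (hP : IsSylowOf p P ⊤) (h : ∀ y ∈ P, y ≠ 1 → ∀ g, y ∈ P :^ g → g ∈ 𝒩(P)) :
    ∀ g ∉ 𝒩(P), 𝒩(P) :^ g ⊓ P = ⊥ := fun g hg => by
  rw [inf_norm_conj hP, eq_bot_iff]
  exact fun y hy => by_contra fun h1 => hg (h y hy.2 h1 g hy.1)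

/-- the conditions satisfied by the number `m` of Sylow `p`-subgroups, of order `p ^ a` -/
def SylCond (n p a m : ℕ) : Prop :=
  m % p = 1 ∧ 1 < m ∧ 2 * n ∣ m.factorial ∧
  (a = 1 → ∃ e < p, 1 < e ∧ e ∣ p - 1 ∧ p * m * e ∣ n ∧
    (∀ r < n / (p * m * e) + 1, r ∣ n / (p * m * e) → r.Prime → p * r ≤ m ∧ (r = 2 → p * 4 ≤ m)) ∧
    (m = p + 1 → 2 ∣ e → 4 ∣ p - 1)) ∧
  (a = 2 → (n / (p ^ a * m)).gcd (p ^ 2 - 1) ≠ 1) ∧
  (2 ≤ a → m % p ^ 2 ≠ 1 → ∃ j < n / p ^ a, p ^ a * j ∣ n ∧ 2 * n ∣ (n / (p ^ a * j)).factorial ∧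
    ∃ d < j + 1, d ∣ j ∧ d % p = 1 ∧ 1 < d)

set_option synthInstance.maxSize 2000 in
instance (n p a m : ℕ) : Decidable (SylCond n p a m) := by unfold SylCond; infer_instance

theorem mod_eq_one_of_dvd {m p : ℕ} (hp : 1 < p) (hm : 0 < m) (h : p ∣ m - 1) : m % p = 1 := by
  obtain ⟨k, hk⟩ := h
  rw [show m = 1 + p * k by omega, Nat.add_mul_mod_self_left, Nat.mod_eq_of_lt hp]

theorem dvd_of_mod_eq_one {m p : ℕ} (h : m % p = 1) : p ∣ m - 1 :=
  ⟨m / p, by have := Nat.div_add_mod m p; omega⟩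

theorem card_eq_mul3 {P N : Subgroup G} (h : P ≤ N) : Nat.card G = Nat.card P * P.relIndex N * N.index := by
  rw [card_mul_relIndex h, card_mul_index]

theorem exists_pElt_not_cent (hp : p.Prime) {P : Subgroup G} (hP : IsSylowOf p P ⊤) (cP : IsMulCommutative P)
    (h : ¬ 𝒩(P) ≤ 𝒞(P)) : ∃ q : ℕ, q.Prime ∧ q ≠ p ∧ q ∣ P.relIndex 𝒩(P) ∧ ∃ x ∈ 𝒩(P), IsPiElt {q} x ∧ x ∉ 𝒞(P) := by
  by_contra hc
  refine h (le_of_forall_pElt fun q hq x hx qx => by_contra fun h1 => ?_)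
  by_cases e : q = p
  · exact h1 (abelian_iff_le_cent.1 cP (mem_of_mem_norm_sylow hP trivial hx (e ▸ qx)))
  refine hc ⟨q, hq, e, ?_, x, hx, qx, h1⟩
  have h2 : zpowers x ≠ ⊥ := fun e => h1 (by rw [zpowers_eq_bot.1 e]; exact one_mem _)
  have h3 := (IsPGrp.dvd_card (piGrp_zpowers_iff.2 qx) h2).trans (card_dvd_of_le (zpowers_le.2 hx))
  rw [← card_mul_relIndex le_normalizer] at h3
  exact (hq.dvd_mul.1 h3).resolve_left fun h4 => e (hP.piGrp q hq h4)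

theorem inter_facts (hp : p.Prime) {P : Subgroup G} (hP : IsSylowOf p P ⊤) {g : G} (hg : g ∉ 𝒩(P))
    (h : (P :^ g).relIndex P = p) : Nat.card (P :^ g ⊓ P : Subgroup G) * p = Nat.card P ∧
      P ≤ 𝒩(P :^ g ⊓ P) ∧ P :^ g ≤ 𝒩(P :^ g ⊓ P) ∧ ¬ P :^ g ≤ 𝒩(P) := by
  have h1 := card_inf_mul_relIndex (P :^ g) P
  have h2 := card_inf_mul_relIndex P (P :^ g)
  rw [card_conjg, inf_comm, ← h1] at h2
  have h3 := Nat.eq_of_mul_eq_mul_left Nat.card_pos h2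
  refine ⟨h ▸ h1, (normal_of_index_eq_of_pGrp hp hP.pGrp inf_le_right (by rw [inf_relIndex_right, h])).2,
    (normal_of_index_eq_of_pGrp hp (hP.piGrp.conjg g) inf_le_left (by rw [inf_relIndex_left, h3, h])).2,
    fun hc => hg ?_⟩
  exact mem_norm_of_conjg_le (hP.le_of_le_norm (hP.piGrp.conjg g) le_top hc)

theorem one_lt_relIndex {A B : Subgroup G} (h : ¬ B ≤ A) : 1 < A.relIndex B :=
  lt_of_le_of_ne (relIndex_pos A B) fun e => h (relIndex_eq_one.1 e.symm)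

theorem sylCond [IsSimpleGroup G] (hG : ¬ IsMulCommutative G) (hp : p.Prime) {P : Subgroup G}
    (hP : IsSylowOf p P ⊤) {a : ℕ} (a0 : a ≠ 0) (ha : Nat.card P = p ^ a) :
    SylCond (Nat.card G) p a (𝒩(P)).index := by
  have h0 : P ≠ ⊥ := ne_bot_of_prime_dvd_card hp (ha ▸ dvd_pow_self p a0)
  have hN := norm_ne_top h0 (ne_top_of_pGrp hG hP.pGrp)
  have hm := index_pos 𝒩(P)
  have hn : 0 < Nat.card G := Nat.card_pos
  have hB := not_norm_le_cent hG hp hP h0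
  have hPN := hP.of_le le_normalizer le_top
  refine ⟨mod_eq_one_of_dvd hp.one_lt hm (index_norm_mod hp hP), one_lt_index_of_ne_top hN,
    two_mul_card_dvd_factorial hG hN, ?_, ?_, fun a2 h2 => ?_⟩
  · rintro rfl
    rw [pow_one] at ha
    have hP' : (Nat.card P).Prime := ha ▸ hp
    have hC : P ≤ 𝒞(P) := abelian_iff_le_cent.1 (abelian_of_cyclic (isCyclic_of_card_prime hP'))
    have he := relIndex_cent_dvd_pred hp ha (le_refl 𝒩(P))
    have h1 : Nat.card G = p * (𝒩(P)).index * (𝒞(P)).relIndex 𝒩(P) * P.relIndex 𝒞(P) := by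
      rw [card_eq_mul3 (le_normalizer (H := P)), ← relIndex_mul_relIndex _ _ _ hC (cent_le_norm P), ha]; ring
    have h2 : Nat.card G / (p * (𝒩(P)).index * (𝒞(P)).relIndex 𝒩(P)) = P.relIndex 𝒞(P) := by
      rw [h1, Nat.mul_div_cancel_left _ (Nat.mul_pos (Nat.mul_pos hp.pos hm) (relIndex_pos _ _))]
    obtain ⟨y, hy, oy⟩ := exists_mem_orderOf_eq hp ha.symm.dvd
    have y1 : y ≠ 1 := fun e => hp.one_lt.ne' (by rw [← oy, e, orderOf_one])
    have h3 : ∀ r, r ∣ P.relIndex 𝒞(P) → r.Prime →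
        p * r ≤ (𝒩(P)).index ∧ (r = 2 → p * 4 ≤ (𝒩(P)).index) := fun r hr hr' => by
      obtain ⟨t, ht, ot⟩ := exists_mem_orderOf_eq hr' (hr.trans (relIndex_dvd_card P 𝒞(P)))
      refine mul_le_index_of_comm hG hN hp hr' (fun e => IsSylowOf.not_dvd_index (hP.of_le hC le_top) hp (e ▸ hr)) oy ot
        (ht y hy) (fixedBy_sylow hP hy fun g => mem_norm_of_card_prime hP' hy y1)
    have := hp.two_le
    refine ⟨_, lt_of_le_of_lt (Nat.le_of_dvd (by omega) he) (by omega), one_lt_relIndex hB, he, ⟨_, h1⟩,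
      fun r _ => h2 ▸ h3 r, fun e h4 => ?_⟩
    obtain ⟨s, hs, os⟩ := exists_mem_orderOf_eq Nat.prime_two (h4.trans (relIndex_dvd_card 𝒞(P) 𝒩(P)))
    have h5 := h4.trans he
    have h6 := fixed_le_two le_normalizer (reg_of_TI hP fun y hy y1 g => mem_norm_of_card_prime hP' hy y1)
      (ha ▸ e) hs ((inf_eq_bot_or_le_of_card_prime hP' _).resolve_right fun h7 => by
        have := (mul_le_index_of_comm hG hN hp Nat.prime_two (by omega) oy os
          (mem_centralizer_singleton_iff.1 (h7 hy))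
          (fixedBy_sylow hP hy fun g => mem_norm_of_card_prime hP' hy y1)).1
        omega)
    have h7 := four_dvd_ncard_compl (Ω := G ⧸ 𝒩(P)) (der_top_eq hG) (y := s) (by
      rw [← pow_two, ← os, pow_orderOf_eq_one])
    have h8 := moved_add_fixed 𝒩(P) s
    have h9 := fixed_pos hs
    omega
  · rintro rfl
    obtain ⟨q, hq, hqp, h1, x, hx, qx, h2⟩ := exists_pElt_not_cent hp hP (abelian_of_card_le_sq hp hP.pGrp ha.le) hB
    have h3 := dvd_card_sub_cent hq hx qx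
    have h4 := card_inf_cent_lt h2
    obtain ⟨b, hb⟩ := (pGrp_iff_card hp).1 (hP.piGrp.inf_left 𝒞[x])
    rw [ha, hb] at h3 h4
    have h5 : q ∣ p ^ 2 - 1 := by
      have hb2 : b < 2 := (Nat.pow_lt_pow_iff_right hp.one_lt).1 h4
      exact P04.dvd_sq_sub_one_of_modEq hp hq hqp hb2 (by omega) ((Nat.modEq_iff_dvd' h4.le).2 h3).symm
    have h6 : Nat.card G / (p ^ 2 * (𝒩(P)).index) = P.relIndex 𝒩(P) := by
      rw [card_eq_mul3 (le_normalizer (H := P)), ha, mul_right_comm,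
        Nat.mul_div_cancel_left _ (Nat.mul_pos (pow_pos hp.pos _) hm)]
    rw [h6]
    exact fun e => hq.not_dvd_one (e ▸ Nat.dvd_gcd h1 h5)
  · obtain ⟨g, hg, h1⟩ := exists_conj_index hp hP fun h =>
      h2 (mod_eq_one_of_dvd (Nat.one_lt_pow two_ne_zero hp.one_lt) hm h)
    obtain ⟨h3, h4, h5, h6⟩ := inter_facts hp hP hg h1
    set D := P :^ g ⊓ P
    have D0 : D ≠ ⊥ := fun e => by
      rw [e, card_bot, one_mul, ha] at h3
      exact absurd (Nat.pow_right_injective hp.two_le ((pow_one p).trans h3)) (by omega)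
    have hH := norm_ne_top D0 (ne_top_of_pGrp hG (hP.piGrp.inf_right _))
    have h7 := card_eq_mul3 h4
    rw [ha] at h7
    have h8 : Nat.card G / (p ^ a * P.relIndex 𝒩(D)) = (𝒩(D)).index := by
      rw [h7, Nat.mul_div_cancel_left _ (Nat.mul_pos (pow_pos hp.pos _) (relIndex_pos _ _))]
    have h9 : (𝒩(P)).relIndex 𝒩(D) ∣ P.relIndex 𝒩(D) := relIndex_dvd_of_le_left _ le_normalizer
    refine ⟨P.relIndex 𝒩(D), ?_, ⟨_, h7⟩, h8 ▸ two_mul_card_dvd_factorial hG hH, (𝒩(P)).relIndex 𝒩(D),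
      Nat.lt_succ_of_le (Nat.le_of_dvd (relIndex_pos _ _) h9), h9,
      mod_eq_one_of_dvd hp.one_lt (relIndex_pos _ _) (relIndex_norm_mod hp (hP.of_le h4 le_top)),
      one_lt_relIndex fun h => h6 (h5.trans h)⟩
    rw [h7, mul_assoc, Nat.mul_div_cancel_left _ (pow_pos hp.pos _)]
    exact lt_mul_of_one_lt_right (relIndex_pos _ _) (one_lt_index_of_ne_top hH)

theorem exists_sylow_card (hp : p.Prime) {a : ℕ} (h1 : p ^ a ∣ Nat.card G) (h2 : ¬ p ^ (a + 1) ∣ Nat.card G) :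
    ∃ P : Subgroup G, IsSylowOf p P ⊤ ∧ Nat.card P = p ^ a := by
  obtain ⟨P, -, hP⟩ := exists_le_card_eq_pow (H := (⊤ : Subgroup G)) hp (by rwa [card_top])
  refine ⟨P, sylow_mk le_top (pGrp_of_card_eq_pow hp hP) fun h => h2 ?_, hP⟩
  rw [← card_mul_index P, hP, pow_succ]
  exact Nat.mul_dvd_mul_left _ (by rwa [relIndex_top_right] at h)

theorem IsSylowOf_card (hp : p.Prime) {P : Subgroup G} (hP : IsSylowOf p P ⊤) {a : ℕ} (h1 : p ^ a ∣ Nat.card G)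
    (h2 : ¬ p ^ (a + 1) ∣ Nat.card G) : Nat.card P = p ^ a := by
  obtain ⟨Q, hQ, e⟩ := exists_sylow_card hp h1 h2
  rw [hP.card_eq hQ, e]

theorem sylCond_mem [IsSimpleGroup G] (hG : ¬ IsMulCommutative G) (hp : p.Prime) {P : Subgroup G}
    (hP : IsSylowOf p P ⊤) {a : ℕ} (a0 : a ≠ 0) (ha : Nat.card P = p ^ a) {n : ℕ} (hn : Nat.card G = n)
    {L : List ℕ} (h : ∀ m < n / p ^ a + 1, p ^ a * m ∣ n → SylCond n p a m → m ∈ L) : (𝒩(P)).index ∈ L := by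
  have h1 := card_eq_mul3 (le_normalizer (H := P))
  rw [ha, hn] at h1
  refine h _ (Nat.lt_succ_of_le ?_) ⟨P.relIndex 𝒩(P), by rw [h1]; ring⟩ (hn ▸ sylCond hG hp hP a0 ha)
  rw [h1, mul_assoc, Nat.mul_div_cancel_left _ (pow_pos hp.pos _)]
  exact Nat.le_mul_of_pos_left _ (relIndex_pos _ _)

/-- the prime `p` excludes the order `n` -/
def Excl (n p a : ℕ) : Prop :=
  (2 ≤ p ∧ p < 1156 ∧ ∀ d < 34, 2 ≤ d → d < p → ¬ d ∣ p) ∧ a ≠ 0 ∧ p ^ a ∣ n ∧ ¬ p ^ (a + 1) ∣ n ∧ ∀ m < n / p ^ a + 1, p ^ a * m ∣ n → SylCond n p a m → m ∈ ([] : List ℕ)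

set_option synthInstance.maxSize 2000 in
instance (n p a : ℕ) : Decidable (Excl n p a) := by unfold Excl; infer_instance

theorem not_excl [IsSimpleGroup G] (hG : ¬ IsMulCommutative G) (p a : ℕ) : ¬ Excl (Nat.card G) p a :=
  fun ⟨⟨p2, pl, hp'⟩, a0, h1, h2, h⟩ => by
    have hp : p.Prime := Nat.prime_def_le_sqrt.2 ⟨p2, fun d d2 hd =>
      hp' d (lt_of_le_of_lt hd (Nat.sqrt_lt.2 pl)) d2 (lt_of_le_of_lt hd (Nat.sqrt_lt_self p2))⟩
    obtain ⟨P, hP, ha⟩ := exists_sylow_card hp h1 h2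
    exact List.not_mem_nil (sylCond_mem hG hp hP a0 ha rfl h)

end CA.Dih

theorem CA.Dih.realizeEqnsSieve : True := by
  have := @CA.Dih.SylCond.eq_1
  have := @CA.Dih.SylCond.eq_def
  have := @CA.Dih.SylCond.congr_simp
  have := @CA.Dih.Excl.eq_1
  have := @CA.Dih.Excl.eq_def
  have := @CA.Dih.Excl.congr_simp
  trivial
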