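/-
Uniqueness of the simple groups of orders 168, 360, 660, 1092.
-/
import Cfsg.Agent.Dih.Zass
import Cfsg.Agent.Lin.SmallIso

set_option autoImplicit false
set_option linter.unusedSectionVars false

namespace CA.Dih

open Subgroup Cfsg CA.FG CA.BG MulAction
open scoped commutatorElement MatrixGroups

universe u v

variable {G : Type u} [Group G] [Finite G] {p : ℕ} {B P : Subgroup G}

theorem conj_eq_of_swap {g w : G} (hw : w ∉ B :^ g ⊓ B)
    (h : ∀ a ∈ ({((1 : G) : G ⧸ B), (g : G ⧸ B)} : Set (G ⧸ B)), w • a ∈ ({((1 : G) : G ⧸ B), (g : G ⧸ B)} : Set (G ⧸ B))) :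
    w ∉ B ∧ B :^ w = B :^ g := by
  have h1 : w ∉ B := fun hB => hw ⟨by
    have e1 : w • ((1 : G) : G ⧸ B) = (1 : G) := smul_coset_iff.2 (by simpa using hB)
    rcases h g (Or.inr rfl) with e | e
    · have e2 : (g : G ⧸ B) = (1 : G) := smul_left_cancel w (e.trans e1.symm)
      exact mem_fixedBy_coset.1 (by rw [e2]; exact e1)
    · exact mem_fixedBy_coset.1 e, hB⟩
  refine ⟨h1, ?_⟩
  rcases h _ (Or.inl rfl) with e | e
  · exact absurd (by simpa using smul_coset_iff.1 e) h1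
  · rw [← stabilizer_coset, ← stabilizer_coset, ← e, MulAction.Quotient.smul_mk, smul_eq_mul, mul_one]

theorem ZS.exists_w_even [IsSimpleGroup G] (hG : ¬ IsMulCommutative G) (h : ZS B P) (cP : IsMulCommutative P)
    (oP : Odd (Nat.card P)) (hc : ∀ s : G, s * s = 1 → s ≠ 1 → P ⊓ 𝒞[s] = ⊥) (h4 : ¬ 4 ∣ B.index) {g : G}
    (hg : g ∉ B) (semi : Semiregular P (B :^ g ⊓ B)) (cD : IsMulCommutative (B :^ g ⊓ B : Subgroup G))
    (oD : Nat.card (B :^ g ⊓ B : Subgroup G) = 4 ∨ Nat.card (B :^ g ⊓ B : Subgroup G) = 6) :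
    ∃ w, w * w = 1 ∧ w ∉ B ∧ B :^ w = B :^ g ∧ ∀ d ∈ B :^ g ⊓ B, w * d * w⁻¹ = d⁻¹ := by
  set D := B :^ g ⊓ B
  obtain ⟨t, ht, ot⟩ := exists_mem_orderOf_eq Nat.prime_two (H := D) (by omega)
  have t2 := sq_eq_one_of_orderOf ot
  have t1 := ne_one_of_orderOf Nat.prime_two ot
  obtain ⟨f1, f2, f3, f4, S, -, f5, w, hw, hw', w2⟩ := h.inv_facts hG cP oP hc h4 hg ht t2 t1
  have wt := mem_centralizer_singleton_iff.1 (f5 hw)
  obtain ⟨h1, h2⟩ := conj_eq_of_swap hw' fun a ha => by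
    rw [← h.fixed_eq hg ht (hc t t2 t1)] at ha ⊢
    exact smul_mem_fixedBy_of_comm wt ha
  refine ⟨w, w2, h1, h2, fun d hd => ?_⟩
  have h3 : ∀ c ∈ D, c * w = w * c → c * c = 1 := fun c hc' e => by_contra fun c1 => by
    obtain ⟨x, hx⟩ := isConj_iff.1 (f4 w w2 fun e => hw' (e ▸ one_mem _))
    have e1 : x * c * x⁻¹ ∈ 𝒞[t] := by
      rw [← hx, ← conjg_cent1]; exact conj_mem_conjg x (mem_centralizer_singleton_iff.2 e)
    have e2 : x * (c * c) * x⁻¹ ∈ D := by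
      rw [show x * (c * c) * x⁻¹ = x * c * x⁻¹ * (x * c * x⁻¹) by group]
      by_cases e3 : x * c * x⁻¹ ∈ D
      · exact mul_mem e3 e3
      · exact mul_mem_of_relIndex_two (le_antisymm f3 (one_lt_relIndex fun e => e3 (e e1))) e1 e1 e3 e3
    have e3 : x • ((1 : G) : G ⧸ B) ∈ fixedBy (G ⧸ B) (x * (c * c) * x⁻¹) := by
      rw [mem_fixedBy, mul_smul, inv_smul_smul, mul_smul, smul_coset_iff.2 (by simpa using mul_mem hc'.2 hc'.2)]
    rw [h.fixed_eq hg e2 (semi _ e2 (by simpa using c1)), ← h.fixed_eq hg ht (hc t t2 t1), mem_fixedBy, ← hx,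
      mul_smul, inv_smul_smul, mul_smul, smul_left_cancel_iff] at e3
    exact h1 (by simpa using smul_coset_iff.1 e3)
  have wi : w⁻¹ = w := inv_eq_of_mul_eq_one_right w2
  have h5 := conj_mem_of_le_norm (norm_of_relIndex_le_two f2 f3) (f5 hw) hd
  have h6 := abelian_iff_forall.1 cD _ hd _ h5
  have h7 := h3 _ (mul_mem hd h5) (by
    conv_rhs => rw [h6]
    rw [wi, mul_assoc, mul_assoc, w2, ← mul_assoc w, ← mul_assoc w, ← mul_assoc w w, w2, one_mul, mul_one]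
    group)
  by_contra h8
  have h9 := f1 _ (mul_mem hd h5) h7 fun e => h8 (eq_inv_of_mul_eq_one_right e)
  have h10 : ∀ c ∈ D, c * c = 1 → w * c * w⁻¹ = c := fun c hc' c2 => by
    by_cases c1 : c = 1
    · rw [c1]; group
    · rw [f1 c hc' c2 c1, wt]; group
  have h11 := pow_card_eq_one_of_mem hd
  rcases oD with e | e <;> rw [e] at h11
  · by_cases d2 : d * d = 1
    · rw [h10 d hd d2, d2] at h9
      exact t1 h9.symm
    · rw [← f1 _ (mul_mem hd hd) (by rw [← h11, ← pow_two, ← pow_two, ← pow_mul]) d2, mul_right_inj,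
        mul_inv_eq_iff_eq_mul] at h9
      exact d2 (h3 d hd h9.symm)
  · have e1 := h10 _ (pow_mem hd 3) (by rw [← pow_add, h11])
    have e2 := congrArg (· ^ 3) h9
    simp only [(show Commute d (w * d * w⁻¹) from h6).mul_pow, conj_pow, e1] at e2
    rw [← pow_add, h11, pow_succ, pow_two, t2, one_mul] at e2
    exact t1 e2.symm

theorem ZS.exists_w_odd [IsSimpleGroup G] (hG : ¬ IsMulCommutative G) (h : ZS B P) {g : G}
    (hg : g ∉ B) (semi : Semiregular P (B :^ g ⊓ B)) (hp : p.Prime) (p2 : p ≠ 2)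
    (oD : Nat.card (B :^ g ⊓ B : Subgroup G) = p) (hn : ¬ p ^ 2 ∣ Nat.card G) :
    ∃ w, w * w = 1 ∧ w ∉ B ∧ B :^ w = B :^ g ∧ ∀ d ∈ B :^ g ⊓ B, w * d * w⁻¹ = d⁻¹ := by
  set D := B :^ g ⊓ B
  have hD : IsSylowOf p D ⊤ := sylow_mk le_top (pGrp_of_card_eq hp oD) fun e => hn (by
    rw [← card_mul_index D, oD, pow_two]
    exact Nat.mul_dvd_mul_left _ (by rwa [relIndex_top_right] at e))
  have hp' : (Nat.card D).Prime := oD ▸ hp
  have cD := abelian_of_cyclic (isCyclic_of_card_prime hp')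
  have h1 := not_norm_le_cent hG hp hD (ne_bot_of_card_prime hp')
  obtain ⟨d, hd, d1⟩ := exists_mem_ne_one (ne_bot_of_card_prime hp')
  have h2 : ∀ n ∈ 𝒩(D), ∀ a ∈ ({((1 : G) : G ⧸ B), (g : G ⧸ B)} : Set (G ⧸ B)),
      n • a ∈ ({((1 : G) : G ⧸ B), (g : G ⧸ B)} : Set (G ⧸ B)) := fun n hn a ha => by
    have e := conj_mem_of_mem_norm hn hd
    rw [← h.fixed_eq hg hd (semi d hd d1)] at ha
    rw [← h.fixed_eq hg e (semi _ e (by simpa using d1)), mem_fixedBy, mul_smul, inv_smul_smul, mul_smul, ha]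
  have h3 : D.relIndex 𝒩(D) = 2 := le_antisymm (relIndex_le_two_of_pair h2)
    (one_lt_relIndex fun e => h1 (e.trans (abelian_iff_le_cent.1 cD)))
  obtain ⟨w, hw, ow⟩ := exists_mem_orderOf_eq Nat.prime_two (h3 ▸ relIndex_dvd_card D 𝒩(D))
  have w2 := sq_eq_one_of_orderOf ow
  have hw' : w ∉ D := fun e =>
    p2 ((Nat.prime_dvd_prime_iff_eq Nat.prime_two hp).1 (ow ▸ oD ▸ orderOf_dvd_card_of_mem e)).symm
  obtain ⟨h4, h5⟩ := conj_eq_of_swap hw' (h2 w hw)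
  refine ⟨w, w2, h4, h5, fun c hc => inv_of_fpf cD hw (w2 ▸ one_mem _)
    ((inf_eq_bot_or_le_of_card_prime hp' _).resolve_right fun e => h1 fun n hn => ?_) hc⟩
  by_cases e1 : n ∈ D
  · exact abelian_iff_le_cent.1 cD e1
  · exact (mul_mem_cancel_left (mem_cent_iff_le_cent_singleton.2 e)).1
      (abelian_iff_le_cent.1 cD (mul_mem_of_relIndex_two h3 hw hn hw' e1))

theorem equiv_psl_prime [IsSimpleGroup G] (hp : p = 7 ∨ p = 11 ∨ p = 13) (hn : 2 * Nat.card G = p * (p ^ 2 - 1))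
    {F : Type*} [Field F] [Fintype F] (hF : Fintype.card F = p) : Nonempty (G ≃* PSL(2, F)) := by
  have hn' : (p = 7 ∧ Nat.card G = 168) ∨ (p = 11 ∧ Nat.card G = 660) ∨ (p = 13 ∧ Nat.card G = 1092) := by
    rcases hp with rfl | rfl | rfl <;> omega
  have pp : p.Prime := by rcases hp with rfl | rfl | rfl <;> norm_num
  have hG : ¬ IsMulCommutative G := not_comm_of_card (by
    rcases hn' with ⟨-, e⟩ | ⟨-, e⟩ | ⟨-, e⟩ <;> rw [e] <;> norm_num)
  obtain ⟨P, hP, oP⟩ := exists_sylow_card pp (a := 1) (G := G)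
    (by rcases hn' with ⟨rfl, e⟩ | ⟨rfl, e⟩ | ⟨rfl, e⟩ <;> rw [e] <;> decide)
    (by rcases hn' with ⟨rfl, e⟩ | ⟨rfl, e⟩ | ⟨rfl, e⟩ <;> rw [e] <;> decide)
  have h1 : (𝒩(P)).index ∈ [p + 1] := by
    rcases hn' with ⟨rfl, e⟩ | ⟨rfl, e⟩ | ⟨rfl, e⟩ <;>
      exact sylCond_mem hG pp hP (by omega) oP e (by decide +kernel)
  rw [List.mem_singleton] at h1
  rw [pow_one] at oP
  have hP' : (Nat.card P).Prime := oP ▸ pp
  have cP := isCyclic_of_card_prime hP'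
  have h : ZS 𝒩(P) P := ⟨le_normalizer, le_rfl, reg_of_TI hP fun y hy y1 g => mem_norm_of_card_prime hP' hy y1,
    oP ▸ h1⟩
  obtain ⟨g, -, hg⟩ := SetLike.exists_of_lt h.ne_top.lt_top
  have h2 := h.card_inter hg
  have h3 := card_mul_index 𝒩(P)
  have semi : Semiregular P (𝒩(P) :^ g ⊓ 𝒩(P)) := fun d hd d1 =>
    (inf_eq_bot_or_le_of_card_prime hP' _).resolve_right fun e =>
      d1 (h.eq_one_of_cent hg hd (mem_cent_iff_le_cent_singleton.2 e))
  rw [h1] at h3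
  rw [oP] at h2
  obtain ⟨w, w2, hw, e, inv⟩ : ∃ w, w * w = 1 ∧ w ∉ 𝒩(P) ∧ 𝒩(P) :^ w = 𝒩(P) :^ g ∧
      ∀ d ∈ 𝒩(P) :^ g ⊓ 𝒩(P), w * d * w⁻¹ = d⁻¹ := by
    rcases hn' with ⟨rfl, e⟩ | ⟨rfl, e⟩ | ⟨rfl, e⟩
    · exact h.exists_w_odd hG hg semi Nat.prime_three (by omega) (by omega) (by omega)
    · exact h.exists_w_odd hG hg semi Nat.prime_five (by omega) (by omega) (by omega)
    · refine h.exists_w_even hG (abelian_of_cyclic cP) (by rw [oP]; decide) (fun s s2 s1 =>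
        (inf_eq_bot_or_le_of_card_prime hP' _).resolve_right fun e' => ?_) (by omega) hg semi
        (der_eq_bot_iff.1 (eq_bot_iff.2 fun d hd => h.eq_one_of_cent hg (der_le _ hd)
          (der_le_cent_of_cyclic cP inf_le_right hd))) (by omega)
      obtain ⟨y, hy, oy⟩ := exists_mem_orderOf_eq pp oP.symm.dvd
      have := (mul_le_index_of_comm hG h.ne_top pp Nat.prime_two (by omega) oy (orderOf_two s2 s1)
        (mem_centralizer_singleton_iff.1 (e' hy))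
        (fixedBy_sylow hP hy fun g => mem_norm_of_card_prime hP' hy (ne_one_of_orderOf pp oy))).1
      omega
  refine h.equiv_psl (abelian_of_cyclic cP) w2 hw (e ▸ semi) ?_ (e ▸ inv) (hF.trans oP.symm)
  rw [e, oP]
  rcases hn' with ⟨rfl, e⟩ | ⟨rfl, e⟩ | ⟨rfl, e⟩ <;> omega

theorem equiv_A6 [IsSimpleGroup G] (hn : Nat.card G = 360) : Nonempty (G ≃* alternatingGroup (Fin 6)) := by
  have hG : ¬ IsMulCommutative G := not_comm_of_card (by rw [hn]; norm_num)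
  obtain ⟨P, hP⟩ := sylow_exists Nat.prime_three (⊤ : Subgroup G)
  obtain ⟨h, oP, hc⟩ := ZS_three hG (Or.inl hn) hP
  obtain ⟨g, -, hg⟩ := SetLike.exists_of_lt h.ne_top.lt_top
  have h1 := h.card_inter hg
  have h2 := card_mul_index 𝒩(P)
  have h3 := h.index
  rw [oP] at h1 h3
  rw [h3] at h2
  have pD : IsPGrp 2 (𝒩(P) :^ g ⊓ 𝒩(P) : Subgroup G) := pGrp_of_card_eq_pow Nat.prime_two (k := 2) (by omega)
  have semi : Semiregular P (𝒩(P) :^ g ⊓ 𝒩(P)) := fun d hd d1 => by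
    obtain ⟨s, hs, s2, s1⟩ := exists_inv_of_piElt (pD.piElt hd) d1
    exact eq_bot_iff.2 ((inf_le_inf_left _ (cent_singleton_le_of_mem_zpowers hs)).trans (hc s s2 s1).le)
  have cP := abelian_of_card_le_sq Nat.prime_three hP.pGrp oP.le
  obtain ⟨w, w2, hw, e, inv⟩ := h.exists_w_even hG cP (by rw [oP]; decide) hc (by omega) hg semi
    (abelian_of_card_le_sq Nat.prime_two pD (by omega)) (by omega)
  let _ := Cfsg.Agent.Lin.fintypeF9
  obtain ⟨e1⟩ := h.equiv_psl cP w2 hw (e ▸ semi) (by rw [e]; omega) (e ▸ inv)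
    (Cfsg.Agent.Lin.card_F9.trans oP.symm)
  obtain ⟨e2⟩ := Cfsg.Agent.Lin.psl2_nine_equiv
  exact ⟨e1.trans e2⟩

end CA.Dih
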