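/-
The `ZJ` theorem for the Thompson subgroup generated by the elementary abelian subgroups of
largest order, for solvable groups of odd order.
-/
import Cfsg.Agent.BG.I06
import Cfsg.Agent.BG.I04
import Cfsg.Prelude.Def_Transfer

set_option autoImplicit false
set_option linter.unusedSectionVars false

namespace CA.Dih

open Subgroup Cfsg CA.FG CA.BG CA.BG.P06
open scoped commutatorElement

universe u v

variable {G : Type u} [Group G] [Finite G] {p : ℕ}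

/-- `A` is an elementary abelian subgroup of `S` of largest order. -/
def MaxE (p : ℕ) (S A : Subgroup G) : Prop :=
  A ≤ S ∧ IsElementaryAbelian p A ∧
    ∀ B : Subgroup G, B ≤ S → IsElementaryAbelian p B → Nat.card B ≤ Nat.card A

theorem ea_iff {A : Subgroup G} :
    IsElementaryAbelian p A ↔ (∀ x ∈ A, ∀ y ∈ A, x * y = y * x) ∧ ∀ a ∈ A, a ^ p = 1 :=
  and_congr_left' abelian_iff_forall

theorem ea_map_iff {G' : Type v} [Group G'] {A : Subgroup G} {f : G →* G'} (hf : Function.Injective f) :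
    IsElementaryAbelian p (A.map f) ↔ IsElementaryAbelian p A := by
  refine and_congr ⟨abelian_of_map_inj hf, abelian_map f⟩ ⟨fun h a ha => hf ?_, ?_⟩
  · rw [map_pow, h _ (mem_map_of_mem f ha), map_one]
  · rintro h _ ⟨a, ha, rfl⟩
    rw [← map_pow, h a ha, map_one]

theorem maxE_map_iff {G' : Type v} [Group G'] [Finite G'] {S A : Subgroup G} {f : G →* G'}
    (hf : Function.Injective f) : MaxE p (S.map f) (A.map f) ↔ MaxE p S A := by
  refine and_congr (map_le_map_iff_of_injective hf) (and_congr (ea_map_iff hf) ⟨fun h B hB eB => ?_, fun h B hB eB => ?_⟩)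
  · have := h _ (map_mono hB) ((ea_map_iff hf).2 eB)
    rwa [card_map_of_injective hf, card_map_of_injective hf] at this
  · have e : (B.comap f).map f = B := map_comap_eq_self (hB.trans (map_le_range f S))
    rw [← e] at hB eB ⊢
    rw [card_map_of_injective hf, card_map_of_injective hf]
    exact h _ ((map_le_map_iff_of_injective hf).1 hB) ((ea_map_iff hf).1 eB)

theorem sSup_maxE_map {G' : Type v} [Group G'] [Finite G'] (S : Subgroup G) {f : G →* G'}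
    (hf : Function.Injective f) : (sSup {A | MaxE p S A}).map f = sSup {A | MaxE p (S.map f) A} := by
  refine le_antisymm (map_le_iff_le_comap.2 (sSup_le fun A hA => map_le_iff_le_comap.1
    (le_sSup ((maxE_map_iff hf).2 hA)))) (sSup_le fun B hB => ?_)
  have e : (B.comap f).map f = B := map_comap_eq_self (hB.1.trans (map_le_range f S))
  rw [← e] at hB ⊢
  exact map_mono (le_sSup ((maxE_map_iff hf).1 hB))

theorem J_eq (S : Subgroup G) : thompsonSubgroupOf p S = sSup {A | MaxE p S A} := by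
  have : maxElementaryAbelianSubgroups p S = {A | MaxE p (⊤ : Subgroup S) A} := by
    ext A
    exact ⟨fun h => ⟨le_top, h.1, fun B _ => h.2 B⟩, fun h => ⟨h.2.1, fun B => h.2.2 B le_top⟩⟩
  rw [thompsonSubgroupOf, thompsonSubgroup, this, sSup_maxE_map _ S.subtype_injective, map_subtype_top]

theorem J_map {G' : Type v} [Group G'] [Finite G'] (S : Subgroup G) {f : G →* G'}
    (hf : Function.Injective f) : thompsonSubgroupOf p (S.map f) = (thompsonSubgroupOf p S).map f := by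
  rw [J_eq, J_eq, sSup_maxE_map _ hf]

theorem J_le (S : Subgroup G) : thompsonSubgroupOf p S ≤ S := map_subtype_le _

theorem MaxE.le_J {S A : Subgroup G} (h : MaxE p S A) : A ≤ thompsonSubgroupOf p S := by
  rw [J_eq]; exact le_sSup h

theorem norm_le_norm_J (S : Subgroup G) : 𝒩(S) ≤ 𝒩(thompsonSubgroupOf p S) := fun g hg => by
  rw [← conjg_eq_self_iff, conjg_def, ← J_map _ (conj_inj g), ← conjg_def, conjg_of_mem_norm hg]

theorem exists_maxE (S : Subgroup G) : ∃ A, MaxE p S A := by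
  obtain ⟨A, hA, h⟩ := exists_max_card_subgroup (P := fun A => A ≤ S ∧ IsElementaryAbelian p A) (H := ⊥)
    ⟨bot_le, ea_iff.2 ⟨by simp, by simp⟩⟩
  exact ⟨A, hA.1, hA.2, fun B h1 h2 => h B ⟨h1, h2⟩⟩

theorem MaxE.restrict {S T A B : Subgroup G} (hA : MaxE p S A) (hT : T ≤ S) (hAT : A ≤ T) :
    MaxE p T B ↔ MaxE p S B ∧ B ≤ T :=
  ⟨fun h => ⟨⟨h.1.trans hT, h.2.1, fun C h1 h2 => (hA.2.2 C h1 h2).trans (h.2.2 A hAT hA.2.1)⟩, h.1⟩,
    fun h => ⟨h.2, h.1.2.1, fun C h1 h2 => h.1.2.2 C (h1.trans hT) h2⟩⟩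

theorem MaxE.J_mono {S T A : Subgroup G} (hA : MaxE p S A) (hT : T ≤ S) (hAT : A ≤ T) :
    thompsonSubgroupOf p T ≤ thompsonSubgroupOf p S := by
  rw [J_eq T]
  exact sSup_le fun B hB => ((hA.restrict hT hAT).1 hB).1.le_J

theorem J_eq_of_le {S T : Subgroup G} (hT : T ≤ S) (h : thompsonSubgroupOf p S ≤ T) :
    thompsonSubgroupOf p T = thompsonSubgroupOf p S := by
  obtain ⟨A, hA⟩ := exists_maxE (p := p) S
  refine le_antisymm (hA.J_mono hT (hA.le_J.trans h)) ?_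
  rw [J_eq S]
  exact sSup_le fun B hB => ((hA.restrict hT (hA.le_J.trans h)).2 ⟨hB, (MaxE.le_J hB).trans h⟩).le_J

theorem ea_sup {A B : Subgroup G} (hA : IsElementaryAbelian p A) (hB : IsElementaryAbelian p B)
    (h : A ≤ 𝒞(B)) : IsElementaryAbelian p (A ⊔ B) := by
  refine ⟨abelian_sup hA.1 hB.1 h, fun x hx => ?_⟩
  obtain ⟨a, ha, b, hb, rfl⟩ := (mem_sup_of_left_le_norm (norm_of_cent h)).1 hx
  rw [Commute.mul_pow (comm_of_le_cent h ha hb), hA.2 a ha, hB.2 b hb, one_mul]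

theorem MaxE.mem {S A : Subgroup G} (hA : MaxE p S A) {w : G} (hw : w ∈ S) (hp : w ^ p = 1)
    (hc : w ∈ 𝒞(A)) : w ∈ A := by
  have e : IsElementaryAbelian p (zpowers w) := ⟨abelian_zpowers w, by
    rintro _ ⟨k, rfl⟩
    rw [← zpow_natCast, ← zpow_mul, mul_comm, zpow_mul, zpow_natCast, hp, one_zpow]⟩
  have h := hA.2.2 _ (sup_le (zpowers_le.2 hw) hA.1) (ea_sup e hA.2.1 (zpowers_le.2 hc))
  rw [eq_of_le_of_card_ge le_sup_right h]
  exact mem_sup_left (mem_zpowers w)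

/-- The replacement theorem for a subgroup `W` of class two and exponent `p`. -/
theorem replacement (hp : p.Prime) (hp2 : p ≠ 2) {S W A : Subgroup G} (pS : IsPGrp p S) (hW : W ⊲ S)
    (eW : ∀ w ∈ W, w ^ p = 1) (c1 : ⁅W, W⁆ ≤ 𝒞(W)) (c2 : ⁅W, W⁆ ≤ 𝒞(A)) (hA : MaxE p S A)
    (hn : ¬ W ≤ 𝒩(A)) : ∃ B, MaxE p S B ∧ A ⊓ W < B ⊓ W ∧ B ≤ 𝒩(A) := by
  have nWA : A ≤ 𝒩(W) := hA.1.trans hW.2
  have cA := ea_iff.1 hA.2.1
  -- the element `x`
  obtain ⟨x, hxW, hxN, hx⟩ : ∃ x ∈ W, x ∉ 𝒩(A) ∧ ∀ a ∈ A, x * a * x⁻¹ * a⁻¹ ∈ 𝒩(A) := by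
    have hlt : (W ⊔ A) ⊓ 𝒩(A) < W ⊔ A := lt_of_le_of_ne inf_le_left fun e =>
      hn (le_sup_left.trans (e.ge.trans inf_le_right))
    obtain ⟨y, hy, hy'⟩ := SetLike.exists_of_lt
      (nilpotent_proper_norm (IsPGrp.nil (pS.of_le (sup_le hW.1 hA.1))) hlt)
    obtain ⟨x, hx, a, ha, rfl⟩ := (mem_sup_of_right_le_norm nWA).1 hy.1
    have ha' : a ∈ (W ⊔ A) ⊓ 𝒩(A) := ⟨mem_sup_right ha, le_normalizer ha⟩
    have hxn : x ∈ 𝒩((W ⊔ A) ⊓ 𝒩(A)) := by
      have := Subgroup.mul_mem _ (mem_inf.1 hy).2 (Subgroup.inv_mem _ (le_normalizer ha'))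
      rwa [mul_inv_cancel_right] at this
    refine ⟨x, hx, fun h => hy' ⟨hy.1, mul_mem h ha'.2⟩, fun b hb => ?_⟩
    exact mul_mem (conj_mem_of_mem_norm hxn ⟨mem_sup_right hb, le_normalizer hb⟩).2 (inv_mem (le_normalizer hb))
  obtain ⟨d, hd⟩ : ∃ d : G → G, ∀ a, d a = x * a * x⁻¹ * a⁻¹ := ⟨_, fun _ => rfl⟩
  have dW : ∀ a ∈ A, d a ∈ W := fun a ha => by
    have := mul_mem hxW (conj_mem_of_le_norm nWA ha (inv_mem hxW))
    rw [hd]; simpa [mul_assoc] using this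
  have dN : ∀ a ∈ A, d a ∈ 𝒩(A) := fun a ha => hd a ▸ hx a ha
  have dm : ∀ a b, d (a * b) = d a * (a * d b * a⁻¹) := fun a b => by rw [hd, hd, hd]; group
  -- commutators in `W`
  have cW : ∀ u ∈ W, ∀ v ∈ W, ∀ w ∈ W, w * ⁅u, v⁆ = ⁅u, v⁆ * w := fun u hu v hv w hw =>
    (comm_of_le_cent c1 (commutator_mem_commutator hu hv) hw).symm
  have cWA : ∀ u ∈ W, ∀ v ∈ W, ∀ a ∈ A, ⁅a * u * a⁻¹, a * v * a⁻¹⁆ = ⁅u, v⁆ := fun u hu v hv a ha => by
    have := comm_of_le_cent c2 (commutator_mem_commutator hu hv) ha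
    calc _ = a * ⁅u, v⁆ * a⁻¹ := by simp only [commutatorElement_def]; group
      _ = _ := by rw [← this]; group
  have cr : ∀ u ∈ W, ∀ v ∈ W, ∀ w ∈ W, ⁅u, v * w⁆ = ⁅u, v⁆ * ⁅u, w⁆ := fun u hu v hv w hw => by
    calc _ = ⁅u, v⁆ * (v * ⁅u, w⁆) * v⁻¹ := by simp only [commutatorElement_def]; group
      _ = _ := by rw [cW u hu w hw v hv]; group
  have cl : ∀ u ∈ W, ∀ v ∈ W, ∀ w ∈ W, ⁅u * v, w⁆ = ⁅v, w⁆ * ⁅u, w⁆ := fun u hu v hv w hw => by
    calc _ = (u * ⁅v, w⁆) * u⁻¹ * ⁅u, w⁆ := by simp only [commutatorElement_def]; group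
      _ = _ := by rw [cW v hv w hw u hu]; group
  have ci : ∀ u ∈ W, ∀ v ∈ W, ⁅u, v⁻¹⁆ = ⁅u, v⁆⁻¹ := fun u hu v hv => by
    have := cr u hu v hv _ (inv_mem hv)
    rw [mul_inv_cancel, commutatorElement_one_right] at this
    exact eq_inv_of_mul_eq_one_right this.symm
  have cli : ∀ u ∈ W, ∀ v ∈ W, ⁅u⁻¹, v⁆ = ⁅u, v⁆⁻¹ := fun u hu v hv => by
    have := cl u hu _ (inv_mem hu) v hv
    rw [mul_inv_cancel, commutatorElement_one_left] at this
    exact eq_inv_of_mul_eq_one_left this.symm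
  have cj : ∀ a ∈ A, ∀ u ∈ W, a * u * a⁻¹ ∈ W := fun a ha u hu => conj_mem_of_le_norm nWA ha hu
  have key : ∀ a ∈ A, ∀ n ∈ W, ⁅d a, n⁆ = ⁅x, a⁻¹ * n * a⁆⁻¹ * ⁅x, n⁆ := fun a ha n hn => by
    have e : d a = x * (a * x * a⁻¹)⁻¹ := by rw [hd]; group
    have hn' : a⁻¹ * n * a ∈ W := conj_mem_of_le_norm' nWA ha hn
    rw [e, cl _ hxW _ (inv_mem (cj a ha x hxW)) n hn, cli _ (cj a ha x hxW) n hn, ← cWA x hxW _ hn' a ha]
    congr 3; group
  have cAW : ∀ a ∈ A, ∀ u ∈ A ⊓ W, d a * u = u * d a := fun a ha u hu => by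
    rw [← commutatorElement_eq_one_iff_mul_comm, key a ha u hu.2, mul_assoc, ← cA.1 a ha u hu.1,
      inv_mul_cancel_left, inv_mul_cancel]
  have ee : ∀ a ∈ A, ∀ b ∈ A, b * d a * b⁻¹ * (d a)⁻¹ ∈ A := fun a ha b hb => by
    have := mul_mem hb (conj_mem_of_mem_norm (dN a ha) (inv_mem hb))
    simpa [mul_assoc] using this
  have key2 : ∀ a ∈ A, ∀ b ∈ A, ⁅d a, d b⁆ = ⁅x, a * d b * a⁻¹⁆ * ⁅x, d b⁆⁻¹ := fun a ha b hb => by
    have h1 := cA.1 _ (ee b hb a ha) a ha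
    have h2 : a * d b * a⁻¹ * (d b)⁻¹ = d b * (a⁻¹ * d b * a)⁻¹ := by
      calc _ = a⁻¹ * (a * (a * d b * a⁻¹ * (d b)⁻¹)) := by group
        _ = _ := by rw [← h1]; group
    have hb' := dW b hb
    have hn' : a⁻¹ * d b * a ∈ W := conj_mem_of_le_norm' nWA ha hb'
    rw [key a ha _ hb', ← ci x hxW _ hb', ← cr x hxW _ (cj a ha _ hb') _ (inv_mem hb'), h2,
      cr x hxW _ hb' _ (inv_mem hn'), ci x hxW _ hn']
    exact (cW x hxW _ hb' _ (inv_mem (comm_le_of_le le_rfl le_rfl (commutator_mem_commutator hxW hn'))))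
  have cd : ∀ a ∈ A, ∀ b ∈ A, d a * d b = d b * d a := fun a ha b hb => by
    have h1 : ⁅x, d a⁆ * ⁅x, a * d b * a⁻¹⁆ = ⁅x, d b⁆ * ⁅x, b * d a * b⁻¹⁆ := by
      rw [← cr x hxW _ (dW a ha) _ (cj a ha _ (dW b hb)), ← cr x hxW _ (dW b hb) _ (cj b hb _ (dW a ha)),
        ← dm, ← dm, cA.1 a ha b hb]
    have m : ∀ u ∈ W, ⁅x, u⁆ ∈ W := fun u hu => comm_le_of_le le_rfl le_rfl (commutator_mem_commutator hxW hu)
    have h2 : ⁅d a, d b⁆ = ⁅d b, d a⁆ := by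
      rw [key2 a ha b hb, key2 b hb a ha]
      calc _ = ⁅x, d a⁆⁻¹ * (⁅x, d a⁆ * ⁅x, a * d b * a⁻¹⁆) * ⁅x, d b⁆⁻¹ := by group
        _ = ⁅x, d a⁆⁻¹ * (⁅x, d b⁆ * ⁅x, b * d a * b⁻¹⁆) * ⁅x, d b⁆⁻¹ := by rw [h1]
        _ = ⁅x, d a⁆⁻¹ * ⁅x, b * d a * b⁻¹⁆ := by
          rw [cW x hxW _ (cj b hb _ (dW a ha)) _ (m _ (dW b hb))]; group
        _ = _ := cW x hxW _ (cj b hb _ (dW a ha)) _ (inv_mem (m _ (dW a ha)))
    have h3 : ⁅d a, d b⁆ ^ 2 = 1 := by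
      rw [sq]; nth_rewrite 1 [h2]; rw [← commutatorElement_inv (d a), inv_mul_cancel]
    have h4 := eW _ (comm_le_of_le le_rfl le_rfl (commutator_mem_commutator (dW a ha) (dW b hb)))
    rw [← commutatorElement_eq_one_iff_mul_comm, ← orderOf_eq_one_iff]
    exact Nat.eq_one_of_dvd_coprimes ((Nat.coprime_primes Nat.prime_two hp).2 hp2.symm)
      (orderOf_dvd_of_pow_eq_one h3) (orderOf_dvd_of_pow_eq_one h4)
  obtain ⟨M, hM⟩ : ∃ M, M = closure (d '' A) := ⟨_, rfl⟩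
  have dM : ∀ a ∈ A, d a ∈ M := fun a ha => hM ▸ subset_closure ⟨a, ha, rfl⟩
  have Mle : ∀ X : Subgroup G, (∀ a ∈ A, d a ∈ X) → M ≤ X := fun X h => by
    rw [hM, closure_le]; rintro _ ⟨a, ha, rfl⟩; exact h a ha
  have MW := Mle W dW
  have MN := Mle _ dN
  have cM : M ≤ 𝒞(M) := Mle _ fun a ha => mem_cent_iff_le_cent_singleton.2 (Mle _ fun b hb =>
    mem_centralizer_singleton_iff.2 (cd b hb a ha))
  have eM : IsElementaryAbelian p M := ⟨abelian_iff_le_cent.2 cM, fun w hw => eW w (MW hw)⟩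
  have eC : IsElementaryAbelian p (A ⊓ 𝒞(M) : Subgroup G) :=
    ⟨abelian_of_le hA.2.1.1 inf_le_left, fun w hw => hA.2.1.2 w hw.1⟩
  have cMC : M ≤ 𝒞((A ⊓ 𝒞(M) : Subgroup G)) := le_cent_symm inf_le_right
  have sAW : A ⊓ W ≤ A ⊓ 𝒞(M) := le_inf inf_le_left (le_cent_symm (Mle _ fun a ha =>
    mem_centralizer_iff.2 fun u hu => (cAW a ha u hu).symm))
  have aM : ∀ a ∈ A, ∀ b ∈ A, a * d b * a⁻¹ ∈ M := fun a ha b hb => by
    have := mul_mem (inv_mem (dM a ha)) (dM _ (mul_mem ha hb))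
    rwa [dm, inv_mul_cancel_left] at this
  -- the counting
  have cnt : (A ⊓ 𝒞(M)).relIndex A ≤ (A ⊓ 𝒞(M)).relIndex M := by
    have hM' : IsMulCommutative M := eM.1
    let K := (A ⊓ 𝒞(M)).subgroupOf M
    have hK : K.Normal := normal_subgroupOf_of_le_normalizer (norm_of_cent cMC)
    let φ : A →* M ⧸ K := MonoidHom.mk' (fun a => QuotientGroup.mk ⟨d a, dM a a.2⟩) fun a b => by
      rw [← QuotientGroup.mk_mul, QuotientGroup.eq]
      refine mem_subgroupOf.2 (sAW ⟨?_, MW (Subtype.prop _)⟩)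
      have := inv_mem (conj_mem_of_mem_norm' (dN _ b.2) (ee _ b.2 _ a.2))
      change (d (a * b))⁻¹ * (d a * d b) ∈ A
      rw [dm, show (d a * (a * d b * (a : G)⁻¹))⁻¹ * (d a * d b) =
        ((d b)⁻¹ * (a * d b * (a : G)⁻¹ * (d b)⁻¹) * d b)⁻¹ by group]
      exact this
    have hk : φ.ker ≤ (A ⊓ 𝒞(M)).subgroupOf A := fun a ha => by
      have h1 : d a ∈ A := (mem_subgroupOf.1 ((QuotientGroup.eq_one_iff _).1 ha)).1
      refine mem_subgroupOf.2 ⟨a.2, mem_cent_iff_le_cent_singleton.2 (Mle _ fun b hb => ?_)⟩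
      have h2 := dm a b
      rw [cA.1 _ a.2 b hb, dm, cA.1 b hb _ h1, mul_inv_cancel_right, ← cd _ a.2 b hb, mul_right_inj] at h2
      rw [mem_centralizer_singleton_iff]
      calc d b * a = (a * d b * (a : G)⁻¹) * a := by rw [← h2]
        _ = _ := by group
    calc _ ≤ φ.ker.index := Nat.le_of_dvd (index_pos _) (index_dvd_of_le hk)
      _ = Nat.card φ.range := index_ker φ
      _ ≤ Nat.card (M ⧸ K) := card_le_card_group _
      _ = _ := rfl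
  refine ⟨M ⊔ A ⊓ 𝒞(M), ⟨sup_le (MW.trans hW.1) (inf_le_left.trans hA.1), ea_sup eM eC cMC, fun B h1 h2 =>
    (hA.2.2 B h1 h2).trans ?_⟩, lt_of_le_of_ne (le_inf (sAW.trans le_sup_right) inf_le_right) fun e => hxN ?_,
    sup_le MN (inf_le_left.trans le_normalizer)⟩
  · rw [← card_mul_relIndex (inf_le_left : A ⊓ 𝒞(M) ≤ A),
      ← card_mul_relIndex (le_sup_right : A ⊓ 𝒞(M) ≤ M ⊔ A ⊓ 𝒞(M)), relIndex_sup_of_left_le_norm (norm_of_cent cMC)]
    exact Nat.mul_le_mul_left _ cnt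
  · refine mem_norm_of_forall fun a ha => ?_
    have := mul_mem (e.ge ⟨mem_sup_left (dM a ha), dW a ha⟩).1 ha
    rwa [hd, inv_mul_cancel_right] at this

theorem ZJ_inf_normal (hp : p.Prime) {H S : Subgroup G} (oddH : Odd (Nat.card H)) (sylS : IsSylowOf p S H) :
    ∀ n, ∀ B : Subgroup G, Nat.card B = n → B ⊲ H → IsPGrp p B →
      H ≤ 𝒩((B ⊓ centerThompsonOf p S : Subgroup G)) := by
  intro n
  induction n using Nat.strong_induction_on with | _ n ih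
  intro B hn nsB pB
  obtain ⟨J, hJ⟩ : ∃ J, J = thompsonSubgroupOf p S := ⟨_, rfl⟩
  obtain ⟨Z, hZ⟩ : ∃ Z, Z = centerThompsonOf p S := ⟨_, rfl⟩
  have hZ' : Z = 𝒵(J) := by rw [hZ, hJ]; rfl
  rw [← hZ] at ih ⊢
  by_contra hc
  have pS : IsPGrp p S := sylS.piGrp
  have sBS : B ≤ S := sylS.le_of_norm_le pB nsB.1 (sylS.le.trans nsB.2)
  have nJ : 𝒩(J) ≤ 𝒩(Z) := hZ' ▸ (charIn_center J).norm_le
  have nS : 𝒩(S) ≤ 𝒩(Z) := (hJ ▸ norm_le_norm_J S).trans nJ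
  have nZS : S ≤ 𝒩(Z) := le_normalizer.trans nS
  have nBZS : S ≤ 𝒩((B ⊓ Z : Subgroup G)) := norm_inf (sylS.le.trans nsB.2) nZS
  have ih' : ∀ C, C < B → H ≤ 𝒩(C) → H ≤ 𝒩((C ⊓ Z : Subgroup G)) := fun C h1 h2 =>
    ih _ (hn ▸ card_lt_of_lt h1) C rfl ⟨h1.le.trans nsB.1, h2⟩ (pB.of_le h1.le)
  have ntB : B ≠ ⊥ := by
    rintro rfl
    exact hc (by rw [bot_inf_eq]; exact norm_bot _)
  have hp2 : p ≠ 2 := by
    rintro rfl
    exact (Nat.not_even_iff_odd.2 (odd_of_le oddH nsB.1)) (even_iff_two_dvd.2 (IsPGrp.dvd_card pB ntB))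
  -- `B` is the normal closure of `B ⊓ Z`
  have defB : B = ⨆ g : H, (B ⊓ Z) :^ (g : G) := by
    obtain ⟨C, hC⟩ : ∃ C : Subgroup G, C = ⨆ g : H, (B ⊓ Z) :^ (g : G) := ⟨_, rfl⟩
    have sCB : C ≤ B := hC ▸ iSup_le fun g => conjg_le_of_mem_norm inf_le_left (nsB.2 g.2)
    have s1 : B ⊓ Z ≤ C := hC ▸ (conjg_one _).ge.trans (le_iSup (fun g : H => (B ⊓ Z) :^ (g : G)) 1)
    have nC : H ≤ 𝒩(C) := le_norm_of_conjg_le fun h hh => by
      rw [hC, conjg_iSup]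
      refine iSup_le fun g => ?_
      rw [← conjg_mul]
      exact le_iSup_of_le (⟨h * g, mul_mem hh g.2⟩ : H) le_rfl
    rcases sCB.lt_or_eq with h | h
    · have := ih' C h nC
      rw [show C ⊓ Z = B ⊓ Z from le_antisymm (inf_le_inf_right _ sCB) (le_inf s1 inf_le_right)] at this
      exact absurd this hc
    · rw [← hC, h]
  have gen : ∀ X : Subgroup G, (∀ g ∈ H, (B ⊓ Z) :^ g ≤ X) → B ≤ X := fun X hX =>
    defB.le.trans (iSup_le fun g => hX g g.2)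
  have genN : ∀ X : Subgroup G, H ≤ 𝒩(X) → B ⊓ Z ≤ X → B ≤ X := fun X h1 h2 =>
    gen X fun g hg => conjg_le_of_mem_norm h2 (h1 hg)
  have nD : H ≤ 𝒩((⁅B, B⁆ : Subgroup G)) := norm_comm nsB.2 nsB.2
  have nDZ := ih' _ (der_lt_of_sol pB.sol ntB) nD
  have sDZ : ⁅B, B⁆ ≤ Z := by
    have nB := nsB.1.trans nDZ
    have h1 : ⁅B ⊓ Z, B⁆ ≤ ⁅B, B⁆ ⊓ Z := le_inf (commutator_mono inf_le_left le_rfl)
      ((commutator_mono inf_le_right le_rfl).trans (comm_le_left (sBS.trans nZS)))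
    have h2 : ⁅⨆ g : H, (B ⊓ Z) :^ (g : G), B⁆ ≤ ⁅B, B⁆ ⊓ Z := comm_iSup_left_le
      (fun g => (conjg_le_of_mem_norm inf_le_left (nsB.2 g.2)).trans nB) fun g => by
        have := conjg_le_of_mem_norm h1 (nDZ g.2)
        rwa [conjg_comm, conjg_of_mem_norm (nsB.2 g.2)] at this
    rw [← defB] at h2
    exact h2.trans inf_le_right
  have cZJ : Z ≤ 𝒞(J) := hZ' ▸ inf_le_right
  have sZJ : Z ≤ J := hZ' ▸ inf_le_left
  have cDB : ⁅B, B⁆ ≤ 𝒞(B) := le_cent_symm (genN _ (norm_cent nD)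
    (inf_le_right.trans (cZJ.trans (cent_anti (sDZ.trans sZJ)))))
  -- the subgroup `L`
  obtain ⟨L, hL⟩ : ∃ L, L = sSup {K : Subgroup G | K ⊲ H ∧ K ≤ 𝒩((B ⊓ Z : Subgroup G))} := ⟨_, rfl⟩
  have nsL : L ⊲ H := hL ▸ ⟨sSup_le fun K hK => hK.1.1, norm_sSup fun K hK => hK.1.2⟩
  have nL : L ≤ 𝒩((B ⊓ Z : Subgroup G)) := hL ▸ sSup_le fun K hK => hK.2
  have leL : ∀ K, K ⊲ H → K ≤ 𝒩((B ⊓ Z : Subgroup G)) → K ≤ L := fun K h1 h2 => hL ▸ le_sSup ⟨h1, h2⟩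
  have sylL := sylS.normal_inf nsL
  have nJL : ¬ J ≤ L := fun h => by
    refine hc ((frattini_arg hp nsL sylL).ge.trans (sup_le nL (norm_inf (inf_le_left.trans nsB.2) ?_)))
    refine inf_le_right.trans ((norm_le_norm_J (p := p) _).trans ?_)
    rw [J_eq_of_le inf_le_right (le_inf (hJ ▸ h) (J_le S)), ← hJ]
    exact nJ
  obtain ⟨W, hW⟩ : ∃ W, W = ohm1 p B := ⟨_, rfl⟩
  have sWB : W ≤ B := hW ▸ ohm1_le p B
  have nsW : W ⊲ H := ⟨sWB.trans nsB.1, hW ▸ norm_ohm1 p nsB.2⟩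
  have eW : ∀ w ∈ W, w ^ p = 1 := hW ▸ exponent_Ohm1_odd_nil23 hp pB (odd_of_le oddH nsB.1)
    (Or.inl (comm_eq_bot_iff.2 cDB))
  have stab : ∀ A, MaxE p S A → W ≤ 𝒩(A) → A ≤ L := fun A hA nA => by
    have sA := hA.1.trans sylS.le
    have nsC := inf_cent_normalIn_of_norm nsW.2
    have h := odd_p_stable hp oddH W A (pB.of_le sWB) ((pcore_normal _ H).sup nsW) (le_inf sA (sA.trans nsW.2))
      (pS.of_le hA.1) (comm_eq_bot_iff.2 ((comm_le_right nA).trans (abelian_iff_le_cent.1 hA.2.1.1)))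
    rw [inf_eq_left.2 nsW.2, quot_le_iff (sA.trans nsC.2)] at h
    have nsK := quotPre_normalIn_of nsC (pcore_normal {p} _)
    refine h.trans (leL _ nsK ?_)
    have i1 : PiNat {p} ((H ⊓ 𝒞(B)).relIndex (H ⊓ 𝒞(W))) := piNat_relIndex_of_forall_le fun Q sQ p'Q =>
      le_inf (sQ.trans inf_le_left) (coprime_odd_faithful_Ohm1 pB ((sQ.trans inf_le_left).trans nsB.2)
        (pB.coprime p'Q) (odd_of_le oddH nsB.1) (hW ▸ sQ.trans inf_le_right))
    have sC : H ⊓ 𝒞(B) ≤ H ⊓ 𝒞(W) := inf_le_inf_left _ (cent_anti sWB)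
    have i2 := piNat_relIndex_trans sC (le_quotPre (piCoreOf {p} (H /ₛ (H ⊓ 𝒞(W))))) i1
      (by rw [relIndex_quotPre_self]; exact pcore_piGrp _ _)
    rw [← (sylS.normal_inf nsK).sup_eq_of_index (sC.trans (le_quotPre _)) i2]
    exact sup_le (norm_of_cent (inf_le_right.trans (cent_anti inf_le_left))) (inf_le_right.trans nBZS)
  obtain ⟨A₀, hA₀, nA₀⟩ : ∃ A, MaxE p S A ∧ ¬ A ≤ L := by
    by_contra h
    push Not at h
    exact nJL (by rw [hJ, J_eq]; exact sSup_le h)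
  obtain ⟨_, ⟨A, hA, nA, rfl⟩, hmax⟩ := exists_max_card_subgroup
    (P := fun Y => ∃ A, MaxE p S A ∧ ¬ A ≤ L ∧ Y = A ⊓ W) ⟨A₀, hA₀, nA₀, rfl⟩
  have nWA : ¬ W ≤ 𝒩(A) := fun h => nA (stab A hA h)
  obtain ⟨A', hA', lt, nA'⟩ := replacement hp hp2 pS ⟨sWB.trans sBS, sylS.le.trans nsW.2⟩ eW
    ((der_mono sWB).trans (cDB.trans (cent_anti sWB)))
    ((der_mono sWB).trans (sDZ.trans (cZJ.trans (cent_anti (hJ ▸ hA.le_J))))) hA nWA
  have sL : A' ≤ L := by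
    by_contra h
    exact (hmax _ ⟨A', hA', h, rfl⟩).not_gt (card_lt_of_lt lt)
  have s2 : A' ≤ L ⊓ S := le_inf sL hA'.1
  have sX : thompsonSubgroupOf p (L ⊓ S) ≤ J := hJ ▸ hA'.J_mono inf_le_right s2
  have cB : B ≤ 𝒞(thompsonSubgroupOf p (L ⊓ S)) := gen _ fun g hg => by
    obtain ⟨l, hl, m, hm, e⟩ := frattini_arg_mem hp sylL (inv_mem (nsL.2 hg))
    have e' : g = m⁻¹ * l⁻¹ := by rw [← mul_inv_rev, ← e, inv_inv]
    rw [e', conjg_mul, conjg_of_mem_norm (inv_mem (nL hl))]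
    exact conjg_le_of_mem_norm (inf_le_right.trans (cZJ.trans (cent_anti sX)))
      (inv_mem (norm_cent (norm_le_norm_J _) hm))
  have sAX : A' ≤ thompsonSubgroupOf p (L ⊓ S) := ((hA'.restrict inf_le_right s2).2 ⟨hA', s2⟩).le_J
  exact nWA fun w hw => nA' (hA'.mem (sBS (sWB hw)) (eW w hw) (cent_anti sAX (cB (sWB hw))))

theorem ZJ_normal (hp : p.Prime) {H S : Subgroup G} (oddH : Odd (Nat.card H))
    (solH : Group.IsSolvable H) (sylS : IsSylowOf p S H) (hO : pPrimeCoreOf p H = ⊥) :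
    centerThompsonOf p S ⊲ H := by
  have sZ : centerThompsonOf p S ≤ S := inf_le_left.trans (J_le S)
  have h1 := odd_p_abelian_constrained hp oddH solH S _ sylS (abelian_inf_cent (thompsonSubgroupOf p S))
    ⟨sZ, le_normalizer.trans ((norm_le_norm_J S).trans (charIn_center _).norm_le)⟩
  rw [pPrimePCoreOf, pcore2_of_eq_bot hO] at h1
  have h2 := ZJ_inf_normal hp oddH sylS _ _ rfl (pcore_normal {p} H) (pcore_pGrp p H)
  rw [inf_eq_right.2 (show centerThompsonOf p S ≤ _ from h1)] at h2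
  exact ⟨sZ.trans sylS.le, h2⟩

theorem ZJ_p'core_normal (hp : p.Prime) {H S : Subgroup G} (oddH : Odd (Nat.card H))
    (solH : Group.IsSolvable H) (sylS : IsSylowOf p S H) :
    (pPrimeCoreOf p H ⊔ centerThompsonOf p S) ⊲ H := by
  have nsO := pcore_normal {p}ᶜ H
  have nOS := sylS.le.trans nsO.2
  have inj := coset_comp_injective nOS (inf_comm S _ ▸ sylS.piGrp.inf_eq_bot (pcore_piGrp {p}ᶜ H))
  have sZ : centerThompsonOf p S ≤ H := (inf_le_left.trans (J_le S)).trans sylS.le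
  have h := ZJ_normal hp (odd_quot _ oddH) (sol_quot _ solH) (sylS.quot nsO.2) (pcore_quot_pcore _ H)
  have e : centerThompsonOf p (S /ₛ piCoreOf {p}ᶜ H) =
      (pPrimeCoreOf p H ⊔ centerThompsonOf p S) /ₛ piCoreOf {p}ᶜ H := by
    rw [quot_sup_self_left (sZ.trans nsO.2), centerThompsonOf, centerThompsonOf]
    conv => lhs; rw [← map_subtype_top S, quot_map_subtype nOS, J_map _ inj,
      ← map_inf_cent_of_inj _ _ inj, ← quot_map_subtype nOS,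
      map_inf_cent_of_inj _ _ S.subtype_injective, ← J_map _ S.subtype_injective,
      map_subtype_top]
  rw [e] at h
  exact (quot_normalIn_iff ⟨le_sup_left, (sup_le nsO.1 sZ).trans nsO.2⟩ nsO).1 h

end CA.Dih

theorem CA.Dih.realizeEqnsZJe : True := by
  have := @CA.Dih.MaxE.eq_1.{0}
  have := @CA.Dih.MaxE.eq_def.{0}
  have := @CA.Dih.MaxE.congr_simp.{0}
  trivial
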